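import Mathlib
import Cfsg.Agent.HH.Frat
import Cfsg.Agent.H63.PLen

set_option autoImplicit false

/-!
Bounds for the `p`-length from Theorem B.
-/

namespace Cfsg.Agent.HH

open Subgroup

universe u

/-- Lifting of `p`-elements. -/
theorem exists_lift_pelt {G G' : Type*} [Group G] [Finite G] [Group G'] (f : G →* G')
    (hf : Function.Surjective f) {p : ℕ} [hp : Fact p.Prime] (y : G') {k : ℕ} (hy : y ^ p ^ k = 1) :
    ∃ x : G, f x = y ∧ ∃ l, x ^ p ^ l = 1 := by
  obtain ⟨x, rfl⟩ := hf y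
  obtain ⟨a, b, hb, hab⟩ := Nat.exists_eq_pow_mul_and_not_dvd (orderOf_pos x).ne' p hp.out.ne_one
  have hcop : Nat.Coprime (p ^ k) b := Nat.Coprime.pow_left _ ((Nat.Prime.coprime_iff_not_dvd hp.out).2 hb)
  obtain ⟨c, hc1, hc2⟩ := Nat.chineseRemainder hcop 1 0
  refine ⟨x ^ c, ?_, a, ?_⟩
  · rw [map_pow]
    have h1 : f x ^ c = f x ^ 1 := by
      rw [pow_eq_pow_iff_modEq]
      exact hc1.of_dvd (orderOf_dvd_of_pow_eq_one hy)
    rw [h1, pow_one]
  · rw [← pow_mul, ← orderOf_dvd_iff_pow_eq_one, hab, mul_comm]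
    exact mul_dvd_mul ((Nat.modEq_zero_iff_dvd).1 hc2) dvd_rfl

/-- All `p`-elements have order dividing `p^n`. -/
def PExp (p n : ℕ) (G : Type*) [Group G] : Prop := ∀ x : G, (∃ k, x ^ p ^ k = 1) → x ^ p ^ n = 1

theorem pExp_of_sylow {G : Type*} [Group G] [Finite G] {p n : ℕ} [Fact p.Prime]
    (h : ∀ (P : Sylow p G), ∀ x ∈ (P : Subgroup G), x ^ p ^ n = 1) : PExp p n G := by
  rintro x ⟨k, hk⟩
  have h1 : IsPGroup p (zpowers x) := by
    rintro ⟨y, hy⟩
    obtain ⟨j, rfl⟩ := mem_zpowers_iff.1 hy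
    refine ⟨k, Subtype.ext ?_⟩
    change (x ^ j) ^ p ^ k = 1
    rw [← zpow_natCast, ← zpow_mul, mul_comm, zpow_mul, zpow_natCast, hk, one_zpow]
  obtain ⟨P, hP⟩ := h1.exists_le_sylow
  exact h P x (hP (mem_zpowers x))

theorem PExp.quotient {G : Type*} [Group G] [Finite G] {p n : ℕ} [Fact p.Prime] (h : PExp p n G)
    (N : Subgroup G) [N.Normal] : PExp p n (G ⧸ N) := by
  rintro y ⟨k, hk⟩
  obtain ⟨x, rfl, hx⟩ := exists_lift_pelt (QuotientGroup.mk' N) (QuotientGroup.mk'_surjective N) y hk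
  rw [← map_pow, h x hx, map_one]

variable {G : Type u} [Group G] {p : ℕ} [hp : Fact p.Prime]

theorem FMod.pi_mul_pow {V : Type*} [AddCommGroup V] [Module (ZMod p) V] (F : FMod p G V)
    (v : pCore p G) (x : G) (k : ℕ) :
    ∃ w : pCore p G, (w : G) = ((v : G) * x) ^ k * (x ^ k)⁻¹ ∧
      (F.π w).toAdd = ∑ i ∈ Finset.range k, ((F.ρ x) ^ i) (F.π v).toAdd := by
  haveI : (pCore p G).Normal := Solv.pCore_normal p
  induction k with
  | zero => exact ⟨1, by simp, by simp⟩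
  | succ k ih =>
    obtain ⟨w, hw, hπ⟩ := ih
    have hc : x * w * x⁻¹ ∈ pCore p G := (inferInstance : (pCore p G).Normal).conj_mem w w.2 x
    refine ⟨v * ⟨x * w * x⁻¹, hc⟩, ?_, ?_⟩
    · change (v : G) * (x * w * x⁻¹) = _
      rw [hw, pow_succ', pow_succ]
      group
    · rw [map_mul, toAdd_mul, F.equiv x w ⟨x * w * x⁻¹, hc⟩ rfl, hπ, Finset.sum_range_succ', map_sum, pow_zero,
        Module.End.one_apply, add_comm]
      congr 1
      apply Finset.sum_congr rfl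
      intro i _
      rw [pow_succ', Module.End.mul_apply]

theorem FMod.exists_pow_ne [Finite G] {V : Type*} [AddCommGroup V] [Module (ZMod p) V] (F : FMod p G V)
    {x : G} {n : ℕ} (h : (F.ρ x - 1) ^ (p ^ n - 1) ≠ 0) (hx : x ^ p ^ n = 1) :
    ∃ v ∈ pCore p G, (v * x) ^ p ^ n ≠ 1 := by
  have hVnt : Nontrivial V := by
    by_contra hcon
    rw [not_nontrivial_iff_subsingleton] at hcon
    apply h
    apply LinearMap.ext
    intro v
    exact Subsingleton.elim _ _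
  haveI : CharP (Module.End (ZMod p) V) p :=
    charP_of_injective_algebraMap (FaithfulSMul.algebraMap_injective (ZMod p) (Module.End (ZMod p) V)) p
  obtain ⟨u, hu⟩ : ∃ u, ((F.ρ x - 1) ^ (p ^ n - 1)) u ≠ 0 := by
    by_contra hcon
    push Not at hcon
    exact h (LinearMap.ext hcon)
  obtain ⟨v, hv⟩ := F.surj (Multiplicative.ofAdd u)
  obtain ⟨w, hw, hπ⟩ := F.pi_mul_pow v x (p ^ n)
  refine ⟨v, v.2, ?_⟩
  intro h1
  rw [h1, hx, inv_one, mul_one] at hw
  have hw1 : w = 1 := Subtype.ext hw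
  rw [hw1, map_one, toAdd_one, hv, toAdd_ofAdd, ← LinearMap.sum_apply, geom_eq_pow] at hπ
  exact hu hπ.symm

/-- `O_{p'}(G/O_{p'}(G)) = 1` -/
theorem pPrimeCore_quotient_eq_bot [Finite G] : pPrimeCore p (G ⧸ pPrimeCore p G) = ⊥ := by
  have h0 : (Nat.card (pPrimeCore p G)).Coprime p := Solv.pPrimeCore_card_coprime p
  have h1 : (Nat.card (pPrimeCore p (G ⧸ pPrimeCore p G))).Coprime p := Solv.pPrimeCore_card_coprime p
  haveI h2 : (pPrimeCore p (G ⧸ pPrimeCore p G)).Normal := (Solv.coprime_card_sSup p _ (fun _ h => h)).1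
  have h3 : ((pPrimeCore p (G ⧸ pPrimeCore p G)).comap (QuotientGroup.mk' (pPrimeCore p G))) ≤ pPrimeCore p G := by
    apply Solv.le_pPrimeCore inferInstance
    have h4 := H63.relIndex_comap_mk' (pPrimeCore p G) (pPrimeCore p (G ⧸ pPrimeCore p G))
    have h5 : pPrimeCore p G ≤ (pPrimeCore p (G ⧸ pPrimeCore p G)).comap (QuotientGroup.mk' (pPrimeCore p G)) :=
      H63.le_comap_mk' _ _
    have h6 := H63.card_mul_relIndex h5
    rw [h4] at h6
    rw [← h6]
    exact h0.mul_left h1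
  rw [eq_bot_iff]
  intro y hy
  obtain ⟨x, rfl⟩ := QuotientGroup.mk'_surjective _ y
  exact (QuotientGroup.eq_one_iff x).2 (h3 hy)

theorem sylow_comm_map {G' : Type*} [Group G'] [Finite G] {q : ℕ} [Fact q.Prime] (f : G →* G') (hf : Function.Surjective f)
    (h : ∀ Q : Sylow q G, IsMulCommutative Q) : ∀ Q : Sylow q G', IsMulCommutative Q := by
  haveI : Finite G' := Finite.of_surjective f hf
  intro Q
  obtain ⟨S⟩ : Nonempty (Sylow q G) := inferInstance
  have hS := h S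
  have e := Sylow.equiv (S.mapSurjective hf) Q
  constructor
  constructor
  intro a b
  apply e.symm.injective
  rw [map_mul, map_mul]
  obtain ⟨a', ha', haa⟩ : (e.symm a : G') ∈ (S : Subgroup G).map f := (e.symm a).2
  obtain ⟨b', hb', hbb⟩ : (e.symm b : G') ∈ (S : Subgroup G).map f := (e.symm b).2
  apply Subtype.ext
  change (e.symm a : G') * (e.symm b : G') = (e.symm b : G') * (e.symm a : G')
  rw [← haa, ← hbb, ← map_mul, ← map_mul]
  congr 1
  exact congrArg Subtype.val (hS.is_comm.comm (⟨a', ha'⟩ : (S : Subgroup G)) ⟨b', hb'⟩)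

/-- The basic bound: `l_p ≤ e_p` in the non-exceptional case. -/
theorem pLength_le_exp : ∀ (n : ℕ) (G : Type u) [Group G] [Finite G], IsPSolvable p G → PExp p n G →
    (∀ (q : ℕ) [Fact q.Prime], (∃ n₀ m : ℕ, 1 ≤ n₀ ∧ 1 ≤ m ∧ p ^ n₀ - 1 = q ^ m) →
      ∀ Q : Sylow q G, IsMulCommutative (Q : Subgroup G)) → PLengthLE p n G := by
  have hpp : p.Prime := hp.out
  intro n
  induction n with
  | zero =>
    intro G _ _ _ hexp _
    rw [H63.pLengthLE_zero_iff]
    rw [Nat.coprime_comm, Nat.Prime.coprime_iff_not_dvd hpp]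
    intro hdvd
    obtain ⟨x, hx⟩ := exists_prime_orderOf_dvd_card' p hdvd
    have h1 := hexp x ⟨1, by rw [pow_one, ← hx, pow_orderOf_eq_one]⟩
    rw [pow_zero, pow_one] at h1
    rw [h1, orderOf_one] at hx
    exact hpp.one_lt.ne hx
  | succ n ih =>
    intro G _ _ hG hexp hab
    haveI : (pPrimeCore p G).Normal := (Solv.coprime_card_sSup p _ (fun _ h => h)).1
    apply H63.pLengthLE_of_quotient_coprime (pPrimeCore p G) (Solv.pPrimeCore_card_coprime p)
    set G₁ := G ⧸ pPrimeCore p G with hG₁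
    have hG1 : IsPSolvable p G₁ := H76.isPSolvable_quotient _ hG
    have hexp1 : PExp p (n + 1) G₁ := hexp.quotient _
    have hab1 : ∀ (q : ℕ) [Fact q.Prime], (∃ n₀ m : ℕ, 1 ≤ n₀ ∧ 1 ≤ m ∧ p ^ n₀ - 1 = q ^ m) →
      ∀ Q : Sylow q G₁, IsMulCommutative (Q : Subgroup G₁) := fun q _ hq =>
        sylow_comm_map (QuotientGroup.mk' _) (QuotientGroup.mk'_surjective _) (hab q hq)
    have hcore : pPrimeCore p G₁ = ⊥ := pPrimeCore_quotient_eq_bot
    haveI : (pCore p G₁).Normal := Solv.pCore_normal p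
    have hP : IsPGroup p (pCore p G₁) := Solv.pCore_isPGroup p
    apply H63.pLengthLE_of_quotient_pgroup (pCore p G₁) hP
    apply ih (G₁ ⧸ pCore p G₁) (H76.isPSolvable_quotient _ hG1) ?_
      (fun q _ hq => sylow_comm_map (QuotientGroup.mk' _) (QuotientGroup.mk'_surjective _) (hab1 q hq))
    rintro y ⟨k, hk⟩
    obtain ⟨x, rfl, l, hl⟩ := exists_lift_pelt (QuotientGroup.mk' (pCore p G₁))
      (QuotientGroup.mk'_surjective _) y hk
    by_contra hne
    have hx1 : x ^ p ^ n ∉ pCore p G₁ := by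
      intro h
      apply hne
      rw [← map_pow]
      exact (QuotientGroup.eq_one_iff _).2 h
    have hx2 : x ^ p ^ (n + 1) = 1 := hexp1 x ⟨l, hl⟩
    obtain ⟨V, _, _, _, ⟨F⟩⟩ := exists_fmod hG1 hcore
    rcases F.thmB hG1 (x := x) (n := n + 1) (by omega) (by rw [hx2]; exact one_mem _)
      (by rw [Nat.add_sub_cancel]; exact hx1) with h1 | ⟨n₀, q, m, hn₀, -, hq, hm, hpq, hS, -⟩
    · obtain ⟨v, hv, hvx⟩ := F.exists_pow_ne h1 hx2
      apply hvx
      apply hexp1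
      -- v * x is a p-element
      have h2 : (v * x) ^ p ^ (n + 1) ∈ pCore p G₁ := by
        rw [← QuotientGroup.eq_one_iff, QuotientGroup.mk_pow, QuotientGroup.mk_mul,
          (QuotientGroup.eq_one_iff v).2 hv, one_mul, ← QuotientGroup.mk_pow, hx2, QuotientGroup.mk_one]
      obtain ⟨j, hj⟩ := hP ⟨_, h2⟩
      have h3 := congrArg Subtype.val hj
      change ((v * x) ^ p ^ (n + 1)) ^ p ^ j = 1 at h3
      exact ⟨n + 1 + j, by rw [pow_add, pow_mul, h3]⟩
    · haveI : Fact q.Prime := ⟨hq⟩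
      obtain ⟨S⟩ : Nonempty (Sylow q G₁) := inferInstance
      exact hS S (hab1 q ⟨n₀, m, hn₀, hm, hpq⟩ S)

end Cfsg.Agent.HH
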