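import Mathlib
import Cfsg.Agent.HH.CritC
import Cfsg.Agent.HH.TArg

set_option autoImplicit false

/-!
The critical case for an invariant subspace.
-/

namespace Cfsg.Agent.HH

open Module
open scoped BigOperators

variable {K : Type*} [Field K] {V : Type*} [AddCommGroup V] [Module K V]
variable {G : Type*} [Group G] {ρ : Representation K G V}

theorem IrrOn.crit [IsAlgClosed K] [FiniteDimensional K V] [Finite G] {Q R : Subgroup G} {y : G}
    {U : Submodule K V} (h : IrrOn ρ Q y U)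
    (hQK : (Nat.card Q : K) ≠ 0) (hNK : (orderOf y : K) ≠ 0)
    (hyQ : y ∈ Subgroup.normalizer (Q : Set G)) (hRQ : R ≤ Q)
    (r1 : ∀ g ∈ R, ∃ c : K, ∀ w ∈ U, ρ g w = c • w)
    (r2 : ∀ g ∈ Q, g ∉ R → ∃ h ∈ Q, ∃ c : K, c ≠ 1 ∧ ∀ w ∈ U, ρ (h * g * h⁻¹) w = c • ρ g w)
    (r3 : ∀ g ∈ Q, ∀ h ∈ Q, ∃ c : K, ∀ w ∈ U, ρ (h * g * h⁻¹) w = c • ρ g w)
    (r4 : ∀ g ∈ Q, g * y * g⁻¹ * y⁻¹ ∈ R → g ∈ R)
    (r5 : ∀ c ∈ Subgroup.zpowers y, c ≠ 1 → ∀ g ∈ Q, g⁻¹ * (c * g * c⁻¹) ∈ R → g ∈ R) :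
    R.relIndex Q = finrank K U ^ 2 ∧ ∃ m : Fin (orderOf y) → ℕ, ∑ i, m i = finrank K U ∧
      orderOf y * ∑ i, m i ^ 2 + 1 ≤ finrank K U ^ 2 + orderOf y := by
  classical
  have hfin : ∀ g : G, IsOfFinOrder g := fun g => isOfFinOrder_of_finite g
  have hyN : Subgroup.zpowers y ≤ Subgroup.normalizer (Q : Set G) := by
    rw [Subgroup.zpowers_le]; exact hyQ
  have hcQ : ∀ c ∈ Subgroup.zpowers y, ∀ g ∈ Q, c * g * c⁻¹ ∈ Q := fun c hc g hg =>
    (Subgroup.mem_normalizer_iff.1 (hyN hc) g).1 hg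
  have hcQ' : ∀ c ∈ Subgroup.zpowers y, ∀ g ∈ Q, c⁻¹ * g * c ∈ Q := fun c hc g hg =>
    (Subgroup.mem_normalizer_iff''.1 (hyN hc) g).1 hg
  have hirr := h.irr_of_stab (hfin y) hQK (hcQ y (Subgroup.mem_zpowers _))
    (hcQ' y (Subgroup.mem_zpowers _)) r1 r2 r4
  obtain ⟨u₀, hu₀, hu₀0⟩ := (Submodule.ne_bot_iff _).1 h.ne
  let S : Subgroup G :=
    { carrier := {g | ∀ w ∈ U, ρ g w ∈ U}
      one_mem' := fun w hw => by rw [map_one]; exact hw
      mul_mem' := by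
        intro a b ha hb w hw
        rw [rho_mul]; exact ha _ (hb w hw)
      inv_mem' := by
        intro a ha
        exact stable_zpowers (hfin a) ha a⁻¹ (Subgroup.inv_mem _ (Subgroup.mem_zpowers a)) }
  set P : Subgroup G := Q ⊔ Subgroup.zpowers y with hP
  have hPS : P ≤ S := by
    apply sup_le
    · exact h.invQ
    · rw [Subgroup.zpowers_le]; exact h.invy
  have hPU : ∀ g ∈ P, ∀ w ∈ U, ρ g w ∈ U := fun g hg => hPS hg
  set ρ' := restr ρ P U hPU with hρ'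
  set Q' := Q.subgroupOf P with hQ'
  have hQP : Q ≤ P := le_sup_left
  have hyP' : y ∈ P := (le_sup_right : Subgroup.zpowers y ≤ P) (Subgroup.mem_zpowers _)
  have hmapbot : ∀ W : Submodule K U, W.map U.subtype = ⊥ → W = ⊥ := by
    intro W hW
    rw [eq_bot_iff]
    intro w hw
    have : (w : V) ∈ W.map U.subtype := ⟨w, hw, rfl⟩
    rw [hW, Submodule.mem_bot] at this
    exact Subtype.ext this
  have hmaptop : ∀ W : Submodule K U, W.map U.subtype = U → W = ⊤ := by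
    intro W hW
    rw [eq_top_iff]
    rintro ⟨w, hw⟩ -
    have h4 := hw
    rw [← hW] at h4
    obtain ⟨w', hw', hww'⟩ := h4
    have : w' = ⟨w, hw⟩ := Subtype.ext hww'
    rw [← this]; exact hw'
  have hIrr : Irr ρ' Q' := by
    refine ⟨(Submodule.nontrivial_iff_ne_bot).2 h.ne, ?_⟩
    intro W hWinv
    rcases hirr (W.map U.subtype) (Submodule.map_subtype_le _ _) (by
      rintro g hg _ ⟨w, hw, rfl⟩
      exact ⟨_, hWinv ⟨g, hQP hg⟩ hg w hw, rfl⟩) with h4 | h4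
    · exact Or.inl (hmapbot W h4)
    · exact Or.inr (hmaptop W h4)
  have hQ'card : Nat.card Q' = Nat.card Q := Nat.card_congr (Subgroup.subgroupOfEquivOfLe hQP).toEquiv
  have hoy : orderOf (⟨y, hyP'⟩ : P) = orderOf y := Subgroup.orderOf_mk _ _
  have hcz : ∀ c ∈ Subgroup.zpowers (⟨y, hyP'⟩ : P), (c : G) ∈ Subgroup.zpowers y := by
    intro c hc
    obtain ⟨k, rfl⟩ := Subgroup.mem_zpowers_iff.1 hc
    exact Subgroup.mem_zpowers_iff.2 ⟨k, rfl⟩
  have hnorm' : ∀ c ∈ Subgroup.zpowers (⟨y, hyP'⟩ : P), ∀ g ∈ Q', c * g * c⁻¹ ∈ Q' := by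
    intro c hc g hg
    rw [hQ', Subgroup.mem_subgroupOf] at hg ⊢
    exact hcQ c (hcz c hc) g hg
  have hscalR : ∀ g : P, g ∈ scal ρ' Q' ↔ (g : G) ∈ R := by
    intro g
    constructor
    · rintro ⟨hg, c, hc⟩
      rw [hQ', Subgroup.mem_subgroupOf] at hg
      by_contra hgR
      obtain ⟨h', hh, a, ha, haU⟩ := r2 g hg hgR
      apply ha
      have h4 : ∀ w ∈ U, ρ g w = c • w := by
        intro w hw
        have := congrArg (fun f : Module.End K U => ((f ⟨w, hw⟩ : U) : V)) hc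
        exact this
      have h5 := haU u₀ hu₀
      rw [rho_mul, rho_mul, h4 _ (h.invQ _ (Q.inv_mem hh) _ hu₀), map_smul, rho_apply_inv, h4 _ hu₀] at h5
      have hc0 : c ≠ 0 := by
        rintro rfl
        apply hu₀0
        rw [← rho_inv_apply ρ (g : G) u₀, h4 _ hu₀, zero_smul, map_zero]
      have h6 : (1 - a) • (c • u₀) = 0 := by rw [sub_smul, one_smul, ← h5, sub_self]
      rcases smul_eq_zero.1 h6 with h7 | h7
      · exact (sub_eq_zero.1 h7).symm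
      · rcases smul_eq_zero.1 h7 with h8 | h8
        · exact absurd h8 hc0
        · exact absurd h8 hu₀0
    · intro hg
      obtain ⟨c, hc⟩ := r1 g hg
      refine ⟨hRQ hg, c, ?_⟩
      apply LinearMap.ext
      intro w
      apply Subtype.ext
      exact hc w w.2
  have hcl' : ∀ g ∈ Q', ∀ k ∈ Q', ∃ c : K, ρ' (k * g * k⁻¹) = c • ρ' g := by
    intro g hg k hk
    obtain ⟨c, hc⟩ := r3 g hg k hk
    refine ⟨c, ?_⟩
    apply LinearMap.ext
    intro w
    apply Subtype.ext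
    exact hc w w.2
  have hfree' : ∀ c ∈ Subgroup.zpowers (⟨y, hyP'⟩ : P), c ≠ 1 → ∀ g ∈ Q', g⁻¹ * (c * g * c⁻¹) ∈ scal ρ' Q' →
      g ∈ scal ρ' Q' := by
    intro c hc hc1 g hg hcg
    rw [hscalR] at hcg ⊢
    exact r5 c (hcz c hc) (fun h5 => hc1 (Subtype.ext h5)) g hg hcg
  have hQ'K : (Nat.card Q' : K) ≠ 0 := by rw [hQ'card]; exact hQK
  haveI : NeZero (orderOf y : K) := ⟨hNK⟩
  haveI : NeZero (orderOf y) := ⟨(orderOf_pos y).ne'⟩
  obtain ⟨ζ, hζ⟩ := HasEnoughRootsOfUnity.exists_primitiveRoot K (orderOf y)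
  obtain ⟨h6, h7⟩ := crit_sum_sq hIrr hQ'K hcl' hoy hNK hnorm' hfree' hζ
  refine ⟨?_, _, h6, h7⟩
  rw [← hIrr.card_quot hQ'K hcl']
  have h5 : (scal ρ' Q').relIndex Q' = R.relIndex Q := by
    have h6 : scal ρ' Q' = R.subgroupOf P := by
      ext g
      rw [hscalR, Subgroup.mem_subgroupOf]
    rw [h6, hQ', Subgroup.relIndex_subgroupOf hQP]
  rw [← h5]; rfl

/-- the arithmetic of nearly equal multiplicities -/
theorem dvd_of_sum_sq {N : ℕ} (m : Fin N → ℕ) {d : ℕ} (hN : 0 < N) (h1 : ∑ i, m i = d)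
    (h2 : N * ∑ i, m i ^ 2 + 1 ≤ d ^ 2 + N) (hcop : N.Coprime d) : N ∣ d + 1 ∨ N ∣ d - 1 := by
  set a := d / N with ha
  set b := d % N with hb
  have hd : d = N * a + b := (Nat.div_add_mod d N).symm
  have hbN : b < N := Nat.mod_lt _ hN
  -- Σ (m - a)(m - a - 1) ≥ 0
  have h3 : (0 : ℤ) ≤ ∑ i, ((m i : ℤ) - a) * ((m i : ℤ) - a - 1) := by
    apply Finset.sum_nonneg
    intro i _
    rcases le_or_gt (m i : ℤ) a with h | h
    · nlinarith
    · have : (a : ℤ) + 1 ≤ m i := by omega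
      nlinarith
  have h4 : ∑ i, ((m i : ℤ) - a) * ((m i : ℤ) - a - 1) =
      ∑ i, (m i : ℤ) ^ 2 - (2 * a + 1) * ∑ i, (m i : ℤ) + N * (a * (a + 1)) := by
    rw [Finset.mul_sum, ← Finset.sum_sub_distrib]
    have : (N : ℤ) * (a * (a + 1)) = ∑ _i : Fin N, ((a : ℤ) * (a + 1)) := by
      rw [Finset.sum_const, Finset.card_univ, Fintype.card_fin, nsmul_eq_mul]
    rw [this, ← Finset.sum_add_distrib]
    apply Finset.sum_congr rfl
    intro i _
    ring
  have h5 : ∑ i, (m i : ℤ) = d := by rw [← h1]; push_cast; rfl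
  set s : ℕ := ∑ i, m i ^ 2 with hs
  have h6 : ∑ i, (m i : ℤ) ^ 2 = s := by rw [hs]; push_cast; rfl
  rw [h4, h5, h6] at h3
  have h7 : (N : ℤ) * s + 1 ≤ (d : ℤ) ^ 2 + N := by exact_mod_cast h2
  have hdZ : (d : ℤ) = N * a + b := by exact_mod_cast hd
  -- multiply
  have h8 : (0 : ℤ) ≤ N * s - (2 * a + 1) * N * d + N * N * (a * (a + 1)) := by
    have : (0 : ℤ) ≤ (N : ℤ) * (s - (2 * a + 1) * d + N * (a * (a + 1))) :=
      mul_nonneg (by positivity) h3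
    linarith [this]
  have h9 : ((b : ℤ) - 1) * ((b : ℤ) + 1 - N) ≥ 0 := by
    have h10 : (0 : ℤ) ≤ (d : ℤ) ^ 2 + N - 1 - (2 * a + 1) * N * d + N * N * (a * (a + 1)) := by linarith
    rw [hdZ] at h10
    have h11 : ((N : ℤ) * a + b) ^ 2 + N - 1 - (2 * a + 1) * N * (N * a + b) + N * N * (a * (a + 1)) =
      ((b : ℤ) - 1) * ((b : ℤ) + 1 - N) := by ring
    rw [h11] at h10
    exact h10
  have h10 : b ≤ 1 ∨ N ≤ b + 1 := by
    by_contra hcon
    push Not at hcon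
    obtain ⟨h11, h12⟩ := hcon
    have h13 : (0 : ℤ) < (b : ℤ) - 1 := by omega
    have h14 : ((b : ℤ) + 1 - N) < 0 := by omega
    have := mul_neg_of_pos_of_neg h13 h14
    linarith
  rcases h10 with h11 | h11
  · rcases Nat.eq_zero_or_pos b with h12 | h12
    · -- N ∣ d, so N = 1
      have : N ∣ d := ⟨a, by rw [hd, h12, add_zero]⟩
      have h13 : N = 1 := by
        have := Nat.Coprime.eq_one_of_dvd hcop this
        exact this
      left
      rw [h13]; exact one_dvd _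
    · right
      have h13 : b = 1 := by omega
      exact ⟨a, by rw [hd, h13, Nat.add_sub_cancel]⟩
  · left
    have h12 : b + 1 = N := by omega
    exact ⟨a + 1, by rw [hd, add_assoc, h12]; ring⟩

end Cfsg.Agent.HH
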