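import Cfsg.Agent.HH.J4K2
import Mathlib.GroupTheory.Perm.Cycle.Type
import Mathlib.GroupTheory.PGroup

set_option autoImplicit false
set_option maxRecDepth 100000
set_option maxHeartbeats 1000000

/-!
The order of `2 ^ 11 : M₂₄`, and irreducibility of the normal subgroup of order `2 ^ 11`.
-/

namespace Cfsg.Agent.HH.PM

open Cfsg.Agent.Golay Cfsg.Agent.CosetEnum Cfsg.Agent.HH.J4G Cfsg.Agent.HH.J4S

theorem y3 : chk [1, 1, 1] [] = true := by decide +kernel
theorem xy23 : chkpow 23 [0, 1] = true := by decide +kernel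

lemma U1_ne : U 1 ≠ 1 := by
  have := y_ne
  rwa [ev_single] at this

lemma ρ_EE {m : Cfsg.M24} (h : ρ m ∈ EE) : m = 1 := by
  haveI : IsSimpleGroup Cfsg.M24 := simple_M24
  have hn : (EE.comap ρ).Normal := ⟨fun m hm n => by
    rw [Subgroup.mem_comap] at hm ⊢
    rw [map_mul, map_mul, map_inv]
    exact ρ_conj n hm⟩
  rcases hn.eq_bot_or_eq_top with h' | h'
  · have h1 : m ∈ EE.comap ρ := h
    rw [h'] at h1
    exact Subgroup.mem_bot.1 h1
  · exfalso
    have h1 : Y ∈ EE.comap ρ := by rw [h']; exact Subgroup.mem_top _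
    rw [Subgroup.mem_comap, ρY] at h1
    have h2 := EE_sq h1
    have h3 := chk_one y3
    rw [ev_cons, ev_cons, ev_single, h2, mul_one] at h3
    exact U1_ne h3

lemma ρ_inj : Function.Injective ρ := by
  rw [injective_iff_map_eq_one]
  intro m hm
  apply ρ_EE
  rw [hm]
  exact EE.one_mem

lemma card_KK : Nat.card KK = 244823040 * Nat.card EE := by
  let f : Cfsg.M24 × EE → KK := fun p => ⟨ρ p.1 * p.2, p.1, p.2, p.2.2, rfl⟩
  have hf : Function.Bijective f := by
    constructor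
    · rintro ⟨m, e⟩ ⟨m', e'⟩ h
      have h1 : ρ m * (e : Γ) = ρ m' * (e' : Γ) := congrArg Subtype.val h
      have h2 : ρ (m'⁻¹ * m) ∈ EE := by
        have h3 : ρ (m'⁻¹ * m) = e' * (e : Γ)⁻¹ := by
          rw [map_mul, map_inv, inv_mul_eq_iff_eq_mul, ← mul_assoc, ← h1, mul_inv_cancel_right]
        rw [h3]
        exact EE.mul_mem e'.2 (EE.inv_mem e.2)
      have h4 : m' = m := by
        have := ρ_EE h2
        rwa [inv_mul_eq_one] at this
      subst h4
      have h5 : (e : Γ) = e' := mul_left_cancel h1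
      rw [Subtype.ext h5]
    · rintro ⟨_, m, e, he, rfl⟩
      exact ⟨(m, ⟨e, he⟩), rfl⟩
  rw [← Nat.card_congr (Equiv.ofBijective f hf), Nat.card_prod, card_M24]

lemma two_pow_mod : ∀ k < 12, ∀ j < k, 2 ^ k ≡ 2 ^ j [MOD 23] → k = 11 ∧ j = 0 := by
  unfold Nat.ModEq
  decide

lemma inv_card {G : Type*} [Group G] [Finite G] {z : G} (hz : z ^ 23 = 1) {W : Subgroup G}
    (hW : ∀ w ∈ W, z * w * z⁻¹ ∈ W) (hsq : ∀ w ∈ W, w * w = 1) (hc : Nat.card W ≤ 2048) :
    (∀ w ∈ W, z * w = w * z) ∨ (Nat.card W = 2048 ∧ ∀ w ∈ W, z * w = w * z → w = 1) := by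
  classical
  have hp : ∀ V : Subgroup G, V ≤ W → ∃ k, Nat.card V = 2 ^ k := by
    intro V hV
    have h : IsPGroup 2 V := by
      intro v
      refine ⟨1, ?_⟩
      apply Subtype.ext
      rw [pow_one, Subgroup.coe_pow, pow_two, Subgroup.coe_one]
      exact hsq v (hV v.2)
    exact IsPGroup.iff_card.1 h
  obtain ⟨k, hk⟩ := hp W le_rfl
  let C : Subgroup G := W ⊓ Subgroup.centralizer {z}
  have hCmem : ∀ w, w ∈ C ↔ w ∈ W ∧ z * w = w * z := by
    intro w
    rw [Subgroup.mem_inf, Subgroup.mem_centralizer_singleton_iff]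
    exact ⟨fun h => ⟨h.1, h.2.symm⟩, fun h => ⟨h.1, h.2.symm⟩⟩
  obtain ⟨j, hj⟩ := hp C inf_le_left
  let f : Function.End W := fun w => ⟨z * w * z⁻¹, hW w w.2⟩
  have hf : ∀ n : ℕ, ∀ w : W, (((f ^ n) w : W) : G) = z ^ n * w * (z ^ n)⁻¹ := by
    intro n
    induction n with
    | zero =>
      intro w
      rw [pow_zero, pow_zero, inv_one, one_mul, mul_one]
      rfl
    | succ n ih =>
      intro w
      have h1 : (f ^ (n + 1)) w = f ((f ^ n) w) := by
        rw [pow_succ']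
        rfl
      rw [h1]
      show z * (((f ^ n) w : W) : G) * z⁻¹ = _
      rw [ih, pow_succ']
      group
  have hf23 : f ^ 23 ^ 1 = 1 := by
    funext w
    apply Subtype.ext
    rw [pow_one, hf, hz, one_mul, inv_one, mul_one]
    rfl
  haveI : Fintype W := Fintype.ofFinite _
  haveI : Fact (Nat.Prime 23) := ⟨by norm_num⟩
  have hmod := Equiv.Perm.card_fixedPoints_modEq hf23
  have e1 : Fintype.card f.fixedPoints = Nat.card C := by
    rw [← Nat.card_eq_fintype_card]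
    refine Nat.card_congr ?_
    refine ⟨fun w => ⟨w.1, (hCmem _).2 ⟨w.1.2, ?_⟩⟩, fun w => ⟨⟨w.1, ((hCmem _).1 w.2).1⟩, ?_⟩, ?_, ?_⟩
    · have h1 : z * (w.1 : G) * z⁻¹ = w.1 := congrArg Subtype.val w.2
      rwa [mul_inv_eq_iff_eq_mul] at h1
    · apply Subtype.ext
      show z * (w.1 : G) * z⁻¹ = w.1
      rw [mul_inv_eq_iff_eq_mul]
      exact ((hCmem _).1 w.2).2
    · intro w
      rfl
    · intro w
      rfl
  rw [← Nat.card_eq_fintype_card, e1, hk, hj] at hmod
  have hle : Nat.card C ≤ Nat.card W := Nat.card_le_card_of_injective _ (Subgroup.inclusion_injective (inf_le_left : C ≤ W))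
  have hk11 : k < 12 := by
    by_contra hc2
    have h5 : 4096 ≤ Nat.card W := by
      rw [hk]
      calc 4096 = 2 ^ 12 := by norm_num
        _ ≤ 2 ^ k := Nat.pow_le_pow_right (by norm_num) (by omega)
    omega
  have hjk : j ≤ k := by
    rw [hk, hj] at hle
    exact (Nat.pow_le_pow_iff_right (by norm_num)).1 hle
  rcases hjk.lt_or_eq with h | h
  · right
    obtain ⟨rfl, rfl⟩ := two_pow_mod k hk11 j h hmod
    refine ⟨by rw [hk]; norm_num, ?_⟩
    intro w hw hzw
    have h1 : w ∈ C := (hCmem w).2 ⟨hw, hzw⟩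
    have h2 : C = ⊥ := by
      rw [← Subgroup.card_eq_one, hj]
      norm_num
    rw [h2] at h1
    exact Subgroup.mem_bot.1 h1
  · left
    have h1 : C = W := by
      apply Subgroup.eq_of_le_of_card_ge inf_le_left
      rw [hk, hj, h]
    intro w hw
    rw [← h1] at hw
    exact ((hCmem w).1 hw).2

/-- the element of order 23 -/
def zz : Γ := U 0 * U 1

lemma zz_pow : zz ^ 23 = 1 := by
  have h := chkpow_spec xy23
  rwa [ev_cons, ev_single] at h

lemma zz_eq : zz = ρ (X * Y) := by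
  rw [map_mul, ρX, ρY]
  rfl

lemma zz_EE {e : Γ} (he : e ∈ EE) : zz * e * zz⁻¹ ∈ EE := by
  rw [zz_eq]
  exact ρ_conj _ he

lemma zz_ne : ¬ ∀ w ∈ EE, zz * w = w * zz := by
  intro h
  have h4 : isE 4 := by unfold isE; omega
  have h1 := h _ (U_mem_EE h4)
  apply xy_ne
  rw [ev_cons, ev_cons, ev_cons, ev_cons, ev_cons, ev_single, U2_eq]
  have h0 : (U 0)⁻¹ = U 0 := by
    rw [inv_eq_iff_mul_eq_one, U0_sq]
  have h5 : (U 1)⁻¹ * (U 0 * (U 4 * (U 0 * (U 1 * U 4)))) = zz⁻¹ * (U 4 * zz) * U 4 := by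
    unfold zz
    rw [mul_inv_rev, h0]
    group
  rw [h5, ← h1, inv_mul_cancel_left, UE_sq h4]

theorem card_EE : Nat.card EE = 2048 := by
  rcases inv_card zz_pow (W := EE) (fun w hw => zz_EE hw) (fun w hw => EE_sq hw) card_EE_le with h | h
  · exact absurd h zz_ne
  · exact h.1

lemma zz_fix {w : Γ} (hw : w ∈ EE) (h : zz * w = w * zz) : w = 1 := by
  rcases inv_card zz_pow (W := EE) (fun w hw => zz_EE hw) (fun w hw => EE_sq hw) card_EE_le with h1 | h1
  · exact absurd h1 zz_ne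
  · exact h1.2 w hw h

/-- E is irreducible -/
theorem EE_irr {W : Subgroup Γ} (hW : W ≤ EE) (hz : ∀ w ∈ W, zz * w * zz⁻¹ ∈ W) : W = ⊥ ∨ W = EE := by
  have hle : Nat.card W ≤ Nat.card EE := Nat.card_le_card_of_injective _ (Subgroup.inclusion_injective hW)
  rcases inv_card zz_pow (W := W) hz (fun w hw => EE_sq (hW hw)) (by rw [card_EE] at hle; exact hle) with h | h
  · left
    rw [Subgroup.eq_bot_iff_forall]
    intro w hw
    exact zz_fix (hW hw) (h w hw)
  · right
    apply Subgroup.eq_of_le_of_card_ge hW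
    rw [card_EE, h.1]

theorem card_KK' : Nat.card KK = 501397585920 := by
  rw [card_KK, card_EE]

/-- the centraliser of E in K -/
theorem cent_EE {g : Γ} (hg : g ∈ KK) (h : ∀ e ∈ EE, g * e = e * g) : g ∈ EE := by
  haveI : IsSimpleGroup Cfsg.M24 := simple_M24
  obtain ⟨m, e, he, rfl⟩ := hg
  have hn : ((Subgroup.centralizer (EE : Set Γ)).comap ρ).Normal := ⟨fun m hm n => by
    rw [Subgroup.mem_comap, Subgroup.mem_centralizer_iff] at hm ⊢
    intro a ha
    have h1 := hm _ (ρ_conj' n ha)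
    rw [map_mul, map_mul, map_inv]
    calc a * (ρ n * ρ m * (ρ n)⁻¹) = ρ n * ((ρ n)⁻¹ * a * ρ n * ρ m) * (ρ n)⁻¹ := by group
      _ = ρ n * (ρ m * ((ρ n)⁻¹ * a * ρ n)) * (ρ n)⁻¹ := by rw [h1]
      _ = _ := by group⟩
  have hm : ρ m ∈ Subgroup.centralizer (EE : Set Γ) := by
    rw [Subgroup.mem_centralizer_iff]
    intro a ha
    have h1 := h a ha
    rw [mul_assoc, EE_comm he ha, ← mul_assoc, ← mul_assoc] at h1
    exact (mul_right_cancel h1).symm
  rcases hn.eq_bot_or_eq_top with h' | h'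
  · have h1 : m ∈ (Subgroup.centralizer (EE : Set Γ)).comap ρ := hm
    rw [h'] at h1
    rw [Subgroup.mem_bot.1 h1, map_one, one_mul]
    exact he
  · exfalso
    have h1 : X * Y ∈ (Subgroup.centralizer (EE : Set Γ)).comap ρ := by rw [h']; exact Subgroup.mem_top _
    rw [Subgroup.mem_comap, ← zz_eq, Subgroup.mem_centralizer_iff] at h1
    exact zz_ne fun w hw => (h1 w hw).symm

end Cfsg.Agent.HH.PM
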