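import Cfsg.Agent.HH.J4L
import Cfsg.Agent.HH.J4E

set_option autoImplicit false
set_option maxRecDepth 100000
set_option maxHeartbeats 1000000

/-!
An upper bound for the order of the group.
-/

namespace Cfsg.Agent.HH.PM

open Cfsg.Agent.Golay Cfsg.Agent.CosetEnum Cfsg.Agent.HH.J4G Cfsg.Agent.HH.J4S Cfsg.Agent.HH.J4F

/-- the double coset -/
def DC (j : ℕ) : Set Γ := {g | ∃ h ∈ KK, ∃ k ∈ KK, g = h * (gi j * k)}

lemma card_DC (j : ℕ) : (DC j).ncard * Nat.card (SI j) ≤ Nat.card KK * Nat.card KK := by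
  classical
  have hch : ∀ g : DC j, ∃ p : KK × KK, (g : Γ) = p.1 * (gi j * p.2) := by
    rintro ⟨g, h, hh, k, hk, rfl⟩
    exact ⟨(⟨h, hh⟩, ⟨k, hk⟩), rfl⟩
  choose p hp using hch
  let f : DC j × SI j → KK × KK := fun q =>
    (⟨(p q.1).1 * (gi j * (q.2 : Γ)⁻¹ * (gi j)⁻¹), KK.mul_mem (p q.1).1.2 ((SI j).inv_mem q.2.2).2⟩,
      ⟨(q.2 : Γ) * (p q.1).2, KK.mul_mem q.2.2.1 (p q.1).2.2⟩)
  have hf : Function.Injective f := by
    rintro ⟨d, s⟩ ⟨d', s'⟩ h
    have h1 : ((p d).1 : Γ) * (gi j * (s : Γ)⁻¹ * (gi j)⁻¹) = (p d').1 * (gi j * (s' : Γ)⁻¹ * (gi j)⁻¹) :=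
      congrArg Subtype.val (congrArg Prod.fst h)
    have h2 : (s : Γ) * (p d).2 = s' * (p d').2 := congrArg Subtype.val (congrArg Prod.snd h)
    have h3 : (d : Γ) = d' := by
      calc (d : Γ) = ((p d).1 : Γ) * (gi j * (s : Γ)⁻¹ * (gi j)⁻¹) * (gi j * ((s : Γ) * (p d).2)) := by
            rw [hp d]
            group
        _ = ((p d').1 : Γ) * (gi j * (s' : Γ)⁻¹ * (gi j)⁻¹) * (gi j * ((s' : Γ) * (p d').2)) := by rw [h1, h2]
        _ = d' := by
            rw [hp d']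
            group
    have h4 : d = d' := Subtype.ext h3
    subst h4
    have h5 : (s : Γ) = s' := mul_right_cancel h2
    rw [Subtype.ext h5]
  have h := Nat.card_le_card_of_injective f hf
  rwa [Nat.card_prod, Nat.card_prod] at h

lemma card_SB_le (j : ℕ) : Nat.card (SB j) ≤ Nat.card (SI j) := by
  have hch : ∀ m : SB j, ∃ e : Γ, e ∈ EE ∧ ρ m * e ∈ SI j := by
    rintro ⟨m, e, he, h⟩
    exact ⟨e, he, h⟩
  choose e he hs using hch
  refine Nat.card_le_card_of_injective (fun m => (⟨ρ m * e m, hs m⟩ : SI j)) ?_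
  intro m m' h
  have h1 : ρ (m : Cfsg.M24) * e m = ρ (m' : Cfsg.M24) * e m' := congrArg Subtype.val h
  have h2 : ρ ((m' : Cfsg.M24)⁻¹ * m) ∈ EE := by
    have h3 : ρ ((m' : Cfsg.M24)⁻¹ * m) = e m' * (e m)⁻¹ := by
      rw [map_mul, map_inv, inv_mul_eq_iff_eq_mul, ← mul_assoc, ← h1, mul_inv_cancel_right]
    rw [h3]
    exact EE.mul_mem (he m') (EE.inv_mem (he m))
  have h4 := ρ_EE h2
  rw [inv_mul_eq_one] at h4
  exact Subtype.ext h4.symm

/-- the bounds for the double cosets -/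
lemma DC_bound {j b : ℕ} (hb : b ≤ Nat.card (SB j)) : (DC j).ncard * b ≤ 501397585920 * 501397585920 := by
  have h1 := card_DC j
  have h2 := card_SB_le j
  rw [card_KK'] at h1
  exact le_trans (Nat.mul_le_mul_left _ (le_trans hb h2)) h1

lemma sgm {a : ℕ} (h : SGL.getD a (0, [], [], []) ∈ SGL) :
    ((SGL.getD a (0, [], [], [])).2.1.map gL).prod ∈ SB (SGL.getD a (0, [], [], [])).1 := sg_mem h

lemma b1 : 64512 ≤ Nat.card (SB 1) := by
  have h : SS ≤ SB 1 := by
    rw [SS_eq.1, Subgroup.closure_le]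
    rintro _ (rfl | rfl)
    · have := sgm (a := 0) (by decide)
      have e : ((SGL.getD 0 (0, [], [], [])).2.1.map gL).prod = gM 1 := by
        show ([0].map gL).prod = gM 1
        rw [List.map_singleton, List.prod_singleton]
        rfl
      rw [e] at this
      exact this
    · have := sgm (a := 1) (by decide)
      have e : ((SGL.getD 1 (0, [], [], [])).2.1.map gL).prod = (wz.map gM).prod := by
        congr 1
      rw [e] at this
      exact this
  have h1 : Nat.card SS = 64512 := by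
    have h2 := SS.card_mul_index
    rw [SS_eq.2, card_M24] at h2
    omega
  rw [← h1]
  exact Nat.card_le_card_of_injective _ (Subgroup.inclusion_injective h)

lemma b2 : 9216 ≤ Nat.card (SB 2) := card2 (sgm (a := 2) (by decide)) (sgm (a := 3) (by decide))
lemma b3 : 7680 ≤ Nat.card (SB 3) := card3 (sgm (a := 4) (by decide)) (sgm (a := 5) (by decide))
lemma b4 : 7680 ≤ Nat.card (SB 4) := card4 (sgm (a := 6) (by decide)) (sgm (a := 7) (by decide))
lemma b5 : 9216 ≤ Nat.card (SB 5) := card5 (sgm (a := 8) (by decide)) (sgm (a := 9) (by decide))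
lemma b6 : 6072 ≤ Nat.card (SB 6) := card6 (sgm (a := 10) (by decide)) (sgm (a := 11) (by decide))

lemma DC_zero : (DC 0).ncard ≤ 501397585920 := by
  have h : DC 0 ⊆ (KK : Set Γ) := by
    rintro _ ⟨h, hh, k, hk, rfl⟩
    have e0 : gi 0 = 1 := rfl
    rw [e0, one_mul]
    exact KK.mul_mem hh hk
  have h1 := Set.ncard_le_ncard h (Set.toFinite _)
  have h2 : (KK : Set Γ).ncard = Nat.card KK := rfl
  rw [h2, card_KK'] at h1
  exact h1

lemma arith1 {n b c K : ℕ} (h : n * b ≤ K * K) (hb : K = b * c) (hb0 : 0 < b) : n ≤ c * K := by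
  apply Nat.le_of_mul_le_mul_left _ hb0
  calc b * n = n * b := mul_comm _ _
    _ ≤ K * K := h
    _ = b * (c * K) := by
      nth_rewrite 1 [hb]
      ring

theorem card_G1_le : Nat.card G1 ≤ 329730049 * 501397585920 := by
  have hsub : (G1 : Set Γ) ⊆ DC 0 ∪ (DC 1 ∪ (DC 2 ∪ (DC 3 ∪ (DC 4 ∪ (DC 5 ∪ DC 6))))) := by
    intro g hg
    obtain ⟨h, hh, j, hj, k, hk, hgk⟩ := cover hg
    have hm : g ∈ DC j := ⟨h, hh, k, hk, hgk⟩
    have hc : j = 0 ∨ j = 1 ∨ j = 2 ∨ j = 3 ∨ j = 4 ∨ j = 5 ∨ j = 6 := by omega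
    rcases hc with rfl | rfl | rfl | rfl | rfl | rfl | rfl
    · exact Or.inl hm
    · exact Or.inr (Or.inl hm)
    · exact Or.inr (Or.inr (Or.inl hm))
    · exact Or.inr (Or.inr (Or.inr (Or.inl hm)))
    · exact Or.inr (Or.inr (Or.inr (Or.inr (Or.inl hm))))
    · exact Or.inr (Or.inr (Or.inr (Or.inr (Or.inr (Or.inl hm)))))
    · exact Or.inr (Or.inr (Or.inr (Or.inr (Or.inr (Or.inr hm)))))
  have h1 := Set.ncard_le_ncard hsub (Set.toFinite _)
  have h2 : (G1 : Set Γ).ncard = Nat.card G1 := rfl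
  have u0 := Set.ncard_union_le (DC 0) (DC 1 ∪ (DC 2 ∪ (DC 3 ∪ (DC 4 ∪ (DC 5 ∪ DC 6)))))
  have u1 := Set.ncard_union_le (DC 1) (DC 2 ∪ (DC 3 ∪ (DC 4 ∪ (DC 5 ∪ DC 6))))
  have u2 := Set.ncard_union_le (DC 2) (DC 3 ∪ (DC 4 ∪ (DC 5 ∪ DC 6)))
  have u3 := Set.ncard_union_le (DC 3) (DC 4 ∪ (DC 5 ∪ DC 6))
  have u4 := Set.ncard_union_le (DC 4) (DC 5 ∪ DC 6)
  have u5 := Set.ncard_union_le (DC 5) (DC 6)
  have d0 := DC_zero
  have d1 := DC_bound b1
  have d2 := DC_bound b2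
  have d3 := DC_bound b3
  have d4 := DC_bound b4
  have d5 := DC_bound b5
  have d6 := DC_bound b6
  have c1 := arith1 d1 (c := 7772160) (by norm_num) (by norm_num)
  have c2 := arith1 d2 (c := 54405120) (by norm_num) (by norm_num)
  have c3 := arith1 d3 (c := 65286144) (by norm_num) (by norm_num)
  have c4 := arith1 d4 (c := 65286144) (by norm_num) (by norm_num)
  have c5 := arith1 d5 (c := 54405120) (by norm_num) (by norm_num)
  have c6 := arith1 d6 (c := 82575360) (by norm_num) (by norm_num)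
  have t5 := le_trans u5 (Nat.add_le_add c5 c6)
  have t4 := le_trans u4 (Nat.add_le_add c4 t5)
  have t3 := le_trans u3 (Nat.add_le_add c3 t4)
  have t2 := le_trans u2 (Nat.add_le_add c2 t3)
  have t1 := le_trans u1 (Nat.add_le_add c1 t2)
  have t0 := le_trans u0 (Nat.add_le_add d0 t1)
  rw [h2] at h1
  exact le_trans h1 (le_trans t0 (by norm_num))

end Cfsg.Agent.HH.PM
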