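import Cfsg.Agent.HH.J4Main2
import Cfsg.Agent.PermChain.Basic

set_option autoImplicit false
set_option maxRecDepth 100000
set_option maxHeartbeats 4000000

/-!
Subgroups of the Mathieu group of degree 24: orbits on trios and lower bounds of orders (data generated).
-/

namespace Cfsg.Agent.HH.J4F

open Cfsg Cfsg.Agent.Golay Cfsg.Agent.CosetEnum Cfsg.Agent.HH.J4G Cfsg.Agent.HH.J4S
open scoped Pointwise

/-- the letters 0 = x, 1 = y, 2 = y⁻¹ -/
noncomputable def gL (c : ℕ) : M24 := gM (c + 1)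

/-- table of a word -/
def wT (w : List ℕ) : ℕ := wrun (w.map (· + 1)) idTab

theorem tab_wT (w : List ℕ) : IsTable (wT w) (((w.map gL).prod : M24) : Equiv.Perm GolayPt) := by
  have h := tab_word (w.map (· + 1))
  rw [List.map_map] at h
  exact h

/-- every trio image is in the list -/
theorem closed (σ : M24) : ∃ r < 3795, (Fr root).map (fun s => (σ : Equiv.Perm GolayPt) • s) = Fr r := by
  have key : ∀ r : Fin 3795, ∃ σ : M24, (Fr root).map (fun s => (σ : Equiv.Perm GolayPt) • s) = Fr r :=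
    fun r => orbit_Fr _ _ rfl r.2
  choose f hf using key
  have hinj : Function.Injective (fun r : Fin 3795 => (QuotientGroup.mk (f r) : M24 ⧸ SS)) := by
    intro r s h
    have h1 : (f r)⁻¹ * f s ∈ SS := QuotientGroup.eq.1 h
    rw [mem_SS] at h1
    apply Fin.ext
    apply Fr_inj r.2 s.2
    rw [← hf r, ← hf s]
    have h2 := congrArg (Multiset.map (fun t => ((f r : M24) : Equiv.Perm GolayPt) • t)) h1
    rw [Multiset.map_map] at h2
    rw [← h2]
    apply Multiset.map_congr rfl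
    intro t _
    change (f r : Equiv.Perm GolayPt) • ((((f r)⁻¹ * f s : M24) : Equiv.Perm GolayPt) • t) = _
    rw [Subgroup.coe_mul, Subgroup.coe_inv, ← mul_smul]
    congr 1
    group
  have hcard : Nat.card (Fin 3795) = Nat.card (M24 ⧸ SS) := by
    rw [Nat.card_fin]
    exact SS_eq.2.symm
  have hbij := (Nat.bijective_iff_injective_and_card _).2 ⟨hinj, hcard⟩
  obtain ⟨r, hr⟩ := hbij.2 (QuotientGroup.mk σ)
  have h1 : (f r)⁻¹ * σ ∈ SS := QuotientGroup.eq.1 hr
  refine ⟨r, r.2, ?_⟩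
  rw [mem_SS] at h1
  rw [← hf r]
  have h2 := congrArg (Multiset.map (fun t => ((f r : M24) : Equiv.Perm GolayPt) • t)) h1
  rw [Multiset.map_map] at h2
  rw [← h2]
  apply Multiset.map_congr rfl
  intro t _
  change (σ : Equiv.Perm GolayPt) • t = (f r : Equiv.Perm GolayPt) • ((((f r)⁻¹ * σ : M24) : Equiv.Perm GolayPt) • t)
  rw [Subgroup.coe_mul, Subgroup.coe_inv, ← mul_smul]
  congr 1
  group

/-- hash of the image of a trio -/
def himg (t e : ℕ) : ℕ := fz (pmask t (m1 e)) fun a => fz (pmask t (m2 e)) fun b => fz (pmask t (m3 e)) fun c =>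
  Nat.add (Nat.mul a a) (Nat.add (Nat.mul b b) (Nat.mul c c))

theorem pmask_lt' {t : ℕ} {σ : M24} (h : IsTable t (σ : Equiv.Perm GolayPt)) {m : ℕ} (hm : m < 2 ^ 24) : pmask t m < 2 ^ 24 := by
  have := maskOf_smul h (ofMask m)
  rw [maskOf_ofMask hm] at this
  rw [← this]
  exact maskOf_lt _

theorem hs_img {t : ℕ} {σ : M24} (h : IsTable t (σ : Equiv.Perm GolayPt)) (r : ℕ) :
    hs ((Fr r).map (fun s => (σ : Equiv.Perm GolayPt) • s)) = himg t (ent r) := by
  rw [map_Fr h]
  unfold hs Mr himg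
  simp only [fz_eq, Multiset.insert_eq_cons, Multiset.map_cons, Multiset.map_singleton, Multiset.sum_cons,
    Multiset.sum_singleton, maskOf_ofMask (pmask_lt' h (m1_lt _)), maskOf_ofMask (pmask_lt' h (m2_lt _)),
    maskOf_ofMask (pmask_lt' h (m3_lt _))]
  rfl

theorem Fr_eq_of_hs {r s : ℕ} (hr : r < 3795) (hs' : s < 3795) (h : hs (Fr r) = hs (Fr s)) : r = s := by
  rw [hs_Fr, hs_Fr] at h
  rcases lt_trichotomy r s with h2 | h2 | h2
  · have := hsh_lt h2 hs'; omega
  · exact h2
  · have := hsh_lt h2 hr; omega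

/-- action of a permutation on the trios of the list -/
theorem act_of_hash {t : ℕ} {σ : M24} (h : IsTable t (σ : Equiv.Perm GolayPt)) {r s : ℕ} (hr : r < 3795) (hs' : s < 3795)
    (he : himg t (ent r) = hsh (ent s)) : (Fr r).map (fun s => (σ : Equiv.Perm GolayPt) • s) = Fr s := by
  obtain ⟨τ, hτ⟩ := orbit_Fr _ r rfl hr
  obtain ⟨q, hq, hq2⟩ := closed (σ * τ)
  have e1 : (Fr root).map (fun s => ((σ * τ : M24) : Equiv.Perm GolayPt) • s) =
      (Fr r).map (fun s => (σ : Equiv.Perm GolayPt) • s) := by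
    rw [← hτ, Multiset.map_map]
    apply Multiset.map_congr rfl
    intro s _
    rw [Subgroup.coe_mul, mul_smul]
    rfl
  rw [e1] at hq2
  have h1 := hs_img h r
  rw [hq2, he, ← hs_Fr] at h1
  have := Fr_eq_of_hs hq hs' h1
  rw [hq2, this]

/-- entry of a forest -/
def fe (F r : ℕ) : ℕ := Nat.land (Nat.shiftRight F (Nat.mul 24 r)) 16777215
def fpar (e : ℕ) : ℕ := Nat.land e 4095
def fgen (e : ℕ) : ℕ := Nat.land (Nat.shiftRight e 12) 7
def fdep (e : ℕ) : ℕ := Nat.shiftRight e 15

/-- test of a forest: `T` the four tables, `P` the list of (label, word) of the roots -/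
def chkF (F : ℕ) (T : List ℕ) (P : List (List ℕ)) (r : ℕ) : Bool :=
  fz (fe F r) fun e => fz (fpar e) fun p => fz (fgen e) fun g =>
    match Nat.beq g 7 with
    | true => Nat.blt p P.length && Nat.beq (himg (wT (P.getD p [])) (ent root)) (hsh (ent r))
    | false => Nat.blt (fdep (fe F p)) (fdep e) && (Nat.blt p 3795 && Nat.beq (himg (nthD T g) (ent p)) (hsh (ent r)))

theorem forest {F : ℕ} {T : List ℕ} {P : List (List ℕ)} {H : Subgroup M24}
    (hT : ∀ g, ∃ σ ∈ H, IsTable (nthD T g) (σ : Equiv.Perm GolayPt)) (h : J4G.allR (chkF F T P) 3795 = true) :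
    ∀ d r, fdep (fe F r) = d → r < 3795 → ∃ σ ∈ H, ∃ p < P.length,
      (Fr root).map (fun s => ((σ * ((P.getD p []).map gL).prod : M24) : Equiv.Perm GolayPt) • s) = Fr r := by
  intro d
  induction d using Nat.strong_induction_on with
  | _ d ih =>
    intro r hd hr
    have h1 := allR_spec h r hr
    unfold chkF at h1
    simp only [fz_eq] at h1
    cases hg : Nat.beq (fgen (fe F r)) 7 with
    | true =>
      rw [hg] at h1
      simp only [Bool.and_eq_true, Nat.blt_eq] at h1
      refine ⟨1, H.one_mem, _, h1.1, ?_⟩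
      rw [one_mul]
      exact act_of_hash (tab_wT _) (by decide) hr (Nat.eq_of_beq_eq_true h1.2)
    | false =>
      rw [hg] at h1
      simp only [Bool.and_eq_true, Nat.blt_eq] at h1
      obtain ⟨h2, h3, h4⟩ := h1
      obtain ⟨σ, hσ, hσT⟩ := hT (fgen (fe F r))
      obtain ⟨τ, hτ, p, hp, h5⟩ := ih _ (by rw [← hd]; exact h2) _ rfl h3
      have h6 := act_of_hash hσT h3 hr (Nat.eq_of_beq_eq_true h4)
      refine ⟨σ * τ, H.mul_mem hσ hτ, p, hp, ?_⟩
      rw [← h6, ← h5, Multiset.map_map]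
      apply Multiset.map_congr rfl
      intro s _
      rw [mul_assoc, Subgroup.coe_mul, mul_smul]
      rfl

/-- double coset decomposition -/
theorem decomp {F : ℕ} {T : List ℕ} {P : List (List ℕ)} {H : Subgroup M24}
    (hT : ∀ g, ∃ σ ∈ H, IsTable (nthD T g) (σ : Equiv.Perm GolayPt)) (h : J4G.allR (chkF F T P) 3795 = true) (m : M24) :
    ∃ σ ∈ H, ∃ p < P.length, ∃ θ ∈ SS, m = σ * ((P.getD p []).map gL).prod * θ := by
  obtain ⟨r, hr, hr2⟩ := closed m
  obtain ⟨σ, hσ, p, hp, h1⟩ := forest hT h _ r rfl hr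
  refine ⟨σ, hσ, p, hp, (σ * ((P.getD p []).map gL).prod)⁻¹ * m, ?_, by group⟩
  rw [mem_SS]
  generalize σ * ((P.getD p []).map gL).prod = τ at h1
  have h2 : (Fr root).map (fun s => ((τ⁻¹ * m : M24) : Equiv.Perm GolayPt) • s) =
      ((Fr root).map (fun s => (m : Equiv.Perm GolayPt) • s)).map (fun s => ((τ⁻¹ : M24) : Equiv.Perm GolayPt) • s) := by
    rw [Multiset.map_map]
    apply Multiset.map_congr rfl
    intro s _
    rw [Subgroup.coe_mul, mul_smul]
    rfl
  rw [h2, hr2, ← h1, Multiset.map_map]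
  conv_rhs => rw [← Multiset.map_id (Fr root)]
  apply Multiset.map_congr rfl
  intro s _
  change ((τ⁻¹ : M24) : Equiv.Perm GolayPt) • ((τ : Equiv.Perm GolayPt) • s) = s
  rw [Subgroup.coe_inv, inv_smul_smul]

/-! ### lower bounds of orders -/

/-- a chain of levels -/
def chkC (L : List ℕ) : ℕ → List (ℕ × ℕ × List ℕ) → Bool
  | _, [] => true
  | F, (b, t, pk) :: l => Nat.blt b 24 && (Nat.blt t 16777216 && (levelCheck' (pickD L pk) F b t && chkC L (F ||| 2 ^ b) l))

def prodC : List (ℕ × ℕ × List ℕ) → ℕ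
  | [] => 1
  | (_, t, _) :: l => pop t * prodC l

/-- permutations that fix the points of a mask -/
def fixSub (F : ℕ) : Subgroup (Equiv.Perm GolayPt) where
  carrier := {σ | FixesMask σ F}
  one_mem' := fun p _ => rfl
  mul_mem' := by
    intro a b ha hb p hp
    show a (b p) = p
    rw [hb p hp, ha p hp]
  inv_mem' := by
    intro a ha p hp
    show a⁻¹ p = p
    rw [Equiv.Perm.inv_eq_iff_eq]
    exact (ha p hp).symm

theorem fix_step (F : ℕ) {b : ℕ} (hb : b < 24) :
    fixSub (F ||| 2 ^ b) = fixSub F ⊓ MulAction.stabilizer (Equiv.Perm GolayPt) (pt b) := by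
  ext σ
  constructor
  · intro h
    refine ⟨fun p hp => h p (by rw [Nat.testBit_or, hp, Bool.true_or]), ?_⟩
    show σ (pt b) = pt b
    apply h
    rw [Nat.testBit_or, idx_pt hb, Nat.testBit_two_pow_self, Bool.or_true]
  · rintro ⟨h1, h2⟩ p hp
    rw [Nat.testBit_or, Bool.or_eq_true] at hp
    rcases hp with hp | hp
    · exact h1 p hp
    · rw [Nat.testBit_two_pow, decide_eq_true_eq] at hp
      have : p = pt b := by
        apply idx_injective
        rw [idx_pt hb, ← hp]
      rw [this]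
      exact h2

theorem chain_bound {H : Subgroup (Equiv.Perm GolayPt)} {L : List ℕ} (hL : ∀ n ∈ L, InSub H n) :
    ∀ (l : List (ℕ × ℕ × List ℕ)) (F : ℕ), chkC L F l = true → prodC l ≤ Nat.card (H ⊓ fixSub F : Subgroup _) := by
  intro l
  induction l with
  | nil =>
    intro F _
    exact Nat.card_pos
  | cons a l ih =>
    obtain ⟨b, t, pk⟩ := a
    intro F h
    simp only [chkC, Bool.and_eq_true, Nat.blt_eq] at h
    obtain ⟨hb, ht, h1, h2⟩ := h
    have h3 := ih _ h2
    rw [fix_step F hb, ← inf_assoc] at h3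
    rw [Cfsg.Agent.PermChain.card_eq_orbit_mul (H ⊓ fixSub F) (pt b)]
    show pop t * prodC l ≤ _
    apply Nat.mul_le_mul _ h3
    have h4 : ((ofMask t : Finset GolayPt) : Set GolayPt) ⊆ MulAction.orbit ((H ⊓ fixSub F : Subgroup (Equiv.Perm GolayPt))) (pt b) := by
      intro y hy
      have hy' : t.testBit (idx y) = true := by
        have := Finset.mem_coe.1 hy
        rwa [mem_ofMask] at this
      obtain ⟨σ, hσ, hF, hσb⟩ := exists_of_level' (pickD_inSub hL pk) h1 hb hy'
      exact ⟨⟨σ, hσ, hF⟩, hσb⟩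
    have h5 := Set.ncard_le_ncard h4 (Set.toFinite _)
    rw [Set.ncard_coe_finset] at h5
    have h6 : (ofMask t).card = pop t := by
      rw [card_eq_pop, maskOf_ofMask ht]
    rwa [h6] at h5

end Cfsg.Agent.HH.J4F
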