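import Cfsg.Agent.HH.J4F

set_option autoImplicit false

/-!
Common lemmas for the data on subgroups of the Mathieu group of degree 24.
-/

namespace Cfsg.Agent.HH.J4F

open Cfsg Cfsg.Agent.Golay Cfsg.Agent.CosetEnum Cfsg.Agent.HH.J4G Cfsg.Agent.HH.J4S
open scoped Pointwise

theorem hT_gen {H : Subgroup M24} {w1 w2 : List ℕ} (h1 : (w1.map gL).prod ∈ H) (h2 : (w2.map gL).prod ∈ H) :
    ∀ g, ∃ σ ∈ H, IsTable (nthD [wT w1, wT w2, pinv (wT w1), pinv (wT w2)] g) (σ : Equiv.Perm GolayPt) := by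
  intro g
  match g with
  | 0 => exact ⟨_, h1, tab_wT w1⟩
  | 1 => exact ⟨_, h2, tab_wT w2⟩
  | 2 => exact ⟨_, H.inv_mem h1, isTable_pinv (tab_wT w1)⟩
  | 3 => exact ⟨_, H.inv_mem h2, isTable_pinv (tab_wT w2)⟩
  | n + 4 => exact ⟨1, H.one_mem, isTable_one⟩

theorem decomp' {F : ℕ} {T : List ℕ} {P : List (List ℕ)} {H : Subgroup M24} {w1 w2 : List ℕ}
    (hT : T = [wT w1, wT w2, pinv (wT w1), pinv (wT w2)]) (h : J4G.allR (chkF F T P) 3795 = true)
    (h1 : (w1.map gL).prod ∈ H) (h2 : (w2.map gL).prod ∈ H) (m : M24) :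
    ∃ σ ∈ H, ∃ p < P.length, ∃ θ ∈ SS, m = σ * ((P.getD p []).map gL).prod * θ :=
  decomp (by rw [hT]; exact hT_gen h1 h2) h m

theorem fixSub_zero : fixSub 0 = ⊤ := by
  rw [eq_top_iff]
  intro σ _ p hp
  rw [Nat.zero_testBit] at hp
  exact absurd hp Bool.false_ne_true

theorem card_bound {H : Subgroup M24} {w1 w2 : List ℕ} (h1 : (w1.map gL).prod ∈ H) (h2 : (w2.map gL).prod ∈ H)
    {prog : List ℕ} {t1 t2 : ℕ} (ht1 : t1 = wT w1) (ht2 : t2 = wT w2) {l : List (ℕ × ℕ × List ℕ)}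
    (h : chkC (runSlp prog [t1, t2]) 0 l = true) : prodC l ≤ Nat.card H := by
  have h3 := chain_bound (H := H.map M24.subtype) (L := runSlp prog [t1, t2]) (runSlp_inSub prog _ (by
    intro n hn
    simp only [List.mem_cons, List.not_mem_nil, or_false] at hn
    rcases hn with rfl | rfl
    · rw [ht1]
      exact ⟨_, ⟨_, h1, rfl⟩, tab_wT w1⟩
    · rw [ht2]
      exact ⟨_, ⟨_, h2, rfl⟩, tab_wT w2⟩)) l 0 h
  rw [fixSub_zero, inf_top_eq] at h3
  rwa [Nat.card_congr (H.equivMapOfInjective M24.subtype M24.subtype_injective).toEquiv]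

end Cfsg.Agent.HH.J4F
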