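import Cfsg.Agent.HH.J4Main

set_option autoImplicit false

/-!
The Mathieu group inside groups generated by three elements that satisfy the relations of the fourth Janko group.
-/

namespace Cfsg.Agent.HH.J4S

open Cfsg.Agent.CosetEnum Cfsg.Agent.HH.J4G Cfsg.Agent.Golay
open scoped commutatorElement

section core2

variable {J : Type} [Group J] (x y t : J)

theorem main2 (hG : Good (gen2 x y) 3 [(2, 3)] J4P.RL) (htx : t * x = x * t)
    (htz : t * (wz.map (gen2 x y)).prod = (wz.map (gen2 x y)).prod * t)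
    (ht2 : t * t = 1) (hgen : Subgroup.closure {x, y, t} = (⊤ : Subgroup J))
    (h11 : ∀ (Q : Type) [Group Q] (f : J →* Q), f t = 1 → (([2, 1, 2, 1, 2, 1, 2].map (fun c => f (gen2 x y c))).prod) ^ 6 = 1)
    (hx1 : x ≠ 1) : ∃ ρ : Cfsg.M24 →* J, ρ X = x ∧ ρ Y = y := by
  have hK := KK_central x y t hG htx htz ht2 hgen h11
  have hGG : Good (gg x y) 3 [(2, 3)] J4P.RL := good_gp hG goodM
  have hxD : (x, X) ∈ DD x y := by
    rw [DD_eq]
    exact Subgroup.subset_closure (by simp)
  have hyD : (y, Y) ∈ DD x y := by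
    rw [DD_eq]
    exact Subgroup.subset_closure (by simp)
  -- the relations of the generators
  have hx2 : x ^ 2 = 1 := by
    have : x = x⁻¹ := hG.inv 1
    rw [pow_two]
    nth_rewrite 1 [this]
    exact inv_mul_cancel x
  have hy3 : y ^ 3 = 1 := by
    have := hG.rel ([2, 2, 2], 1) (by simp [J4P.RL])
    simpa [gen2, pow_succ, mul_assoc] using this
  have hxy : (x * y) ^ 23 = 1 := by
    have := hG.rel ([1, 2], 23) (by simp [J4P.RL])
    simpa [gen2] using this
  have hX2 : X ^ 2 = 1 := by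
    have : X = X⁻¹ := goodM.inv 1
    rw [pow_two]
    nth_rewrite 1 [this]
    exact inv_mul_cancel X
  have hY3 : Y ^ 3 = 1 := by
    have := goodM.rel ([2, 2, 2], 1) (by simp [J4P.RL])
    simpa [gM, pow_succ, mul_assoc] using this
  have hXY : (X * Y) ^ 23 = 1 := by
    have := goodM.rel ([1, 2], 23) (by simp [J4P.RL])
    simpa [gM] using this
  -- the kernel of the first projection
  let L : Subgroup Cfsg.M24 := (DD x y).comap (MonoidHom.inr J Cfsg.M24)
  have hLmem : ∀ m : Cfsg.M24, m ∈ L ↔ ((1, m) : J × Cfsg.M24) ∈ DD x y := fun m => Iff.rfl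
  have hLn : L.Normal := by
    refine ⟨fun m hm n => ?_⟩
    have hn : n ∈ (DD x y).map (MonoidHom.snd J Cfsg.M24) := by
      rw [snd_DD]
      exact Subgroup.mem_top n
    obtain ⟨⟨a, n'⟩, h1, h2⟩ := hn
    have h2' : n' = n := h2
    subst h2'
    rw [hLmem] at hm ⊢
    have h := (DD x y).mul_mem ((DD x y).mul_mem h1 hm) ((DD x y).inv_mem h1)
    have e : (a, n') * (1, m) * (a, n')⁻¹ = ((1 : J), n' * m * n'⁻¹) := by
      ext1
      · show a * 1 * a⁻¹ = 1
        group
      · rfl
    rwa [e] at h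
  have hsimp : IsSimpleGroup Cfsg.M24 := Cfsg.Agent.Golay.simple_M24
  rcases hLn.eq_bot_or_eq_top with hL | hL
  swap
  · exfalso
    have h1 : x ∈ Subgroup.center J := by
      apply hK
      rw [mem_KK]
      have hm : (1, X) ∈ DD x y := (hLmem X).1 (hL ▸ Subgroup.mem_top X)
      have h := (DD x y).mul_mem hxD ((DD x y).inv_mem hm)
      have e : (x, X) * ((1 : J), X)⁻¹ = (x, 1) := by
        ext1
        · show x * 1⁻¹ = x
          group
        · show X * X⁻¹ = 1
          group
      rwa [e] at h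
    apply hx1
    have h2 : x * y = y * x := (Subgroup.mem_center_iff.1 h1 y).symm
    have h3 : Commute x y := h2
    rw [h3.mul_pow] at hxy
    have e4 : x ^ 23 = x := by
      calc x ^ 23 = (x ^ 2) ^ 11 * x := by rw [← pow_mul, ← pow_succ]
        _ = x := by rw [hx2, one_pow, one_mul]
    have e5 : y ^ 23 = y ^ 2 := by
      calc y ^ 23 = (y ^ 3) ^ 7 * y ^ 2 := by rw [← pow_mul, ← pow_add]
        _ = y ^ 2 := by rw [hy3, one_pow, one_mul]
    rw [e4, e5] at hxy
    have e6 : x = y := by
      have : x * y ^ 2 = y * y ^ 2 := by rw [hxy, ← pow_succ', hy3]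
      exact mul_right_cancel this
    rw [← e6] at hy3
    have : x * x ^ 2 = 1 := by rw [← pow_succ', hy3]
    rwa [hx2, mul_one] at this
  -- the second projection
  let D := DD x y
  let σ : D →* Cfsg.M24 := (MonoidHom.snd J Cfsg.M24).comp D.subtype
  have hσs : Function.Surjective σ := by
    intro n
    have hn : n ∈ (DD x y).map (MonoidHom.snd J Cfsg.M24) := by
      rw [snd_DD]
      exact Subgroup.mem_top n
    obtain ⟨d, h1, h2⟩ := hn
    exact ⟨⟨d, h1⟩, h2⟩
  have hσc : σ.ker ≤ Subgroup.center D := by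
    rintro ⟨⟨a, m⟩, hd⟩ hk
    have hm : m = 1 := hk
    subst hm
    have ha := hK ((mem_KK x y).2 hd)
    rw [Subgroup.mem_center_iff] at ha ⊢
    rintro ⟨⟨b, n⟩, hb⟩
    apply Subtype.ext
    refine Prod.ext (ha b) ?_
    show n * 1 = 1 * n
    rw [mul_one, one_mul]
  have hDg : Subgroup.closure ({(⟨(x, X), hxD⟩ : D), ⟨(y, Y), hyD⟩} : Set D) = ⊤ := by
    apply Subgroup.map_injective D.subtype_injective
    rw [MonoidHom.map_closure, ← MonoidHom.range_eq_map, Subgroup.range_subtype, Set.image_pair]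
    exact (DD_eq x y).symm
  have hDp : _root_.commutator D = ⊤ := by
    refine perfect2 (a := (⟨(x, X), hxD⟩ : D)) (b := ⟨(y, Y), hyD⟩) ?_ ?_ ?_ hDg
    · exact Subtype.ext (Prod.ext hx2 hX2)
    · exact Subtype.ext (Prod.ext hy3 hY3)
    · exact Subtype.ext (Prod.ext hxy hXY)
  have hfin : Finite D := finite_of_central σ hσc hDp
  obtain ⟨π, hπ⟩ := Cfsg.Agent.S2038.result.2 D σ ⟨hσs, hσc, by rw [hDp]; exact le_top⟩
  have hσi : Function.Injective σ := by
    rw [injective_iff_map_eq_one]
    intro d hd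
    obtain ⟨u, hu⟩ := hπ ⟨d, hd⟩
    obtain ⟨v, hv⟩ := hπ 1
    have huv : u = v := by
      have : Subsingleton (Multiplicative (ZMod 1)) := inferInstanceAs (Subsingleton (Fin 1))
      exact Subsingleton.elim _ _
    rw [huv, hv] at hu
    exact (congrArg Subtype.val hu).symm
  let e1 : D ≃* Cfsg.M24 := MulEquiv.ofBijective σ ⟨hσi, hσs⟩
  let τ : D →* J := (MonoidHom.fst J Cfsg.M24).comp D.subtype
  have hX : e1 ⟨(x, X), hxD⟩ = X := rfl
  have hY : e1 ⟨(y, Y), hyD⟩ = Y := rfl
  refine ⟨τ.comp e1.symm.toMonoidHom, ?_, ?_⟩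
  · show τ (e1.symm X) = x
    nth_rewrite 1 [← hX]
    rw [MulEquiv.symm_apply_apply]
    rfl
  · show τ (e1.symm Y) = y
    nth_rewrite 1 [← hY]
    rw [MulEquiv.symm_apply_apply]
    rfl

end core2

/-- the stabiliser of the trio has index 3795 and is generated by two elements -/
theorem SS_eq : SS = Subgroup.closure {gM 1, (wz.map gM).prod} ∧ SS.index = 3795 := by
  let H : Subgroup Cfsg.M24 := Subgroup.closure {gM 1, (wz.map gM).prod}
  have hP := J4P.cert.apply goodM (H := H) (by
    intro r hr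
    simp only [J4P.subs, List.mem_cons, List.not_mem_nil, or_false] at hr
    rcases hr with rfl | rfl
    · simp only [List.map_cons, List.map_nil, List.prod_cons, List.prod_nil, mul_one]
      exact Subgroup.subset_closure (by simp)
    · exact Subgroup.subset_closure (Or.inr rfl))
  have hcl : Cl gM 3 = ⊤ := by
    rw [Cl_eq rfl, ← gen_top]
    rfl
  rw [hcl, Subgroup.relIndex_top_right] at hP
  have hHS : H ≤ SS := by
    rw [Subgroup.closure_le]
    rintro _ (rfl | rfl)
    · exact X_mem_SS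
    · exact Z_mem_SS
  have h1 := Subgroup.relIndex_mul_index hHS
  have h2 := SS_index
  have h3 : H.relIndex SS ≠ 0 := by
    intro h
    rw [h, zero_mul] at h1
    exact hP.2 h1.symm
  have h4 : H.relIndex SS * SS.index ≤ 1 * SS.index := by
    rw [h1, one_mul]
    exact hP.1.trans h2
  have h5 := Nat.le_of_mul_le_mul_right h4 (by omega)
  have h6 : H.relIndex SS = 1 := by omega
  refine ⟨le_antisymm (Subgroup.relIndex_eq_one.1 h6) hHS, ?_⟩
  rw [h6, one_mul] at h1
  have := hP.1
  omega

end Cfsg.Agent.HH.J4S
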