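import Cfsg.Agent.HH.J4D
import Cfsg.Agent.HH.J4Main2
import Mathlib.GroupTheory.PGroup

set_option autoImplicit false
set_option maxRecDepth 100000
set_option maxHeartbeats 1000000

/-!
The subgroup `2 ^ 11 : M₂₄` of the group generated by the three matrices.
-/

namespace Cfsg.Agent.HH.PM

open Cfsg.Agent.Golay Cfsg.Agent.CosetEnum Cfsg.Agent.HH.J4G Cfsg.Agent.HH.J4S

/-- the group -/
def GG : Subgroup Γ := Subgroup.closure {U 0, U 1, U 3}

lemma U0_mem : U 0 ∈ GG := Subgroup.subset_closure (by simp)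
lemma U1_mem : U 1 ∈ GG := Subgroup.subset_closure (by simp)
lemma U3_mem : U 3 ∈ GG := Subgroup.subset_closure (by simp)

lemma U0_sq : U 0 * U 0 = 1 := U_inv (c := 0) (by decide)

lemma U2_eq : U 2 = (U 1)⁻¹ := by
  have := U_inv (c := 1) (by decide)
  exact (eq_inv_of_mul_eq_one_right this)

lemma U3_sq : U 3 * U 3 = 1 := U_inv (c := 3) (by decide)

/-- letters -/
def g0 : ℕ → Γ := gen2 (U 0) (U 1)

lemma gen2_one {J : Type*} [Group J] (x y : J) : gen2 x y 1 = x := rfl
lemma gen2_two {J : Type*} [Group J] (x y : J) : gen2 x y 2 = y := rfl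
lemma gen2_three {J : Type*} [Group J] (x y : J) : gen2 x y 3 = y⁻¹ := rfl

lemma g0_eq {c : ℕ} (h : c < 4) (h1 : 1 ≤ c) : g0 c = U (c - 1) := by
  unfold g0
  match c, h, h1 with
  | 1, _, _ => exact gen2_one _ _
  | 2, _, _ => exact gen2_two _ _
  | 3, _, _ => rw [gen2_three, ← U2_eq]

lemma g0_word {w : List ℕ} (h : w.all (fun c => Nat.blt c 4 && Nat.ble 1 c) = true) :
    (w.map g0).prod = ev (w.map (· - 1)) := by
  induction w with
  | nil => rfl
  | cons c w ih =>
    rw [List.all_cons, Bool.and_eq_true, Bool.and_eq_true, Nat.blt_eq] at h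
    rw [List.map_cons, List.prod_cons, ih h.2, List.map_cons, ev_cons, g0_eq h.1.1 (Nat.le_of_ble_eq_true h.1.2)]

lemma ev_replicate (m : ℕ) (w : List ℕ) : ev (List.replicate m w).flatten = (ev w) ^ m := by
  induction m with
  | zero => rw [pow_zero]; exact ev_nil
  | succ m ih => rw [List.replicate_succ, List.flatten_cons, ev_append, ih, pow_succ']

lemma good_gen2 {J : Type} [Group J] (x y : J) (hx : x * x = 1)
    (hr : ∀ p ∈ J4P.RL, ((p.1.map (gen2 x y)).prod) ^ p.2 = 1) : Good (gen2 x y) 3 [(2, 3)] J4P.RL where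
  inv c := by
    match c with
    | 0 => exact inv_one.symm
    | 1 => exact (inv_eq_of_mul_eq_one_left hx).symm
    | 2 => rfl
    | 3 => exact (inv_inv _).symm
    | n + 4 => exact inv_one.symm
  one c hc := by
    match c, hc with
    | 0, _ => rfl
    | 1, h => exact absurd h (by decide)
    | 2, h => exact absurd h (by decide)
    | 3, h => exact absurd h (by decide)
    | n + 4, _ => rfl
  rel := hr

theorem RL_all : J4P.RL.all (fun p => p.1.all (fun c => Nat.blt c 4 && Nat.ble 1 c) &&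
    chkpow p.2 (p.1.map (· - 1))) = true := by
  decide +kernel

theorem good0 : Good g0 3 [(2, 3)] J4P.RL := by
  refine good_gen2 (U 0) (U 1) U0_sq ?_
  intro p hp
  have h := RL_all
  rw [List.all_eq_true] at h
  have h1 := h p hp
  rw [Bool.and_eq_true] at h1
  have h2 := chkpow_spec h1.2
  rw [← g0_word h1.1] at h2
  exact h2

/-- the generators as elements of the group -/
def xG : GG := ⟨U 0, U0_mem⟩
def yG : GG := ⟨U 1, U1_mem⟩
def tG : GG := ⟨U 3, U3_mem⟩

lemma gen2_coe (c : ℕ) : ((gen2 xG yG c : GG) : Γ) = g0 c := by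
  match c with
  | 0 => rfl
  | 1 => rfl
  | 2 => rfl
  | 3 => rfl
  | n + 4 => rfl

lemma gen2_word (w : List ℕ) : (((w.map (gen2 xG yG)).prod : GG) : Γ) = (w.map g0).prod := by
  induction w with
  | nil => rfl
  | cons c w ih =>
    rw [List.map_cons, List.prod_cons, Subgroup.coe_mul, ih, gen2_coe, List.map_cons, List.prod_cons]

theorem goodG : Good (gen2 xG yG) 3 [(2, 3)] J4P.RL where
  inv c := Subtype.ext (by rw [Subgroup.coe_inv, gen2_coe, gen2_coe]; exact good0.inv c)
  one c hc := Subtype.ext (by rw [gen2_coe]; exact good0.one c hc)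
  rel p hp := Subtype.ext (by rw [Subgroup.coe_pow, gen2_word]; exact good0.rel p hp)

lemma wz_word : (wz.map g0).prod = ev wz0 := by
  rw [g0_word (by decide)]
  rfl

theorem genG : Subgroup.closure {xG, yG, tG} = (⊤ : Subgroup GG) := by
  apply Subgroup.map_injective GG.subtype_injective
  rw [MonoidHom.map_closure, ← MonoidHom.range_eq_map, Subgroup.range_subtype]
  unfold GG
  congr 1
  ext g
  simp only [Set.mem_image, Set.mem_insert_iff, Set.mem_singleton_iff]
  constructor
  · rintro ⟨a, rfl | rfl | rfl, rfl⟩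
    · exact Or.inl rfl
    · exact Or.inr (Or.inl rfl)
    · exact Or.inr (Or.inr rfl)
  · rintro (rfl | rfl | rfl)
    · exact ⟨xG, Or.inl rfl, rfl⟩
    · exact ⟨yG, Or.inr (Or.inl rfl), rfl⟩
    · exact ⟨tG, Or.inr (Or.inr rfl), rfl⟩

theorem h11G : ∀ (Q : Type) [Group Q] (f : GG →* Q), f tG = 1 →
    (([2, 1, 2, 1, 2, 1, 2].map (fun c => f (gen2 xG yG c))).prod) ^ 6 = 1 := by
  intro Q _ f hf
  -- elements of the group
  have hv : (([2, 1, 2, 1, 2, 1, 2].map (gen2 xG yG)).prod : Γ) = ev v7 := by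
    rw [gen2_word, g0_word (by decide)]
    rfl
  have hw2 : ∃ w : GG, (w : Γ) = ev w2b := by
    refine ⟨((w2b.map (· + 1)).map (gen2 xG yG)).prod, ?_⟩
    rw [gen2_word, g0_word (by decide), List.map_map]
    congr 1
  obtain ⟨w, hw⟩ := hw2
  have hwi : ev w2a = ((w⁻¹ : GG) : Γ) := by
    have h1 := chk_one rel_w2
    rw [ev_append] at h1
    rw [Subgroup.coe_inv, hw]
    exact eq_inv_of_mul_eq_one_left h1
  generalize hvv : ([2, 1, 2, 1, 2, 1, 2].map (gen2 xG yG)).prod = v at hv
  have h1 : (v * (v * (v * (tG * (w⁻¹ * (tG * w)))))) ^ 2 = 1 := by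
    apply Subtype.ext
    have h2 := chk_one rel_11
    rw [ev_replicate, ev_append, ev_append, ev_append, ev_cons, ev_append, ev_cons, ← hv, hwi, ← hw] at h2
    exact h2
  have h2 := congrArg f h1
  rw [map_pow, map_one, map_mul, map_mul, map_mul, map_mul, map_mul, map_mul, map_inv, hf, one_mul, one_mul,
    inv_mul_cancel, mul_one] at h2
  have h3 : (([2, 1, 2, 1, 2, 1, 2].map (fun c => f (gen2 xG yG c))).prod) = f v := by
    rw [← hvv, map_list_prod, List.map_map]
    rfl
  rw [h3]
  have h4 : f v ^ 6 = (f v * (f v * f v)) ^ 2 := by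
    have : f v * (f v * f v) = f v ^ 3 := by rw [pow_succ, pow_two, mul_assoc]
    rw [this, ← pow_mul]
  rw [h4, h2]

theorem exists_rho : ∃ ρ : Cfsg.M24 →* GG, ρ X = xG ∧ ρ Y = yG := by
  refine main2 xG yG tG goodG ?_ ?_ ?_ genG h11G ?_
  · apply Subtype.ext
    have h := chk_spec rel_tx
    rw [ev_cons, ev_single, ev_cons, ev_single] at h
    exact h
  · apply Subtype.ext
    rw [Subgroup.coe_mul, Subgroup.coe_mul, gen2_word, wz_word]
    have h := chk_spec rel_tz
    rw [ev_cons, ev_append, ev_single] at h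
    exact h
  · exact Subtype.ext U3_sq
  · intro h
    have h1 := congrArg Subtype.val h
    apply x_ne
    rw [ev_single]
    exact h1

/-- the embedding of the Mathieu group -/
noncomputable def ρ : Cfsg.M24 →* Γ := GG.subtype.comp exists_rho.choose

lemma ρX : ρ X = U 0 := congrArg Subtype.val exists_rho.choose_spec.1
lemma ρY : ρ Y = U 1 := congrArg Subtype.val exists_rho.choose_spec.2
lemma ρ_mem (m : Cfsg.M24) : ρ m ∈ GG := (exists_rho.choose m).2

/-- letters of the Mathieu group -/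
noncomputable def gL' (c : ℕ) : Cfsg.M24 := gM (c + 1)

lemma ρ_letter {c : ℕ} (h : c < 3) : ρ (gM (c + 1)) = U c := by
  match c, h with
  | 0, _ => exact ρX
  | 1, _ => exact ρY
  | 2, _ =>
    show ρ Y⁻¹ = _
    rw [map_inv, ρY, U2_eq]

lemma ρ_word {w : List ℕ} (h : w.all (fun c => Nat.blt c 3) = true) : ρ ((w.map (fun c => gM (c + 1))).prod) = ev w := by
  induction w with
  | nil => exact map_one _
  | cons c w ih =>
    rw [List.all_cons, Bool.and_eq_true, Nat.blt_eq] at h
    rw [List.map_cons, List.prod_cons, map_mul, ih h.2, ev_cons, ρ_letter h.1]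

end Cfsg.Agent.HH.PM
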