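import Cfsg.Agent.HH.J4K

set_option autoImplicit false
set_option maxRecDepth 100000
set_option maxHeartbeats 1000000

/-!
The subgroups `E` of order `2 ^ 11` and `K = 2 ^ 11 : M₂₄`.
-/

namespace Cfsg.Agent.HH.PM

open Cfsg.Agent.Golay Cfsg.Agent.CosetEnum Cfsg.Agent.HH.J4G Cfsg.Agent.HH.J4S

/-- letters of E -/
def isE (c : ℕ) : Prop := 4 ≤ c ∧ c < 15

/-- the normal subgroup -/
def EE : Subgroup Γ := Subgroup.closure {g | ∃ c, isE c ∧ g = U c}

lemma U_mem_EE {c : ℕ} (h : isE c) : U c ∈ EE := Subgroup.subset_closure ⟨c, h, rfl⟩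

lemma ivB_E {c : ℕ} (h : 4 ≤ c) : ivB c = c := by
  match c, h with
  | n + 4, _ => rfl

lemma UE_sq {c : ℕ} (h : isE c) : U c * U c = 1 := by
  have h1 := U_inv h.2
  rwa [ivB_E h.1] at h1

lemma UE_comm {c d : ℕ} (hc : isE c) (hd : isE d) : U c * U d = U d * U c := by
  have key : ∀ i j, i < 11 → j < i → U (4 + i) * U (4 + j) = U (4 + j) * U (4 + i) := by
    intro i j hi hj
    have h := comm_all
    simp only [List.all_eq_true, List.mem_range] at h
    have h1 := chk_spec (h i hi j hj)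
    rwa [ev_cons, ev_single, ev_cons, ev_single] at h1
  obtain ⟨h1, h2⟩ := hc
  obtain ⟨h3, h4⟩ := hd
  obtain ⟨i, rfl⟩ := Nat.exists_eq_add_of_le h1
  obtain ⟨j, rfl⟩ := Nat.exists_eq_add_of_le h3
  rcases lt_trichotomy i j with h | h | h
  · exact (key j i (by omega) h).symm
  · rw [h]
  · exact key i j (by omega) h

lemma closure_comm' {G : Type*} [Group G] {S : Set G} (h : ∀ a ∈ S, ∀ b ∈ S, a * b = b * a) {a b : G}
    (ha : a ∈ Subgroup.closure S) (hb : b ∈ Subgroup.closure S) : a * b = b * a := by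
  have h1 : ∀ c ∈ S, ∀ b ∈ Subgroup.closure S, c * b = b * c := by
    intro c hc b hb
    have : Subgroup.closure S ≤ Subgroup.centralizer {c} := by
      rw [Subgroup.closure_le]
      intro d hd
      rw [SetLike.mem_coe, Subgroup.mem_centralizer_singleton_iff]
      exact h d hd c hc
    exact (Subgroup.mem_centralizer_singleton_iff.1 (this hb)).symm
  have : Subgroup.closure S ≤ Subgroup.centralizer {b} := by
    rw [Subgroup.closure_le]
    intro d hd
    rw [SetLike.mem_coe, Subgroup.mem_centralizer_singleton_iff]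
    exact h1 d hd b hb
  exact Subgroup.mem_centralizer_singleton_iff.1 (this ha)

lemma closure_sq' {G : Type*} [Group G] {S : Set G} (h : ∀ a ∈ S, ∀ b ∈ S, a * b = b * a) (h2 : ∀ a ∈ S, a * a = 1)
    {a : G} (ha : a ∈ Subgroup.closure S) : a * a = 1 := by
  induction ha using Subgroup.closure_induction with
  | mem x hx => exact h2 x hx
  | one => exact mul_one _
  | mul x y hx' hy' hx hy =>
    have : x * y * (x * y) = x * x * (y * y) := by
      rw [mul_assoc, ← mul_assoc y x y, closure_comm' h hy' hx']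
      group
    rw [this, hx, hy, mul_one]
  | inv x _ hx => rw [← mul_inv_rev, hx, inv_one]

lemma gens_comm : ∀ a ∈ {g : Γ | ∃ c, isE c ∧ g = U c}, ∀ b ∈ {g : Γ | ∃ c, isE c ∧ g = U c}, a * b = b * a := by
  rintro _ ⟨c, hc, rfl⟩ _ ⟨d, hd, rfl⟩
  exact UE_comm hc hd

lemma EE_comm {a b : Γ} (ha : a ∈ EE) (hb : b ∈ EE) : a * b = b * a := closure_comm' gens_comm ha hb

lemma EE_sq {a : Γ} (ha : a ∈ EE) : a * a = 1 := by
  refine closure_sq' gens_comm ?_ ha
  rintro _ ⟨c, hc, rfl⟩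
  exact UE_sq hc

/-- words in the letters of a list -/
lemma ev_mem_EE {w : List ℕ} (h : ∀ c ∈ w, isE c) : ev w ∈ EE := by
  induction w with
  | nil => exact EE.one_mem
  | cons c w ih =>
    rw [ev_cons]
    exact EE.mul_mem (U_mem_EE (h c List.mem_cons_self)) (ih fun d hd => h d (List.mem_cons_of_mem _ hd))

lemma sub_mul (L : List ℕ) (hL : ∀ c ∈ L, isE c) : ∀ L1 ∈ L.sublists', ∀ L2 ∈ L.sublists', ∃ L3 ∈ L.sublists',
    ev L1 * ev L2 = ev L3 := by
  induction L with
  | nil =>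
    intro L1 h1 L2 h2
    simp only [List.sublists'_nil, List.mem_singleton] at h1 h2
    subst h1 h2
    exact ⟨[], by simp, by rw [ev_nil, mul_one]⟩
  | cons a L ih =>
    have ih := ih fun c hc => hL c (List.mem_cons_of_mem _ hc)
    have ha := hL a List.mem_cons_self
    have hmem : ∀ {M}, M ∈ L.sublists' → ev M ∈ EE := by
      intro M hM
      apply ev_mem_EE
      intro c hc
      exact hL c (List.mem_cons_of_mem _ ((List.mem_sublists'.1 hM).subset hc))
    intro L1 h1 L2 h2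
    rw [List.sublists'_cons, List.mem_append, List.mem_map] at h1 h2
    rcases h1 with h1 | ⟨M1, h1, rfl⟩ <;> rcases h2 with h2 | ⟨M2, h2, rfl⟩
    · obtain ⟨L3, h3, h4⟩ := ih L1 h1 L2 h2
      exact ⟨L3, by rw [List.sublists'_cons, List.mem_append]; exact Or.inl h3, h4⟩
    · obtain ⟨L3, h3, h4⟩ := ih L1 h1 M2 h2
      refine ⟨a :: L3, by rw [List.sublists'_cons, List.mem_append, List.mem_map]; exact Or.inr ⟨L3, h3, rfl⟩, ?_⟩
      rw [ev_cons, ev_cons, ← h4, ← mul_assoc, ← mul_assoc, EE_comm (hmem h1) (U_mem_EE ha)]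
    · obtain ⟨L3, h3, h4⟩ := ih M1 h1 L2 h2
      refine ⟨a :: L3, by rw [List.sublists'_cons, List.mem_append, List.mem_map]; exact Or.inr ⟨L3, h3, rfl⟩, ?_⟩
      rw [ev_cons, ev_cons, ← h4, mul_assoc]
    · obtain ⟨L3, h3, h4⟩ := ih M1 h1 M2 h2
      refine ⟨L3, by rw [List.sublists'_cons, List.mem_append]; exact Or.inl h3, ?_⟩
      rw [ev_cons, ev_cons, ← h4, ← mul_assoc, mul_assoc (U a), EE_comm (hmem h1) (U_mem_EE ha), ← mul_assoc, UE_sq ha,
        one_mul]

lemma closure_sub (L : List ℕ) (hL : ∀ c ∈ L, isE c) {g : Γ} (hg : g ∈ Subgroup.closure {g | ∃ c ∈ L, g = U c}) :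
    ∃ M ∈ L.sublists', ev M = g := by
  have hle : Subgroup.closure {g | ∃ c ∈ L, g = U c} ≤ EE := by
    rw [Subgroup.closure_le]
    rintro _ ⟨c, hc, rfl⟩
    exact U_mem_EE (hL c hc)
  induction hg using Subgroup.closure_induction with
  | mem x hx =>
    obtain ⟨c, hc, rfl⟩ := hx
    exact ⟨[c], List.mem_sublists'.2 (List.singleton_sublist.2 hc), ev_single c⟩
  | one => exact ⟨[], List.mem_sublists'.2 (List.nil_sublist _), rfl⟩
  | mul x y _ _ hx hy =>
    obtain ⟨M1, h1, rfl⟩ := hx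
    obtain ⟨M2, h2, rfl⟩ := hy
    obtain ⟨M3, h3, h4⟩ := sub_mul L hL M1 h1 M2 h2
    exact ⟨M3, h3, h4.symm⟩
  | inv x hx ih =>
    obtain ⟨M1, h1, h2⟩ := ih
    refine ⟨M1, h1, ?_⟩
    rw [h2]
    exact eq_inv_of_mul_eq_one_left (EE_sq (hle hx))

def EL : List ℕ := [4, 5, 6, 7, 8, 9, 10, 11, 12, 13, 14]

lemma EL_mem {c : ℕ} : c ∈ EL ↔ isE c := by
  unfold EL isE
  simp only [List.mem_cons, List.not_mem_nil, or_false]
  omega

lemma card_EE_le : Nat.card EE ≤ 2048 := by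
  classical
  have h : (EE : Set Γ) ⊆ ((EL.sublists'.map ev).toFinset : Set Γ) := by
    intro g hg
    have h1 : EE = Subgroup.closure {g | ∃ c ∈ EL, g = U c} := by
      unfold EE
      simp only [EL_mem]
    rw [SetLike.mem_coe, h1] at hg
    obtain ⟨M, hM, rfl⟩ := closure_sub EL (fun c hc => EL_mem.1 hc) hg
    rw [Finset.mem_coe, List.mem_toFinset, List.mem_map]
    exact ⟨M, hM, rfl⟩
  have h2 := Set.ncard_le_ncard h (Finset.finite_toSet _)
  rw [Set.ncard_coe_finset] at h2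
  have h3 := List.toFinset_card_le (EL.sublists'.map ev)
  rw [List.length_map, List.length_sublists'] at h3
  have h4 : Nat.card EE = (EE : Set Γ).ncard := rfl
  have h5 : 2 ^ EL.length = 2048 := by decide
  omega

/-- x, y normalise E -/
lemma conj_letter {g : ℕ} (hg : g < 3) {c : ℕ} (hc : isE c) : (U g)⁻¹ * U c * U g ∈ EE := by
  have h := cj_all
  simp only [List.all_eq_true, List.mem_range, Bool.and_eq_true, Nat.blt_eq] at h
  obtain ⟨h1, h2⟩ := hc
  obtain ⟨j, rfl⟩ := Nat.exists_eq_add_of_le h1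
  have h3 := h g hg j (by omega)
  have h4 := chk_spec h3.2
  rw [ev_cons, ev_single, ev_cons] at h4
  rw [mul_assoc, h4, inv_mul_cancel_left]
  apply ev_mem_EE
  intro c hc
  have := h3.1 c hc
  exact ⟨Nat.le_of_ble_eq_true this.1, this.2⟩

lemma conj_EE {g : ℕ} (hg : g < 3) {e : Γ} (he : e ∈ EE) : (U g)⁻¹ * e * U g ∈ EE := by
  unfold EE at he
  induction he using Subgroup.closure_induction with
  | mem x hx =>
    obtain ⟨c, hc, rfl⟩ := hx
    exact conj_letter hg hc
  | one => rw [mul_one, inv_mul_cancel]; exact EE.one_mem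
  | mul x y _ _ hx hy =>
    have : (U g)⁻¹ * (x * y) * U g = (U g)⁻¹ * x * U g * ((U g)⁻¹ * y * U g) := by group
    rw [this]
    exact EE.mul_mem hx hy
  | inv x _ hx =>
    have : (U g)⁻¹ * x⁻¹ * U g = ((U g)⁻¹ * x * U g)⁻¹ := by group
    rw [this]
    exact EE.inv_mem hx

lemma ρ_norm (m : Cfsg.M24) : ρ m ∈ Subgroup.normalizer (EE : Set Γ) := by
  have h : (⊤ : Subgroup Cfsg.M24) ≤ (Subgroup.normalizer (EE : Set Γ)).comap ρ := by
    rw [← gen_top, Subgroup.closure_le]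
    have hi : (U 0)⁻¹ = U 0 := (eq_inv_of_mul_eq_one_left U0_sq).symm
    rintro _ (rfl | rfl)
    · show ρ X ∈ Subgroup.normalizer (EE : Set Γ)
      rw [ρX, Subgroup.mem_normalizer_iff]
      intro e
      constructor
      · intro he
        have := conj_EE (g := 0) (by decide) he
        rwa [hi] at this ⊢
      · intro he
        have := conj_EE (g := 0) (by decide) he
        have e2 : (U 0)⁻¹ * (U 0 * e * (U 0)⁻¹) * U 0 = e := by group
        rwa [e2] at this
    · show ρ Y ∈ Subgroup.normalizer (EE : Set Γ)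
      rw [ρY, Subgroup.mem_normalizer_iff]
      intro e
      constructor
      · intro he
        have := conj_EE (g := 2) (by decide) he
        rwa [U2_eq, inv_inv] at this
      · intro he
        have := conj_EE (g := 1) (by decide) he
        have e2 : (U 1)⁻¹ * (U 1 * e * (U 1)⁻¹) * U 1 = e := by group
        rwa [e2] at this
  exact h (Subgroup.mem_top m)

lemma ρ_conj (m : Cfsg.M24) {e : Γ} (he : e ∈ EE) : ρ m * e * (ρ m)⁻¹ ∈ EE :=
  (Subgroup.mem_normalizer_iff.1 (ρ_norm m) e).1 he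

lemma ρ_conj' (m : Cfsg.M24) {e : Γ} (he : e ∈ EE) : (ρ m)⁻¹ * e * ρ m ∈ EE := by
  have := ρ_conj m⁻¹ he
  rwa [map_inv, inv_inv] at this

/-- the subgroup `K` -/
def KK : Subgroup Γ where
  carrier := {g | ∃ m, ∃ e ∈ EE, g = ρ m * e}
  one_mem' := ⟨1, 1, EE.one_mem, by rw [map_one, mul_one]⟩
  mul_mem' := by
    rintro _ _ ⟨m, e, he, rfl⟩ ⟨m', e', he', rfl⟩
    refine ⟨m * m', ((ρ m')⁻¹ * e * ρ m') * e', EE.mul_mem (ρ_conj' m' he) he', ?_⟩
    rw [map_mul]
    group
  inv_mem' := by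
    rintro _ ⟨m, e, he, rfl⟩
    refine ⟨m⁻¹, ρ m * e⁻¹ * (ρ m)⁻¹, ρ_conj m (EE.inv_mem he), ?_⟩
    rw [map_inv]
    group

lemma mem_KK {g : Γ} : g ∈ KK ↔ ∃ m, ∃ e ∈ EE, g = ρ m * e := Iff.rfl

lemma ρ_mem_KK (m : Cfsg.M24) : ρ m ∈ KK := ⟨m, 1, EE.one_mem, by rw [mul_one]⟩
lemma EE_le_KK : EE ≤ KK := fun e he => ⟨1, e, he, by rw [map_one, one_mul]⟩

lemma mem_KK' {g : Γ} (h : g ∈ KK) : ∃ m, ∃ e ∈ EE, g = e * ρ m := by
  obtain ⟨m, e, he, rfl⟩ := h
  exact ⟨m, ρ m * e * (ρ m)⁻¹, ρ_conj m he, by group⟩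

lemma U_mem_KK {c : ℕ} (h : c < 31) (h3 : c ≠ 3) : U c ∈ KK := by
  by_cases h1 : c < 3
  · rw [← ρ_letter h1]
    exact ρ_mem_KK _
  · by_cases h2 : c < 15
    · exact EE_le_KK (U_mem_EE ⟨by omega, h2⟩)
    · have h4 : U c = ev (Wl c) := U_word (by omega) h
      have h8 : (Wl c).all (fun c => Nat.blt c 3) = true := by
        have : (List.range 16).all (fun c => (Wl (15 + c)).all (fun c => Nat.blt c 3)) = true := by decide
        rw [List.all_eq_true] at this
        have h9 := this (c - 15) (List.mem_range.2 (by omega))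
        have h7 : 15 + (c - 15) = c := by omega
        rwa [h7] at h9
      rw [h4, ← ρ_word h8]
      exact ρ_mem_KK _

lemma ev_mem_KK {w : List ℕ} (h : kL w = true) : ev w ∈ KK := by
  induction w with
  | nil => exact KK.one_mem
  | cons c w ih =>
    unfold kL at h ih
    rw [List.all_cons, Bool.and_eq_true, Bool.and_eq_true, Nat.blt_eq] at h
    rw [ev_cons]
    refine KK.mul_mem (U_mem_KK h.1.1 ?_) (ih h.2)
    rintro rfl
    exact absurd h.1.2 (by decide)

end Cfsg.Agent.HH.PM
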