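import Cfsg.Agent.HH.J4D

set_option autoImplicit false
set_option maxRecDepth 100000
set_option maxHeartbeats 4000000

/-! Relations, part 0 (generated). -/

namespace Cfsg.Agent.HH.PM

theorem q_0 : (List.range 22).all (fun q => chkQ (0 + q)) = true := by decide +kernel

end Cfsg.Agent.HH.PM
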