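import Cfsg.Agent.HH.J4K2
import Cfsg.Agent.HH.J4F1
import Cfsg.Agent.HH.J4F2
import Cfsg.Agent.HH.J4F3
import Cfsg.Agent.HH.J4F4
import Cfsg.Agent.HH.J4F5
import Cfsg.Agent.HH.J4F6
import Cfsg.Agent.HH.J4Q0
import Cfsg.Agent.HH.J4Q1
import Cfsg.Agent.HH.J4Q2
import Cfsg.Agent.HH.J4Q3
import Cfsg.Agent.HH.J4Q4
import Cfsg.Agent.HH.J4Q5
import Cfsg.Agent.HH.J4Q6
import Cfsg.Agent.HH.J4Q7

set_option autoImplicit false
set_option maxRecDepth 100000
set_option maxHeartbeats 1000000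

/-!
The double cosets of `K = 2 ^ 11 : M₂₄`.
-/

namespace Cfsg.Agent.HH.PM

open Cfsg.Agent.Golay Cfsg.Agent.CosetEnum Cfsg.Agent.HH.J4G Cfsg.Agent.HH.J4S Cfsg.Agent.HH.J4F

/-- representatives -/
def gi (i : ℕ) : Γ := ev (GI i)

/-- the stabiliser of the coset `K (gi i)` in `K` -/
def SI (i : ℕ) : Subgroup Γ where
  carrier := {k | k ∈ KK ∧ gi i * k * (gi i)⁻¹ ∈ KK}
  one_mem' := ⟨KK.one_mem, by rw [mul_one, mul_inv_cancel]; exact KK.one_mem⟩
  mul_mem' := by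
    rintro a b ⟨ha, ha'⟩ ⟨hb, hb'⟩
    refine ⟨KK.mul_mem ha hb, ?_⟩
    have : gi i * (a * b) * (gi i)⁻¹ = gi i * a * (gi i)⁻¹ * (gi i * b * (gi i)⁻¹) := by group
    rw [this]
    exact KK.mul_mem ha' hb'
  inv_mem' := by
    rintro a ⟨ha, ha'⟩
    refine ⟨KK.inv_mem ha, ?_⟩
    have : gi i * a⁻¹ * (gi i)⁻¹ = (gi i * a * (gi i)⁻¹)⁻¹ := by group
    rw [this]
    exact KK.inv_mem ha'

lemma mem_SI {i : ℕ} {k : Γ} : k ∈ SI i ↔ k ∈ KK ∧ gi i * k * (gi i)⁻¹ ∈ KK := Iff.rfl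

/-- the image in the Mathieu group -/
def SB (i : ℕ) : Subgroup Cfsg.M24 where
  carrier := {m | ∃ e ∈ EE, ρ m * e ∈ SI i}
  one_mem' := ⟨1, EE.one_mem, by rw [map_one, mul_one]; exact (SI i).one_mem⟩
  mul_mem' := by
    rintro a b ⟨e, he, ha⟩ ⟨f, hf, hb⟩
    refine ⟨((ρ b)⁻¹ * e * ρ b) * f, EE.mul_mem (ρ_conj' b he) hf, ?_⟩
    have : ρ (a * b) * ((ρ b)⁻¹ * e * ρ b * f) = ρ a * e * (ρ b * f) := by
      rw [map_mul]
      group
    rw [this]
    exact (SI i).mul_mem ha hb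
  inv_mem' := by
    rintro a ⟨e, he, ha⟩
    refine ⟨ρ a * e⁻¹ * (ρ a)⁻¹, ρ_conj a (EE.inv_mem he), ?_⟩
    have : ρ a⁻¹ * (ρ a * e⁻¹ * (ρ a)⁻¹) = (ρ a * e)⁻¹ := by
      rw [map_inv]
      group
    rw [this]
    exact (SI i).inv_mem ha

lemma mem_SB {i : ℕ} {m : Cfsg.M24} : m ∈ SB i ↔ ∃ e ∈ EE, ρ m * e ∈ SI i := Iff.rfl

lemma sg_mem {p : ℕ × List ℕ × List ℕ × List ℕ} (hp : p ∈ SGL) : (p.2.1.map gL).prod ∈ SB p.1 := by
  have h := sg_all
  rw [List.all_eq_true] at h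
  have h1 := h p hp
  simp only [Bool.and_eq_true] at h1
  obtain ⟨⟨⟨⟨h1, h2⟩, h3⟩, h4⟩, h5⟩ := h1
  have h6 : ρ ((p.2.1.map gL).prod) = ev p.2.1 := ρ_word h2
  have h3' : ev p.2.2.1 ∈ EE := by
    apply ev_mem_EE
    intro c hc
    rw [List.all_eq_true] at h3
    have := h3 c hc
    rw [Bool.and_eq_true, Nat.blt_eq] at this
    exact ⟨Nat.le_of_ble_eq_true this.1, this.2⟩
  refine ⟨ev p.2.2.1, h3', ?_⟩
  rw [mem_SI, h6]
  refine ⟨KK.mul_mem ?_ (EE_le_KK h3'), ?_⟩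
  · rw [← h6]
    exact ρ_mem_KK _
  · have h7 := chk_spec h5
    rw [ev_append, ev_append, ev_append] at h7
    have h8 : gi p.1 * (ev p.2.1 * ev p.2.2.1) * (gi p.1)⁻¹ = ev p.2.2.2 := by
      unfold gi
      rw [h7]
      group
    rw [h8]
    exact ev_mem_KK h4

/-- decomposition of the Mathieu group into double cosets -/
def offs (i : ℕ) : ℕ := ([0, 0, 5, 15, 24, 28, 38] : List ℕ).getD i 0

lemma il_all : (List.range 6).all (fun i => (List.range (([5, 10, 9, 4, 10, 6] : List ℕ).getD i 0)).all (fun p =>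
    Nat.beq (IL.getD (offs (i + 1) + p) (0, [])).1 (i + 1) && Nat.blt (offs (i + 1) + p) 44 &&
    (IL.getD (offs (i + 1) + p) (0, [])).2 == (([P1, P2, P3, P4, P5, P6] : List (List (List ℕ))).getD i []).getD p [])) = true := by
  decide +kernel

lemma il_spec {i p : ℕ} (hi : i < 6) (hp : p < (([5, 10, 9, 4, 10, 6] : List ℕ).getD i 0)) :
    (IL.getD (offs (i + 1) + p) (0, [])).1 = i + 1 ∧ offs (i + 1) + p < 44 ∧
    (IL.getD (offs (i + 1) + p) (0, [])).2 = (([P1, P2, P3, P4, P5, P6] : List (List (List ℕ))).getD i []).getD p [] := by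
  have h := il_all
  rw [List.all_eq_true] at h
  have h1 := h i (List.mem_range.2 hi)
  rw [List.all_eq_true] at h1
  have h2 := h1 p (List.mem_range.2 hp)
  simp only [Bool.and_eq_true, beq_iff_eq, Nat.blt_eq] at h2
  exact ⟨Nat.eq_of_beq_eq_true h2.1.1, h2.1.2, h2.2⟩

lemma dec_all {i : ℕ} (h1 : 1 ≤ i) (h2 : i < 7) (m : Cfsg.M24) :
    ∃ σ ∈ SB i, ∃ q < 44, (IL.getD q (0, [])).1 = i ∧ ∃ θ ∈ SS,
      m = σ * (((IL.getD q (0, [])).2).map gL).prod * θ := by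
  have e : ∀ (a : ℕ × List ℕ × List ℕ × List ℕ), a ∈ SGL → (a.2.1.map gL).prod ∈ SB a.1 := fun a ha => sg_mem ha
  have hc : i = 1 ∨ i = 2 ∨ i = 3 ∨ i = 4 ∨ i = 5 ∨ i = 6 := by omega
  rcases hc with rfl | rfl | rfl | rfl | rfl | rfl
  · obtain ⟨σ, hσ, p, hp, θ, hθ, hm⟩ := dec1 (H := SB 1) (e (SGL.getD 0 (0, [], [], [])) (by decide)) (e (SGL.getD 1 (0, [], [], [])) (by decide)) m
    obtain ⟨a, b, c⟩ := il_spec (i := 0) (p := p) (by decide) hp
    exact ⟨σ, hσ, _, b, a, θ, hθ, by rw [c]; exact hm⟩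
  · obtain ⟨σ, hσ, p, hp, θ, hθ, hm⟩ := dec2 (H := SB 2) (e (SGL.getD 2 (0, [], [], [])) (by decide)) (e (SGL.getD 3 (0, [], [], [])) (by decide)) m
    obtain ⟨a, b, c⟩ := il_spec (i := 1) (p := p) (by decide) hp
    exact ⟨σ, hσ, _, b, a, θ, hθ, by rw [c]; exact hm⟩
  · obtain ⟨σ, hσ, p, hp, θ, hθ, hm⟩ := dec3 (H := SB 3) (e (SGL.getD 4 (0, [], [], [])) (by decide)) (e (SGL.getD 5 (0, [], [], [])) (by decide)) m
    obtain ⟨a, b, c⟩ := il_spec (i := 2) (p := p) (by decide) hp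
    exact ⟨σ, hσ, _, b, a, θ, hθ, by rw [c]; exact hm⟩
  · obtain ⟨σ, hσ, p, hp, θ, hθ, hm⟩ := dec4 (H := SB 4) (e (SGL.getD 6 (0, [], [], [])) (by decide)) (e (SGL.getD 7 (0, [], [], [])) (by decide)) m
    obtain ⟨a, b, c⟩ := il_spec (i := 3) (p := p) (by decide) hp
    exact ⟨σ, hσ, _, b, a, θ, hθ, by rw [c]; exact hm⟩
  · obtain ⟨σ, hσ, p, hp, θ, hθ, hm⟩ := dec5 (H := SB 5) (e (SGL.getD 8 (0, [], [], [])) (by decide)) (e (SGL.getD 9 (0, [], [], [])) (by decide)) m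
    obtain ⟨a, b, c⟩ := il_spec (i := 4) (p := p) (by decide) hp
    exact ⟨σ, hσ, _, b, a, θ, hθ, by rw [c]; exact hm⟩
  · obtain ⟨σ, hσ, p, hp, θ, hθ, hm⟩ := dec6 (H := SB 6) (e (SGL.getD 10 (0, [], [], [])) (by decide)) (e (SGL.getD 11 (0, [], [], [])) (by decide)) m
    obtain ⟨a, b, c⟩ := il_spec (i := 5) (p := p) (by decide) hp
    exact ⟨σ, hσ, _, b, a, θ, hθ, by rw [c]; exact hm⟩

/-- the trio stabiliser commutes with t -/
lemma SS_comm {θ : Cfsg.M24} (h : θ ∈ SS) : U 3 * ρ θ = ρ θ * U 3 := by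
  have h1 : SS ≤ (Subgroup.centralizer {U 3}).comap ρ := by
    rw [SS_eq.1, Subgroup.closure_le]
    rintro _ (rfl | rfl)
    · show ρ X ∈ Subgroup.centralizer {U 3}
      rw [ρX, Subgroup.mem_centralizer_singleton_iff]
      have h := chk_spec rel_tx
      rw [ev_cons, ev_single, ev_cons, ev_single] at h
      exact h.symm
    · show ρ (wz.map gM).prod ∈ Subgroup.centralizer {U 3}
      have hw : ρ (wz.map gM).prod = ev wz0 := by
        have h2 := ρ_word (w := wz0) (by decide)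
        rw [← h2]
        congr 1
      rw [hw, Subgroup.mem_centralizer_singleton_iff]
      have h := chk_spec rel_tz
      rw [ev_cons, ev_append, ev_single] at h
      exact h.symm
  have h2 : ρ θ ∈ Subgroup.centralizer {U 3} := h1 h
  rw [Subgroup.mem_centralizer_singleton_iff] at h2
  exact h2.symm

/-- the subgroup of order 2 ^ 9 -/
def ET : Subgroup Γ := Subgroup.closure {g | ∃ p ∈ ETH, g = ev p.1}

lemma eth_spec {p : List ℕ × List ℕ} (hp : p ∈ ETH) : ev p.1 ∈ EE ∧ U 3 * ev p.1 * U 3 ∈ KK := by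
  have h := eth_all
  rw [List.all_eq_true] at h
  have h1 := h p hp
  simp only [Bool.and_eq_true] at h1
  obtain ⟨⟨h1, h2⟩, h3⟩ := h1
  refine ⟨?_, ?_⟩
  · apply ev_mem_EE
    intro c hc
    rw [List.all_eq_true] at h1
    have := h1 c hc
    rw [Bool.and_eq_true, Nat.blt_eq] at this
    exact ⟨Nat.le_of_ble_eq_true this.1, this.2⟩
  · have h4 := chk_spec h3
    rw [ev_cons, ev_append, ev_single, ← mul_assoc] at h4
    rw [h4]
    exact ev_mem_KK h2

lemma ET_le : ET ≤ EE := by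
  unfold ET
  rw [Subgroup.closure_le]
  rintro _ ⟨p, hp, rfl⟩
  exact (eth_spec hp).1

lemma ET_conj {a : Γ} (ha : a ∈ ET) : U 3 * a * U 3 ∈ KK := by
  unfold ET at ha
  induction ha using Subgroup.closure_induction with
  | mem x hx =>
    obtain ⟨p, hp, rfl⟩ := hx
    exact (eth_spec hp).2
  | one => rw [mul_one, U3_sq]; exact KK.one_mem
  | mul x y _ _ hx hy =>
    have : U 3 * (x * y) * U 3 = U 3 * x * U 3 * (U 3 * y * U 3) := by
      have : U 3 * x * U 3 * (U 3 * y * U 3) = U 3 * x * (U 3 * U 3) * y * U 3 := by group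
      rw [this, U3_sq]
      group
    rw [this]
    exact KK.mul_mem hx hy
  | inv x _ hx =>
    have h3 : (U 3)⁻¹ = U 3 := (eq_inv_of_mul_eq_one_left U3_sq).symm
    have : U 3 * x⁻¹ * U 3 = (U 3 * x * U 3)⁻¹ := by
      rw [mul_inv_rev, mul_inv_rev, h3]
      group
    rw [this]
    exact KK.inv_mem hx

lemma CW_sub {M : List ℕ} (h : M ∈ ([7, 8] : List ℕ).sublists') : ∃ c < 4, M = CW c := by
  have : ([7, 8] : List ℕ).sublists' = [[], [8], [7], [7, 8]] := by decide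
  rw [this] at h
  simp only [List.mem_cons, List.not_mem_nil, or_false] at h
  rcases h with rfl | rfl | rfl | rfl
  · exact ⟨0, by decide, rfl⟩
  · exact ⟨2, by decide, rfl⟩
  · exact ⟨1, by decide, rfl⟩
  · exact ⟨3, by decide, rfl⟩

lemma EE_split {e : Γ} (he : e ∈ EE) : ∃ c < 4, ∃ a ∈ ET, e = ev (CW c) * a := by
  have hC : ∀ c ∈ ([7, 8] : List ℕ), isE c := by
    intro c hc
    simp only [List.mem_cons, List.not_mem_nil, or_false] at hc
    unfold isE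
    omega
  let C : Subgroup Γ := Subgroup.closure {g | ∃ c ∈ ([7, 8] : List ℕ), g = U c}
  have hCE : C ≤ EE := by
    show Subgroup.closure _ ≤ _
    rw [Subgroup.closure_le]
    rintro _ ⟨c, hc, rfl⟩
    exact U_mem_EE (hC c hc)
  have h7 : U 7 ∈ C := Subgroup.subset_closure ⟨7, by simp, rfl⟩
  have h8 : U 8 ∈ C := Subgroup.subset_closure ⟨8, by simp, rfl⟩
  have key : ∀ e ∈ EE, ∃ c ∈ C, ∃ a ∈ ET, e = c * a := by
    intro e he
    unfold EE at he
    induction he using Subgroup.closure_induction with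
    | mem x hx =>
      obtain ⟨c, hc, rfl⟩ := hx
      have hin : ∀ p ∈ ETH, ev p.1 ∈ ET := fun p hp => Subgroup.subset_closure ⟨p, hp, rfl⟩
      obtain ⟨h1, h2⟩ := hc
      have hcases : c = 4 ∨ c = 5 ∨ c = 6 ∨ c = 7 ∨ c = 8 ∨ c = 9 ∨ c = 10 ∨ c = 11 ∨ c = 12 ∨ c = 13 ∨ c = 14 := by omega
      rcases hcases with rfl | rfl | rfl | rfl | rfl | rfl | rfl | rfl | rfl | rfl | rfl
      · exact ⟨1, C.one_mem, _, hin (ETH.getD 0 ([], [])) (by decide), by rw [one_mul]; exact (ev_single 4).symm⟩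
      · exact ⟨1, C.one_mem, _, hin (ETH.getD 1 ([], [])) (by decide), by rw [one_mul]; exact (ev_single 5).symm⟩
      · exact ⟨1, C.one_mem, _, hin (ETH.getD 2 ([], [])) (by decide), by rw [one_mul]; exact (ev_single 6).symm⟩
      · exact ⟨_, h7, 1, ET.one_mem, (mul_one _).symm⟩
      · exact ⟨_, h8, 1, ET.one_mem, (mul_one _).symm⟩
      · exact ⟨1, C.one_mem, _, hin (ETH.getD 3 ([], [])) (by decide), by rw [one_mul]; exact (ev_single 9).symm⟩
      · exact ⟨1, C.one_mem, _, hin (ETH.getD 4 ([], [])) (by decide), by rw [one_mul]; exact (ev_single 10).symm⟩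
      · exact ⟨1, C.one_mem, _, hin (ETH.getD 5 ([], [])) (by decide), by rw [one_mul]; exact (ev_single 11).symm⟩
      · refine ⟨(U 7 * U 8), C.mul_mem h7 h8, _, hin (ETH.getD 6 ([], [])) (by decide), ?_⟩
        show U 12 = U 7 * U 8 * ev [7, 8, 12]
        rw [ev_cons, ev_cons, ev_single]
        have e7 : U 7 * U 7 = 1 := UE_sq (by unfold isE; omega)
        have e8 : U 8 * U 8 = 1 := UE_sq (by unfold isE; omega)
        have e78 : U 7 * U 8 = U 8 * U 7 := UE_comm (by unfold isE; omega) (by unfold isE; omega)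
        calc U 12 = (U 7 * U 7) * (U 8 * U 8) * U 12 := by rw [e7, e8, one_mul, one_mul]
          _ = U 7 * (U 7 * U 8) * U 8 * U 12 := by group
          _ = U 7 * (U 8 * U 7) * U 8 * U 12 := by rw [e78]
          _ = _ := by group
      · exact ⟨1, C.one_mem, _, hin (ETH.getD 7 ([], [])) (by decide), by rw [one_mul]; exact (ev_single 13).symm⟩
      · refine ⟨U 7, h7, _, hin (ETH.getD 8 ([], [])) (by decide), ?_⟩
        show U 14 = U 7 * ev [7, 14]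
        rw [ev_cons, ev_single]
        have e7 : U 7 * U 7 = 1 := UE_sq (by unfold isE; omega)
        rw [← mul_assoc, e7, one_mul]
    | one => exact ⟨1, C.one_mem, 1, ET.one_mem, (mul_one _).symm⟩
    | mul x y hx' hy' hx hy =>
      obtain ⟨c, hc, a, ha, rfl⟩ := hx
      obtain ⟨d, hd, b, hb, rfl⟩ := hy
      refine ⟨c * d, C.mul_mem hc hd, a * b, ET.mul_mem ha hb, ?_⟩
      rw [mul_assoc, ← mul_assoc a d b, EE_comm (ET_le ha) (hCE hd)]
      group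
    | inv x _ hx =>
      obtain ⟨c, hc, a, ha, rfl⟩ := hx
      refine ⟨c⁻¹, C.inv_mem hc, a⁻¹, ET.inv_mem ha, ?_⟩
      rw [mul_inv_rev, EE_comm (EE.inv_mem (ET_le ha)) (EE.inv_mem (hCE hc))]
  obtain ⟨c, hc, a, ha, rfl⟩ := key e he
  obtain ⟨M, hM, rfl⟩ := closure_sub [7, 8] hC hc
  obtain ⟨k, hk, rfl⟩ := CW_sub hM
  exact ⟨k, hk, a, ha, rfl⟩

/-- the relations -/
lemma Q_all : ∀ q < 176, chkQ q = true := by
  intro q hq
  have key : ∀ s, (List.range 22).all (fun q => chkQ (22 * s + q)) = true → q / 22 = s → chkQ q = true := by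
    intro s h hs
    rw [List.all_eq_true] at h
    have h1 := h (q % 22) (List.mem_range.2 (Nat.mod_lt _ (by decide)))
    rwa [← hs, Nat.div_add_mod] at h1
  have hc : q / 22 = 0 ∨ q / 22 = 1 ∨ q / 22 = 2 ∨ q / 22 = 3 ∨ q / 22 = 4 ∨ q / 22 = 5 ∨ q / 22 = 6 ∨ q / 22 = 7 := by omega
  rcases hc with h | h | h | h | h | h | h | h
  · exact key 0 q_0 h
  · exact key 1 q_1 h
  · exact key 2 q_2 h
  · exact key 3 q_3 h
  · exact key 4 q_4 h
  · exact key 5 q_5 h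
  · exact key 6 q_6 h
  · exact key 7 q_7 h

lemma Q_spec {q : ℕ} (hq : q < 176) : ∃ h ∈ KK, ∃ j < 7, ∃ k ∈ KK,
    gi (IL.getD (q / 4) (0, [])).1 * (ev (IL.getD (q / 4) (0, [])).2 * (ev (CW (q % 4)) * U 3)) = h * (gi j * k) := by
  have h := Q_all q hq
  unfold chkQ at h
  simp only [Bool.and_eq_true, Nat.blt_eq] at h
  obtain ⟨⟨⟨h1, h2⟩, h3⟩, h4⟩ := h
  refine ⟨_, ev_mem_KK h1, _, h3, _, ev_mem_KK h2, ?_⟩
  have h5 := chk_spec h4
  rw [ev_append, ev_append, ev_append, ev_single, ev_append, ev_append] at h5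
  exact h5

/-- letters of the words of `IL` -/
lemma IL_letters : (List.range 44).all (fun q => (IL.getD q (0, [])).2.all (fun c => Nat.blt c 3)) = true := by
  decide +kernel

/-- the main relation -/
theorem main_rel {i : ℕ} (hi : i < 7) {k : Γ} (hk : k ∈ KK) : ∃ h ∈ KK, ∃ j < 7, ∃ k' ∈ KK,
    gi i * k * U 3 = h * (gi j * k') := by
  by_cases h0 : i = 0
  · subst h0
    refine ⟨k, hk, 1, by decide, 1, KK.one_mem, ?_⟩
    have e0 : gi 0 = 1 := rfl
    have e1 : gi 1 = U 3 := ev_single 3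
    rw [e0, e1, one_mul, mul_one]
  · obtain ⟨m, e, he, rfl⟩ := hk
    obtain ⟨σ, hσ, q, hq, hqi, θ, hθ, rfl⟩ := dec_all (by omega) hi m
    obtain ⟨e1, he1, hs⟩ := hσ
    have hlet : ρ ((((IL.getD q (0, [])).2).map gL).prod) = ev (IL.getD q (0, [])).2 := by
      have h1 := IL_letters
      rw [List.all_eq_true] at h1
      exact ρ_word (h1 q (List.mem_range.2 hq))
    generalize hmm : (((IL.getD q (0, [])).2).map gL).prod = mp at hlet ⊢
    -- the element of E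
    have he2 : ((ρ mp)⁻¹ * e1⁻¹ * ρ mp) * (ρ θ * e * (ρ θ)⁻¹) ∈ EE :=
      EE.mul_mem (ρ_conj' mp (EE.inv_mem he1)) (ρ_conj θ he)
    obtain ⟨c, hc, a, ha, hca⟩ := EE_split he2
    have e3 : gi i * (ρ (σ * mp * θ) * e) * U 3 =
        (gi i * (ρ σ * e1) * (gi i)⁻¹) * (gi i * (ev (IL.getD q (0, [])).2 * (ev (CW c) * U 3))) * ((U 3 * a * U 3) * ρ θ) := by
      have h5 : ρ θ * U 3 = U 3 * ρ θ := (SS_comm hθ).symm
      have h3i : (U 3)⁻¹ = U 3 := (eq_inv_of_mul_eq_one_left U3_sq).symm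
      calc gi i * (ρ (σ * mp * θ) * e) * U 3
          = (gi i * (ρ σ * e1) * (gi i)⁻¹) * gi i * (ρ mp * (((ρ mp)⁻¹ * e1⁻¹ * ρ mp) * (ρ θ * e * (ρ θ)⁻¹))) * (ρ θ * U 3) := by
            rw [map_mul, map_mul]
            group
        _ = (gi i * (ρ σ * e1) * (gi i)⁻¹) * gi i * (ρ mp * (ev (CW c) * a)) * (U 3 * ρ θ) := by rw [hca, h5]
        _ = (gi i * (ρ σ * e1) * (gi i)⁻¹) * (gi i * (ρ mp * (ev (CW c) * (U 3 * U 3)))) * (a * U 3 * ρ θ) := by
            rw [U3_sq]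
            group
        _ = _ := by
            rw [hlet]
            group
    obtain ⟨h, hh, j, hj, k', hk', hrel⟩ := Q_spec (q := 4 * q + c) (by omega)
    have hd : (4 * q + c) / 4 = q := by omega
    have hm4 : (4 * q + c) % 4 = c := by omega
    rw [hd, hm4, hqi] at hrel
    rw [e3, hrel]
    refine ⟨(gi i * (ρ σ * e1) * (gi i)⁻¹) * h, KK.mul_mem hs.2 hh, j, hj, k' * ((U 3 * a * U 3) * ρ θ),
      KK.mul_mem hk' (KK.mul_mem (ET_conj ha) (ρ_mem_KK θ)), ?_⟩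
    group

/-- the group -/
def G1 : Subgroup Γ := Subgroup.closure (insert (U 3) (KK : Set Γ))

lemma KK_le_G1 : KK ≤ G1 := fun _ hk => Subgroup.subset_closure (Or.inr hk)

lemma t_mem_G1 : U 3 ∈ G1 := Subgroup.subset_closure (Or.inl rfl)

/-- the double cosets cover the group -/
theorem cover {g : Γ} (hg : g ∈ G1) : ∃ h ∈ KK, ∃ j < 7, ∃ k ∈ KK, g = h * (gi j * k) := by
  have h3i : (U 3)⁻¹ = U 3 := (eq_inv_of_mul_eq_one_left U3_sq).symm
  have keyt : ∀ g, (∃ h ∈ KK, ∃ j < 7, ∃ k ∈ KK, g = h * (gi j * k)) →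
      ∃ h ∈ KK, ∃ j < 7, ∃ k ∈ KK, g * U 3 = h * (gi j * k) := by
    rintro _ ⟨h, hh, j, hj, k, hk, rfl⟩
    obtain ⟨h', hh', j', hj', k', hk', h1⟩ := main_rel hj hk
    refine ⟨h * h', KK.mul_mem hh hh', j', hj', k', hk', ?_⟩
    rw [mul_assoc, h1, mul_assoc]
  have keyk : ∀ g, ∀ u ∈ KK, (∃ h ∈ KK, ∃ j < 7, ∃ k ∈ KK, g = h * (gi j * k)) →
      ∃ h ∈ KK, ∃ j < 7, ∃ k ∈ KK, g * u = h * (gi j * k) := by
    rintro _ u hu ⟨h, hh, j, hj, k, hk, rfl⟩
    exact ⟨h, hh, j, hj, k * u, KK.mul_mem hk hu, by group⟩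
  unfold G1 at hg
  induction hg using Subgroup.closure_induction_right with
  | one => exact ⟨1, KK.one_mem, 0, by decide, 1, KK.one_mem, by
      have e0 : gi 0 = 1 := rfl
      rw [e0]; group⟩
  | mul_right x hx y hy ih =>
    rcases hy with rfl | hy
    · exact keyt _ ih
    · exact keyk _ _ hy ih
  | mul_inv_cancel x hx y hy ih =>
    rcases hy with rfl | hy
    · rw [h3i]
      exact keyt _ ih
    · exact keyk _ _ (KK.inv_mem hy) ih

end Cfsg.Agent.HH.PM
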