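import Cfsg.Agent.HH.J4E

set_option autoImplicit false
set_option maxRecDepth 100000
set_option maxHeartbeats 1000000

/-!
Products of commuting involutions.
-/

namespace Cfsg.Agent.HH.PM

open Cfsg.Agent.Golay Cfsg.Agent.CosetEnum Cfsg.Agent.HH.J4G Cfsg.Agent.HH.J4S

section pw

variable {G : Type*} [Group G]

/-- products of powers -/
def pw (d : ℕ → G) (a : ℕ → Bool) : ℕ → G
  | 0 => 1
  | n + 1 => pw d a n * (if a n = true then d n else 1)

lemma pw_succ (d : ℕ → G) (a : ℕ → Bool) (n : ℕ) : pw d a (n + 1) = pw d a n * (if a n = true then d n else 1) := rfl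

lemma pw_comm {d : ℕ → G} {N : ℕ} (hc : ∀ i < N, ∀ j < N, d i * d j = d j * d i) (a : ℕ → Bool) {n : ℕ} (hn : n ≤ N)
    {k : ℕ} (hk : k < N) : pw d a n * d k = d k * pw d a n := by
  induction n with
  | zero => show 1 * d k = d k * 1; rw [one_mul, mul_one]
  | succ n ih =>
    have h := ih (by omega)
    rw [pw_succ]
    split_ifs
    · rw [mul_assoc, hc n (by omega) k hk, ← mul_assoc, h, mul_assoc]
    · rw [mul_one, h]

lemma pw_mul {d : ℕ → G} {N : ℕ} (hc : ∀ i < N, ∀ j < N, d i * d j = d j * d i) (h2 : ∀ i < N, d i * d i = 1)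
    (a b : ℕ → Bool) {n : ℕ} (hn : n ≤ N) : pw d a n * pw d b n = pw d (fun i => xor (a i) (b i)) n := by
  induction n with
  | zero => show (1 : G) * 1 = 1; rw [one_mul]
  | succ n ih =>
    have h := ih (by omega)
    rw [pw_succ, pw_succ, pw_succ, ← h]
    have hcn := pw_comm hc b (n := n) (by omega) (k := n) (by omega)
    have h2n := h2 n (by omega)
    cases ha : a n <;> cases hb : b n
    · simp
    · simp [mul_assoc]
    · simp only [if_true, Bool.false_eq_true, if_false, mul_one, Bool.xor_false]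
      rw [mul_assoc, ← hcn, mul_assoc]
    · simp only [if_true, Bool.xor_self, Bool.false_eq_true, if_false, mul_one]
      rw [mul_assoc, ← mul_assoc (d n), ← hcn, mul_assoc (pw d b n), h2n, mul_one]

lemma pw_false (d : ℕ → G) (n : ℕ) : pw d (fun _ => false) n = 1 := by
  induction n with
  | zero => rfl
  | succ n ih => rw [pw_succ, ih]; simp

lemma pw_congr {d : ℕ → G} {a b : ℕ → Bool} {n : ℕ} (h : ∀ i < n, a i = b i) : pw d a n = pw d b n := by
  induction n with
  | zero => rfl
  | succ n ih => rw [pw_succ, pw_succ, ih (fun i hi => h i (by omega)), h n (by omega)]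

lemma pw_congr' {d e : ℕ → G} {a : ℕ → Bool} {n : ℕ} (h : ∀ i < n, d i = e i) : pw d a n = pw e a n := by
  induction n with
  | zero => rfl
  | succ n ih => rw [pw_succ, pw_succ, ih (fun i hi => h i (by omega)), h n (by omega)]

lemma pw_single (d : ℕ → G) (i n : ℕ) : pw d (fun j => decide (j = i)) n = if i < n then d i else 1 := by
  induction n with
  | zero => rfl
  | succ n ih =>
    rw [pw_succ, ih]
    simp only [decide_eq_true_eq]
    rcases lt_trichotomy i n with h | h | h
    · rw [if_pos h, if_neg (by omega : ¬ n = i), if_pos (by omega : i < n + 1), mul_one]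
    · subst h
      rw [if_neg (lt_irrefl _), if_pos rfl, if_pos (Nat.lt_succ_self _), one_mul]
    · rw [if_neg (by omega : ¬ i < n), if_neg (by omega : ¬ n = i), if_neg (by omega : ¬ i < n + 1), mul_one]

lemma pw_mem {d : ℕ → G} {H : Subgroup G} {n : ℕ} (h : ∀ i < n, d i ∈ H) (a : ℕ → Bool) : pw d a n ∈ H := by
  induction n with
  | zero => exact H.one_mem
  | succ n ih =>
    rw [pw_succ]
    apply H.mul_mem (ih fun i hi => h i (by omega))
    split_ifs
    · exact h n (by omega)
    · exact H.one_mem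

lemma pw_conj (g : G) (d : ℕ → G) (a : ℕ → Bool) (n : ℕ) : g * pw d a n * g⁻¹ = pw (fun i => g * d i * g⁻¹) a n := by
  induction n with
  | zero => show g * 1 * g⁻¹ = 1; rw [mul_one, mul_inv_cancel]
  | succ n ih =>
    rw [pw_succ, pw_succ, ← ih]
    split_ifs <;> group

lemma mem_closure_pw {d : ℕ → G} {N : ℕ} (hc : ∀ i < N, ∀ j < N, d i * d j = d j * d i) (h2 : ∀ i < N, d i * d i = 1)
    {x : G} (hx : x ∈ Subgroup.closure {y | ∃ i < N, y = d i}) : ∃ a : ℕ → Bool, x = pw d a N := by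
  induction hx using Subgroup.closure_induction with
  | mem x hx =>
    obtain ⟨i, hi, rfl⟩ := hx
    exact ⟨fun j => decide (j = i), by rw [pw_single, if_pos hi]⟩
  | one => exact ⟨fun _ => false, (pw_false d N).symm⟩
  | mul x y _ _ hx hy =>
    obtain ⟨a, rfl⟩ := hx
    obtain ⟨b, rfl⟩ := hy
    exact ⟨_, pw_mul hc h2 a b le_rfl⟩
  | inv x _ hx =>
    obtain ⟨a, rfl⟩ := hx
    refine ⟨a, ?_⟩
    rw [inv_eq_iff_mul_eq_one, pw_mul hc h2 a a le_rfl]
    simp only [Bool.xor_self]
    exact pw_false d N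

end pw

lemma exists_bits (a : ℕ → Bool) (n : ℕ) : ∃ m < 2 ^ n, ∀ i < n, m.testBit i = a i := by
  induction n with
  | zero => exact ⟨0, by norm_num, fun i hi => absurd hi (by omega)⟩
  | succ n ih =>
    obtain ⟨m, hm, h⟩ := ih
    have hm' : m < 2 ^ (n + 1) := lt_of_lt_of_le hm (Nat.pow_le_pow_right (by norm_num) (by omega))
    refine ⟨m ||| (if a n = true then 2 ^ n else 0), ?_, ?_⟩
    · apply Nat.or_lt_two_pow hm'
      split_ifs
      · exact Nat.pow_lt_pow_right (by norm_num) (by omega)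
      · positivity
    · intro i hi
      rw [Nat.testBit_or]
      rcases Nat.lt_succ_iff_lt_or_eq.1 hi with h1 | h1
      · rw [h i h1]
        split_ifs
        · rw [Nat.testBit_two_pow_of_ne (by omega), Bool.or_false]
        · rw [Nat.zero_testBit, Bool.or_false]
      · subst h1
        rw [Nat.testBit_lt_two_pow hm, Bool.false_or]
        cases ha : a i
        · simp
        · simp [Nat.testBit_two_pow_self]

/-- the element of E with the given mask -/
def EM (m : ℕ) : Γ := pw (fun j => U (4 + j)) m.testBit 11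

lemma isE_add {j : ℕ} (h : j < 11) : isE (4 + j) := ⟨by omega, by omega⟩

lemma EM_xor (m m' : ℕ) : EM (m ^^^ m') = EM m * EM m' := by
  unfold EM
  rw [pw_mul (N := 11) (fun i hi j hj => UE_comm (isE_add hi) (isE_add hj)) (fun i hi => UE_sq (isE_add hi)) _ _ le_rfl]
  apply pw_congr
  intro i _
  rw [Nat.testBit_xor]

lemma EM_mem (m : ℕ) : EM m ∈ EE := pw_mem (fun i hi => U_mem_EE (isE_add hi)) _

lemma EM_bit {j : ℕ} (hj : j < 11) : EM (2 ^ j) = U (4 + j) := by
  unfold EM
  have h : ∀ i < 11, (2 ^ j).testBit i = decide (i = j) := by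
    intro i _
    rw [Nat.testBit_two_pow]
    simp only [eq_comm]
  rw [pw_congr h, pw_single, if_pos hj]

lemma EM_surj {x : Γ} (hx : x ∈ EE) : ∃ m < 2048, EM m = x := by
  have h : EE = Subgroup.closure {y | ∃ i < 11, y = U (4 + i)} := by
    unfold EE
    congr 1
    ext y
    constructor
    · rintro ⟨c, ⟨h1, h2⟩, rfl⟩
      obtain ⟨j, rfl⟩ := Nat.exists_eq_add_of_le h1
      exact ⟨j, by omega, rfl⟩
    · rintro ⟨i, hi, rfl⟩
      exact ⟨4 + i, isE_add hi, rfl⟩
  rw [h] at hx
  obtain ⟨a, ha⟩ := mem_closure_pw (d := fun i => U (4 + i)) (N := 11)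
    (fun i hi j hj => UE_comm (isE_add hi) (isE_add hj)) (fun i hi => UE_sq (isE_add hi)) hx
  obtain ⟨m, hm, hb⟩ := exists_bits a 11
  refine ⟨m, hm, ?_⟩
  rw [ha]
  exact pw_congr hb

lemma EM_inj {m m' : ℕ} (hm : m < 2048) (hm' : m' < 2048) (h : EM m = EM m') : m = m' := by
  let f : Fin 2048 → EE := fun i => ⟨EM i, EM_mem i⟩
  have hs : Function.Surjective f := by
    rintro ⟨x, hx⟩
    obtain ⟨m, hm, rfl⟩ := EM_surj hx
    exact ⟨⟨m, hm⟩, rfl⟩
  have hb := (Nat.bijective_iff_surjective_and_card f).2 ⟨hs, by rw [Nat.card_fin, card_EE]⟩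
  have h1 := hb.1 (a₁ := ⟨m, hm⟩) (a₂ := ⟨m', hm'⟩) (Subtype.ext h)
  exact Fin.mk.inj_iff.1 h1

lemma EM_zero : EM 0 = 1 := by
  unfold EM
  have h : ∀ i < 11, (0 : ℕ).testBit i = (fun _ => false) i := fun i _ => Nat.zero_testBit i
  rw [pw_congr h, pw_false]

/-- the involution -/
def zI : Γ := U 10

lemma zI_eq : zI = EM 64 := (EM_bit (j := 6) (by norm_num)).symm

lemma zI_mem : zI ∈ EE := by
  rw [zI_eq]
  exact EM_mem _

lemma zI_ne : zI ≠ 1 := by
  rw [zI_eq, ← EM_zero]
  intro h
  exact absurd (EM_inj (by norm_num) (by norm_num) h) (by norm_num)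

lemma zI_sq : zI * zI = 1 := EE_sq zI_mem

end Cfsg.Agent.HH.PM
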