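import Cfsg.Agent.HH.J4V8

set_option autoImplicit false
set_option maxRecDepth 100000
set_option maxHeartbeats 1000000

/-!
Orders and normality of the subgroups of the centraliser.
-/

namespace Cfsg.Agent.HH.PM

open Cfsg.Agent.Golay Cfsg.Agent.CosetEnum Cfsg.Agent.HH.J4G Cfsg.Agent.HH.J4S Cfsg.Agent.HH.J4F

lemma eq_of_bits {m m' n : ℕ} (hm : m < 2 ^ n) (hm' : m' < 2 ^ n) (h : ∀ i < n, xor (m.testBit i) (m'.testBit i) = false) :
    m = m' := by
  apply Nat.eq_of_testBit_eq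
  intro i
  by_cases hi : i < n
  · have := h i hi
    revert this
    cases m.testBit i <;> cases m'.testBit i <;> simp
  · rw [Nat.testBit_lt_two_pow (lt_of_lt_of_le hm (Nat.pow_le_pow_right (by norm_num) (by omega))),
      Nat.testBit_lt_two_pow (lt_of_lt_of_le hm' (Nat.pow_le_pow_right (by norm_num) (by omega)))]

theorem QQ_card : Nat.card QQ = 8192 := by
  have hdc : ∀ i < 7, ∀ j < 7, dd i * dd j = dd j * dd i := fun i hi j hj => dd_comm hi hj
  have hrc : ∀ i < 7, ∀ j < 7, rr i * rr j = rr j * rr i := fun i hi j hj => rr_comm hi hj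
  let f : Fin 128 × Fin 64 → QQ := fun p => ⟨pw dd (p.1 : ℕ).testBit 7 * pw rr (p.2 : ℕ).testBit 6,
    ⟨_, DD_pw_mem _, _, RR_pw_mem _ (by norm_num), rfl⟩⟩
  have hf : Function.Bijective f := by
    constructor
    · rintro ⟨⟨m, hm⟩, ⟨k, hk⟩⟩ ⟨⟨m', hm'⟩, ⟨k', hk'⟩⟩ h
      have h1 : pw dd m.testBit 7 * pw rr k.testBit 6 = pw dd m'.testBit 7 * pw rr k'.testBit 6 := congrArg Subtype.val h
      have hinvd : ∀ a : ℕ → Bool, pw dd a 7 * pw dd a 7 = 1 := by
        intro a
        rw [pw_mul hdc (fun i hi => dd_sq hi) a a le_rfl]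
        simp only [Bool.xor_self]
        exact pw_false dd 7
      have hinvr : ∀ a : ℕ → Bool, pw rr a 6 * pw rr a 6 = 1 := by
        intro a
        rw [pw_mul hrc (fun i hi => rr_sq hi) a a (by norm_num)]
        simp only [Bool.xor_self]
        exact pw_false rr 6
      have h2 : pw dd m.testBit 7 * pw dd m'.testBit 7 = pw rr k.testBit 6 * pw rr k'.testBit 6 := by
        have hcd : pw dd m.testBit 7 * pw dd m'.testBit 7 = pw dd m'.testBit 7 * pw dd m.testBit 7 :=
          EE_comm (DD7_le (DD_pw_mem _)) (DD7_le (DD_pw_mem _))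
        have hcr : pw rr k.testBit 6 * pw rr k'.testBit 6 = pw rr k'.testBit 6 * pw rr k.testBit 6 :=
          RR_comm (RR_pw_mem _ (by norm_num)) (RR_pw_mem _ (by norm_num))
        calc pw dd m.testBit 7 * pw dd m'.testBit 7 = pw dd m'.testBit 7 * (pw dd m.testBit 7 * pw rr k.testBit 6) * pw rr k.testBit 6 := by
              rw [mul_assoc, mul_assoc, hinvr, mul_one, hcd]
          _ = pw dd m'.testBit 7 * (pw dd m'.testBit 7 * pw rr k'.testBit 6) * pw rr k.testBit 6 := by rw [h1]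
          _ = (pw dd m'.testBit 7 * pw dd m'.testBit 7) * (pw rr k'.testBit 6 * pw rr k.testBit 6) := by group
          _ = _ := by rw [hinvd, one_mul, hcr]
      rw [pw_mul hdc (fun i hi => dd_sq hi) _ _ le_rfl, pw_mul hrc (fun i hi => rr_sq hi) _ _ (by norm_num)] at h2
      -- the bits of the second factor, cut off
      let b : ℕ → Bool := fun i => if i < 6 then xor (k.testBit i) (k'.testBit i) else false
      have hb6 : pw rr (fun i => xor (k.testBit i) (k'.testBit i)) 6 = pw rr b 6 :=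
        pw_congr fun i hi => by show _ = if i < 6 then _ else _; rw [if_pos hi]
      have hb7 : pw rr b 7 = pw rr b 6 := by
        rw [pw_succ]
        have : b 6 = false := if_neg (by norm_num)
        rw [this]
        simp
      rw [hb6, ← hb7] at h2
      have hD := DD_nondeg (a := fun i => xor (m.testBit i) (m'.testBit i)) (by
        intro r hr
        rw [h2]
        exact RR_comm (RR_pw_mem _ le_rfl) hr)
      have hR := RR_nondeg (a := b) (by
        intro d hd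
        rw [← h2]
        exact EE_comm (DD7_le (DD_pw_mem _)) (DD7_le hd))
      have h3 : pw rr b 7 = 1 := by
        rw [hb7, pw_congr (b := fun _ => false) (fun i hi => hR i hi), pw_false]
      rw [h3, pw_succ, pw_congr (b := fun _ => false) (fun i hi => hD i hi), pw_false, one_mul] at h2
      have h6 : xor (m.testBit 6) (m'.testBit 6) = false := by
        by_contra hc
        rw [Bool.not_eq_false] at hc
        rw [if_pos hc, dd6] at h2
        exact zI_ne h2
      have e1 : m = m' := eq_of_bits (n := 7) hm hm' (by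
        intro i hi
        by_cases h7 : i < 6
        · exact hD i h7
        · have : i = 6 := by omega
          rw [this]
          exact h6)
      have e2 : k = k' := eq_of_bits (n := 6) hk hk' (by
        intro i hi
        have := hR i hi
        show _
        have hbi : b i = xor (k.testBit i) (k'.testBit i) := if_pos hi
        rwa [hbi] at this)
      subst e1 e2
      rfl
    · rintro ⟨_, d, hd, r, hr, rfl⟩
      obtain ⟨b, rfl⟩ := RR_pw hr
      have hd2 : d * (if b 6 = true then zI else 1) ∈ DD7 := by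
        split_ifs
        · exact DD7.mul_mem hd zI_DD
        · rwa [mul_one]
      obtain ⟨a, ha⟩ := DD_pw hd2
      obtain ⟨m, hm, hmb⟩ := exists_bits a 7
      obtain ⟨k, hk, hkb⟩ := exists_bits b 6
      refine ⟨(⟨m, hm⟩, ⟨k, hk⟩), ?_⟩
      apply Subtype.ext
      show pw dd m.testBit 7 * pw rr k.testBit 6 = d * pw rr b 7
      rw [pw_congr hmb, pw_congr hkb, ← ha, pw_succ rr b 6, rr6]
      have hz : (if b 6 = true then zI else 1) * pw rr b 6 = pw rr b 6 * (if b 6 = true then zI else 1) := by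
        split_ifs
        · exact (RR_z (RR_pw_mem b (by norm_num))).symm
        · rw [mul_one, one_mul]
      rw [mul_assoc, hz]
  rw [← Nat.card_congr (Equiv.ofBijective f hf), Nat.card_prod, Nat.card_fin, Nat.card_fin]

lemma norm_of {H : Subgroup Γ} {g : Γ} (h : ∀ x ∈ H, g⁻¹ * x * g ∈ H) : g ∈ Subgroup.normalizer (H : Set Γ) := by
  have h1 : H ≤ H.comap (MulAut.conj g⁻¹).toMonoidHom := by
    intro x hx
    show g⁻¹ * x * g⁻¹⁻¹ ∈ H
    rw [inv_inv]
    exact h x hx
  have h2 : H.map (MulAut.conj g⁻¹).toMonoidHom = H := by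
    apply Subgroup.eq_of_le_of_card_ge (Subgroup.map_le_iff_le_comap.2 h1)
    rw [Nat.card_congr (H.equivMapOfInjective (MulAut.conj g⁻¹).toMonoidHom (MulAut.conj g⁻¹).injective).toEquiv]
  have h3 : g⁻¹ ∈ Subgroup.normalizer (H : Set Γ) := by
    rw [Subgroup.mem_normalizer_iff]
    intro x
    constructor
    · intro hh
      exact h1 hh
    · intro hh
      rw [← h2] at hh
      obtain ⟨y, hy, hy2⟩ := hh
      have : y = x := (MulAut.conj g⁻¹).injective hy2
      rwa [← this]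
  have h4 := (Subgroup.normalizer (H : Set Γ)).inv_mem h3
  rwa [inv_inv] at h4

lemma C0_norm {H : Subgroup Γ} (h : ∀ a < 14, ∀ x ∈ H, (gg a)⁻¹ * x * gg a ∈ H) {g : Γ} (hg : g ∈ C0) {x : Γ} (hx : x ∈ H) :
    g * x * g⁻¹ ∈ H := by
  have hle : C0 ≤ Subgroup.normalizer (H : Set Γ) := by
    unfold C0
    rw [Subgroup.closure_le]
    rintro _ ⟨a, ha, rfl⟩
    exact norm_of (h a ha)
  exact (Subgroup.mem_normalizer_iff.1 (hle hg) x).1 hx

lemma qwl_mem {p : List ℕ × List ℕ} (h1 : ∀ c ∈ p.1, c < 7) (h2 : ∀ c ∈ p.2, c < 7) : ev (qwl p) ∈ QQ := by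
  unfold qwl
  rw [ev_append, ev_append, ev_append, cc_inv]
  refine ⟨_, dwl_mem h1, _, mem_RR7.2 ⟨_, dwl_mem h2, rfl⟩, ?_⟩
  rw [← mul_assoc (cc⁻¹)]
  rfl

lemma nq_spec {a i : ℕ} (ha : a < 14) (hi : i < 12) : (gg a)⁻¹ * ev (qg i) * gg a ∈ QQ := by
  have h1 := nq_ok
  simp only [List.all_eq_true, List.mem_range, Bool.and_eq_true, Nat.blt_eq] at h1
  obtain ⟨h2, h3⟩ := h1 a ha i hi
  have h4 : chk (qg i ++ GN a) (GN a ++ qwl (NQT a i)) = true := by
    by_cases h7 : a < 7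
    · have h := nq_all0
      simp only [List.all_eq_true, List.mem_range] at h
      have h5 := h a h7 i hi
      rwa [Nat.zero_add] at h5
    · have h := nq_all1
      simp only [List.all_eq_true, List.mem_range] at h
      have h5 := h (a - 7) (by omega) i hi
      rwa [show 7 + (a - 7) = a by omega] at h5
  have h5 := chk_spec h4
  rw [ev_append, ev_append] at h5
  have h6 : ev (qg i) * gg a = gg a * ev (qwl (NQT a i)) := h5
  rw [mul_assoc, h6, inv_mul_cancel_left]
  exact qwl_mem h2 h3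

lemma QQ_gens {a : ℕ} (ha : a < 14) : ∀ x ∈ QQ, (gg a)⁻¹ * x * gg a ∈ QQ := by
  have hz : (gg a)⁻¹ * zI * gg a ∈ QQ := by
    have h := (mem_CC.1 (gg_CC ha)).2
    rw [mul_assoc, ← h, inv_mul_cancel_left]
    exact DD_QQ zI_DD
  have hd : ∀ i < 7, (gg a)⁻¹ * dd i * (gg a)⁻¹⁻¹ ∈ QQ := by
    intro i hi
    rw [inv_inv]
    by_cases h6 : i < 6
    · have h1 := nq_spec ha (i := i) (by omega)
      unfold qg at h1
      rw [if_pos h6] at h1
      exact h1
    · have : i = 6 := by omega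
      rw [this, dd6]
      exact hz
  have hr : ∀ i < 7, (gg a)⁻¹ * rr i * (gg a)⁻¹⁻¹ ∈ QQ := by
    intro i hi
    rw [inv_inv]
    by_cases h6 : i < 6
    · have h1 := nq_spec ha (i := 6 + i) (by omega)
      unfold qg at h1
      rw [if_neg (by omega), show 6 + i - 6 = i by omega, rr_ev] at h1
      exact h1
    · have : i = 6 := by omega
      rw [this, rr6]
      exact hz
  rintro _ ⟨d, hd', r, hr', rfl⟩
  obtain ⟨b, rfl⟩ := DD_pw hd'
  obtain ⟨e, rfl⟩ := RR_pw hr'
  have h1 : (gg a)⁻¹ * (pw dd b 7 * pw rr e 7) * gg a =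
      ((gg a)⁻¹ * pw dd b 7 * (gg a)⁻¹⁻¹) * ((gg a)⁻¹ * pw rr e 7 * (gg a)⁻¹⁻¹) := by group
  rw [h1, pw_conj, pw_conj]
  exact QQ.mul_mem (pw_mem hd b) (pw_mem hr e)

lemma QQ_norm {g : Γ} (hg : g ∈ C0) {x : Γ} (hx : x ∈ QQ) : g * x * g⁻¹ ∈ QQ := C0_norm (fun _ ha => QQ_gens ha) hg hx

/-- the element of order three -/
def dl : Γ := ev d3w

lemma dl_pow : dl ^ 3 = 1 := chkpow_spec d3_pow

theorem dl_ne : dl ≠ 1 := ev_ne 227 (by decide +kernel)

lemma dl_PP : dl ∈ PP := by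
  rw [mem_PP]
  refine ⟨ev_mem_KK d3_kl, ?_⟩
  have h := chk_spec d3_z
  rw [ev_append, ev_append, ev_single] at h
  exact h.symm

lemma dl_C0 : dl ∈ C0 := PP_le_C0 dl_PP

lemma dl_pow_conj (n : ℕ) {x : Γ} (hx : x ∈ QQ) : dl ^ n * x * (dl ^ n)⁻¹ ∈ QQ := QQ_norm (C0.pow_mem dl_C0 n) hx

/-- the group of order 3 · 2 ^ 13 -/
def NN : Subgroup Γ where
  carrier := {x | ∃ q ∈ QQ, ∃ n : ℕ, x = q * dl ^ n}
  one_mem' := ⟨1, QQ.one_mem, 0, by rw [pow_zero, mul_one]⟩
  mul_mem' := by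
    rintro _ _ ⟨q, hq, n, rfl⟩ ⟨q', hq', m, rfl⟩
    refine ⟨q * (dl ^ n * q' * (dl ^ n)⁻¹), QQ.mul_mem hq (dl_pow_conj n hq'), n + m, ?_⟩
    rw [pow_add]
    group
  inv_mem' := by
    rintro _ ⟨q, hq, n, rfl⟩
    have h1 : (dl ^ n)⁻¹ = dl ^ (2 * n) := by
      rw [inv_eq_iff_mul_eq_one, ← pow_add, show n + 2 * n = 3 * n by ring, pow_mul, dl_pow, one_pow]
    refine ⟨dl ^ (2 * n) * q⁻¹ * (dl ^ (2 * n))⁻¹, dl_pow_conj _ (QQ.inv_mem hq), 2 * n, ?_⟩
    rw [mul_inv_rev, h1]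
    group

lemma QQ_le_NN : QQ ≤ NN := fun q hq => ⟨q, hq, 0, by rw [pow_zero, mul_one]⟩
lemma dl_NN : dl ∈ NN := ⟨1, QQ.one_mem, 1, by rw [pow_one, one_mul]⟩

lemma dl_not_QQ : dl ∉ QQ := by
  intro h
  have h1 := xsQ.pow_four h
  apply dl_ne
  rw [pow_succ, dl_pow, one_mul] at h1
  exact h1

lemma dl2_not_QQ : dl ^ 2 ∉ QQ := by
  intro h
  apply dl_not_QQ
  have h1 := QQ.inv_mem h
  have h2 : (dl ^ 2)⁻¹ = dl := by
    rw [inv_eq_iff_mul_eq_one, ← pow_succ, dl_pow]
  rwa [h2] at h1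

theorem NN_card : Nat.card NN = 3 * 2 ^ 13 := by
  let f : QQ × Fin 3 → NN := fun p => ⟨p.1 * dl ^ (p.2 : ℕ), p.1, p.1.2, p.2, rfl⟩
  have hf : Function.Bijective f := by
    constructor
    · rintro ⟨q, ⟨i, hi⟩⟩ ⟨q', ⟨j, hj⟩⟩ h
      have h1 : (q : Γ) * dl ^ i = q' * dl ^ j := congrArg Subtype.val h
      have h2 : (q' : Γ)⁻¹ * q = dl ^ j * (dl ^ i)⁻¹ := by
        rw [inv_mul_eq_iff_eq_mul, ← mul_assoc, ← h1, mul_inv_cancel_right]
      have h3 : dl ^ j * (dl ^ i)⁻¹ ∈ QQ := by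
        rw [← h2]
        exact QQ.mul_mem (QQ.inv_mem q'.2) q.2
      have hij : i = j := by
        have hi3 : i = 0 ∨ i = 1 ∨ i = 2 := by omega
        have hj3 : j = 0 ∨ j = 1 ∨ j = 2 := by omega
        have e1 : (dl ^ 1)⁻¹ = dl ^ 2 := by rw [inv_eq_iff_mul_eq_one, ← pow_add, dl_pow]
        have e2 : (dl ^ 2)⁻¹ = dl ^ 1 := by rw [inv_eq_iff_mul_eq_one, ← pow_add, dl_pow]
        rcases hi3 with rfl | rfl | rfl <;> rcases hj3 with rfl | rfl | rfl
        · rfl
        · exfalso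
          rw [pow_zero, inv_one, mul_one, pow_one] at h3
          exact dl_not_QQ h3
        · exfalso
          rw [pow_zero, inv_one, mul_one] at h3
          exact dl2_not_QQ h3
        · exfalso
          rw [pow_zero, one_mul, e1] at h3
          exact dl2_not_QQ h3
        · rfl
        · exfalso
          rw [e1, ← pow_add, show 2 + 2 = 3 + 1 by norm_num, pow_succ, dl_pow, one_mul] at h3
          exact dl_not_QQ h3
        · exfalso
          rw [pow_zero, one_mul, e2, pow_one] at h3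
          exact dl_not_QQ h3
        · exfalso
          rw [e2, ← pow_add] at h3
          exact dl2_not_QQ h3
        · rfl
      subst hij
      have h4 : (q : Γ) = q' := mul_right_cancel h1
      rw [Subtype.ext h4]
    · rintro ⟨_, q, hq, n, rfl⟩
      refine ⟨(⟨q, hq⟩, ⟨n % 3, Nat.mod_lt _ (by norm_num)⟩), ?_⟩
      apply Subtype.ext
      show q * dl ^ (n % 3) = q * dl ^ n
      congr 1
      conv_rhs => rw [← Nat.div_add_mod n 3, pow_add, pow_mul, dl_pow, one_pow, one_mul]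
  rw [← Nat.card_congr (Equiv.ofBijective f hf), Nat.card_prod, Nat.card_fin, QQ_card]
  norm_num

lemma NN_gens {a : ℕ} (ha : a < 14) : ∀ x ∈ NN, (gg a)⁻¹ * x * gg a ∈ NN := by
  have hd : (gg a)⁻¹ * dl * gg a ∈ NN := by
    have h := nd_all
    have h2 := nd_ok
    simp only [List.all_eq_true, List.mem_range, Bool.and_eq_true, Nat.blt_eq] at h h2
    have h1 := chk_spec (h a ha)
    obtain ⟨⟨h3, h4⟩, _⟩ := h2 a ha
    rw [ev_append, ev_append, ev_append, ev_replicate] at h1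
    have h5 : dl * gg a = gg a * (dl ^ (NDT a).1 * ev (qwl (NDT a).2)) := h1
    rw [mul_assoc, h5, inv_mul_cancel_left]
    exact NN.mul_mem (NN.pow_mem dl_NN _) (QQ_le_NN (qwl_mem h3 h4))
  rintro _ ⟨q, hq, n, rfl⟩
  have h1 : (gg a)⁻¹ * (q * dl ^ n) * gg a = ((gg a)⁻¹ * q * gg a) * ((gg a)⁻¹ * dl ^ n * gg a) := by group
  have h2 : (gg a)⁻¹ * dl ^ n * gg a = ((gg a)⁻¹ * dl * gg a) ^ n := by
    have h3 := conj_pow (i := n) (a := (gg a)⁻¹) (b := dl)
    rw [inv_inv] at h3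
    exact h3.symm
  rw [h1, h2]
  exact NN.mul_mem (QQ_le_NN (QQ_gens ha q hq)) (NN.pow_mem hd n)

lemma NN_norm {g : Γ} (hg : g ∈ C0) {x : Γ} (hx : x ∈ NN) : g * x * g⁻¹ ∈ NN := C0_norm (fun _ ha => NN_gens ha) hg hx

end Cfsg.Agent.HH.PM
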