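import Cfsg.Agent.HH.J4VH0
import Cfsg.Agent.HH.J4V9

set_option autoImplicit false
set_option maxRecDepth 100000
set_option maxHeartbeats 1000000

/-!
The action of the centraliser of an involution on hexads.
-/

namespace Cfsg.Agent.HH.PM

open Cfsg.Agent.Golay Matrix MulAction
open scoped Pointwise

/-- index -/
def i77 (i : Fin 77) : Fin 112 := ⟨i, by omega⟩

/-- the vectors -/
def wv (i : Fin 77) : Fin 112 → ZMod 2 := toM Wm (i77 i)

/-- the hexads -/
def hx (i : Fin 77) : Finset GolayPt := ofMask (HX i)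

lemma rowN_testBit (X i k : ℕ) (hk : k < 112) : (rowN X i).testBit k = X.testBit (112 * i + k) := by
  show ((X >>> (112 * i)) &&& (2 ^ 112 - 1)).testBit k = _
  rw [Nat.and_two_pow_sub_one_eq_mod, Nat.testBit_mod_two_pow, Nat.testBit_shiftRight]
  simp [hk]

lemma rowN_ext {X Y i j : ℕ} (h : ∀ k < 112, X.testBit (112 * i + k) = Y.testBit (112 * j + k)) : rowN X i = rowN Y j := by
  show ((X >>> (112 * i)) &&& (2 ^ 112 - 1)) = ((Y >>> (112 * j)) &&& (2 ^ 112 - 1))
  rw [Nat.and_two_pow_sub_one_eq_mod, Nat.and_two_pow_sub_one_eq_mod]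
  apply Nat.eq_of_testBit_eq
  intro k
  rw [Nat.testBit_mod_two_pow, Nat.testBit_shiftRight, Nat.testBit_mod_two_pow, Nat.testBit_shiftRight]
  by_cases hk : k < 112
  · rw [h k hk]
  · simp [hk]

lemma wv_inj {i j : Fin 77} (h : wv i = wv j) : i = j := by
  have h1 := wm_inj
  rw [List.all_eq_true] at h1
  have h2 := h1 i (List.mem_range.2 i.2)
  rw [List.all_eq_true] at h2
  have h3 := h2 j (List.mem_range.2 j.2)
  have h4 : rowN Wm i = rowN Wm j := by
    apply rowN_ext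
    intro k hk
    have h5 := congrFun h ⟨k, hk⟩
    exact bz_inj h5
  rw [h4, Nat.beq_refl] at h3
  simp only [Bool.not_true, Bool.false_or] at h3
  exact Fin.ext (Nat.eq_of_beq_eq_true h3)

lemma hx_lt' (i : Fin 77) : HX i < 2 ^ 24 := by
  have h1 := hx_lt
  rw [List.all_eq_true] at h1
  have h2 := h1 i (List.mem_range.2 i.2)
  rw [Nat.blt_eq] at h2
  simpa using h2

lemma hx_inj {i j : Fin 77} (h : hx i = hx j) : i = j := by
  have h1 := hx_injc
  rw [List.all_eq_true] at h1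
  have h2 := h1 i (List.mem_range.2 i.2)
  rw [List.all_eq_true] at h2
  have h3 := h2 j (List.mem_range.2 j.2)
  have h4 : HX i = HX j := by
    have h5 := congrArg maskOf h
    unfold hx at h5
    rwa [maskOf_ofMask (hx_lt' i), maskOf_ofMask (hx_lt' j)] at h5
  rw [h4, Nat.beq_refl] at h3
  simp only [Bool.not_true, Bool.false_or] at h3
  exact Fin.ext (Nat.eq_of_beq_eq_true h3)

/-- the relation -/
def RelF (g : Γ) (m : Cfsg.M24) : Prop := ∀ i : Fin 77, ∃ j : Fin 77, m • hx i = hx j ∧ wv i ᵥ* val g = wv j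

lemma val_one : val (1 : Γ) = 1 := by
  unfold val
  rw [map_one, Units.val_one]

lemma RelF_one : RelF 1 1 := fun i => ⟨i, one_smul _ _, by rw [val_one, vecMul_one]⟩

lemma RelF_mul {g g' : Γ} {m m' : Cfsg.M24} (h : RelF g m) (h' : RelF g' m') : RelF (g * g') (m' * m) := by
  intro i
  obtain ⟨j, h1, h2⟩ := h i
  obtain ⟨k, h3, h4⟩ := h' j
  exact ⟨k, by rw [mul_smul, h1, h3], by rw [val_mul, ← vecMul_vecMul, h2, h4]⟩

lemma RelF_inv {g : Γ} {m : Cfsg.M24} (h : RelF g m) : RelF g⁻¹ m⁻¹ := by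
  choose f h1 h2 using h
  have hinj : Function.Injective f := by
    intro a b hab
    have h3 : m • hx a = m • hx b := by rw [h1, h1, hab]
    exact hx_inj (smul_left_cancel m h3)
  have hsur : Function.Surjective f := Finite.injective_iff_surjective.1 hinj
  intro i
  obtain ⟨j, rfl⟩ := hsur i
  refine ⟨j, by rw [inv_smul_eq_iff, h1], ?_⟩
  rw [← h2, vecMul_vecMul, ← val_mul, mul_inv_cancel, val_one, vecMul_one]

/-- fixing all hexads -/
lemma fix_hx {m : Cfsg.M24} (h : ∀ i, m • hx i = hx i) : m = 1 := by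
  have h1 : FixesMask ((m : Cfsg.M24) : Equiv.Perm GolayPt) 4194303 := by
    apply fixesMask_of_sep (F := 0) (L := HXl)
    · intro p hp
      rw [Nat.zero_testBit] at hp
      exact absurd hp Bool.false_ne_true
    · intro n hn
      obtain ⟨i, hi, rfl⟩ := List.mem_iff_getElem.1 hn
      have h3 := h ⟨i, by rw [hxl_len] at hi; exact hi⟩
      have h4 : HX i = HXl[i] := by
        unfold HX
        rw [List.getD_eq_getElem _ _ hi]
      rw [← h4]
      exact h3
    · exact hx_sep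
  apply Subtype.ext
  apply eq_one_of_fixesMask
  apply fixesMask_of_sep h1 (L := [5275709])
  · intro n hn
    obtain ⟨ha, hb, hc⟩ := octFixList_iff.1 o_oct n hn
    exact smul_octad_mask m.2 h1 ha hb hc
  · exact o_sep

lemma RelF_uniq {g : Γ} {m m' : Cfsg.M24} (h : RelF g m) (h' : RelF g m') : m = m' := by
  have h1 : m'⁻¹ * m = 1 := by
    apply fix_hx
    intro i
    obtain ⟨j, h2, h3⟩ := h i
    obtain ⟨k, h4, h5⟩ := h' i
    have h6 : j = k := wv_inj (h3.symm.trans h5)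
    rw [mul_smul, h2, h6, inv_smul_eq_iff, h4]
  rw [inv_mul_eq_one] at h1
  exact h1.symm

lemma val_gg (a : ℕ) : toM Wm * val (gg a) = toM (evL (GN a) Wm) := by
  unfold gg
  rw [val_ev, toM_evL, toM_evP]

lemma wv_mul (i : Fin 77) (M : Matrix (Fin 112) (Fin 112) (ZMod 2)) : wv i ᵥ* M = (toM Wm * M) (i77 i) := by
  rw [Matrix.mul_apply_eq_vecMul]
  rfl

/-- the generators -/
lemma RelF_gg {a : ℕ} (ha : a < 14) {σ : Cfsg.M24} (hT : IsTable (TT a) ((σ : Cfsg.M24) : Equiv.Perm GolayPt)) : RelF (gg a) σ := by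
  intro i
  have h1 := ckrow_all
  rw [List.all_eq_true] at h1
  have h2 := h1 a (List.mem_range.2 ha)
  unfold ckrow at h2
  rw [fz_eq, List.all_eq_true] at h2
  have h3 := h2 i (List.mem_range.2 i.2)
  rw [Bool.and_eq_true, Bool.and_eq_true] at h3
  obtain ⟨h4, h5, h6⟩ := h3
  rw [Nat.blt_eq] at h6
  refine ⟨⟨PI a i, h6⟩, ?_, ?_⟩
  · have h7 : ((σ : Cfsg.M24) : Equiv.Perm GolayPt) • ofMask (HX i) = ofMask (pmask (TT a) (HX i)) := smul_ofMask hT (hx_lt' i)
    rw [Nat.eq_of_beq_eq_true h5] at h7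
    exact h7
  · rw [wv_mul, val_gg]
    funext k
    have h8 := Nat.eq_of_beq_eq_true h4
    have h9 := congrArg (fun n : ℕ => n.testBit k) h8
    simp only [rowN_testBit _ _ _ k.2] at h9
    show bz ((evL (GN a) Wm).testBit (112 * i + k)) = bz (Wm.testBit (112 * PI a i + k))
    rw [h9]

lemma ex_tt {a : ℕ} (ha : a < 14) : ∃ σ : Cfsg.M24, IsTable (TT a) ((σ : Cfsg.M24) : Equiv.Perm GolayPt) := by
  have h1 := tt_valid
  rw [List.all_eq_true] at h1
  obtain ⟨σ, h2, h3⟩ := exists_mem_M24 (h1 a (List.mem_range.2 ha))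
  exact ⟨⟨σ, h2⟩, h3⟩

lemma ex_rel {g : Γ} (hg : g ∈ C0) : ∃ m, RelF g m := by
  induction hg using Subgroup.closure_induction with
  | mem x hx =>
    obtain ⟨a, ha, rfl⟩ := hx
    obtain ⟨σ, h⟩ := ex_tt ha
    exact ⟨σ, RelF_gg ha h⟩
  | one => exact ⟨1, RelF_one⟩
  | mul x y _ _ h h' =>
    obtain ⟨m, h⟩ := h
    obtain ⟨m', h'⟩ := h'
    exact ⟨_, RelF_mul h h'⟩
  | inv x _ h =>
    obtain ⟨m, h⟩ := h
    exact ⟨_, RelF_inv h⟩

/-- the homomorphism -/
noncomputable def phi : C0 →* Cfsg.M24 where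
  toFun g := (ex_rel g.2).choose⁻¹
  map_one' := by
    rw [inv_eq_one]
    exact RelF_uniq (ex_rel (1 : C0).2).choose_spec RelF_one
  map_mul' x y := by
    have h1 := (ex_rel (x * y).2).choose_spec
    have h2 := RelF_mul (ex_rel x.2).choose_spec (ex_rel y.2).choose_spec
    rw [RelF_uniq h1 h2, _root_.mul_inv_rev]

lemma phi_eq {g : C0} {m : Cfsg.M24} (h : RelF g m) : phi g = m⁻¹ := by
  show (ex_rel g.2).choose⁻¹ = m⁻¹
  rw [RelF_uniq (ex_rel g.2).choose_spec h]

end Cfsg.Agent.HH.PM
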