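import Cfsg.Agent.HH.J4V10
import Cfsg.Agent.Golay.Simple

set_option autoImplicit false
set_option maxRecDepth 100000
set_option maxHeartbeats 1000000

/-!
The structure of the centraliser of an involution.
-/

namespace Cfsg.Agent.HH.PM

open Cfsg.Agent.Golay Matrix MulAction
open scoped Pointwise

/-- the subgroup acting trivially on the vectors -/
def WS : Subgroup Γ where
  carrier := {x | toM Wm * val x = toM Wm}
  one_mem' := by
    show toM Wm * val 1 = toM Wm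
    rw [val_one, mul_one]
  mul_mem' := by
    intro x y hx hy
    show toM Wm * val (x * y) = toM Wm
    rw [val_mul, ← mul_assoc, show toM Wm * val x = toM Wm from hx]
    exact hy
  inv_mem' := by
    intro x hx
    show toM Wm * val x⁻¹ = toM Wm
    conv_lhs => rw [← (show toM Wm * val x = toM Wm from hx)]
    rw [mul_assoc, ← val_mul, mul_inv_cancel, val_one, mul_one]

lemma ev_WS {w : List ℕ} (h : Nat.beq (evL w Wm) Wm = true) : ev w ∈ WS := by
  show toM Wm * val (ev w) = toM Wm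
  rw [val_ev, toM_evP, ← toM_evL, Nat.eq_of_beq_eq_true h]

lemma DD_WS : DD7 ≤ WS := by
  unfold DD7
  rw [Subgroup.closure_le]
  rintro _ ⟨i, hi, rfl⟩
  have h1 := wm_d
  rw [List.all_eq_true] at h1
  have h2 := h1 i (List.mem_range.2 hi)
  rw [Bool.and_eq_true] at h2
  exact ev_WS h2.1

lemma RR_WS : RR7 ≤ WS := by
  intro x hx
  obtain ⟨a, rfl⟩ := RR_pw hx
  apply pw_mem
  intro i hi
  have h1 := wm_d
  rw [List.all_eq_true] at h1
  have h2 := h1 i (List.mem_range.2 hi)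
  rw [Bool.and_eq_true] at h2
  rw [← rr_ev]
  exact ev_WS h2.2

lemma QQ_WS : QQ ≤ WS := by
  rintro _ ⟨d, hd, r, hr, rfl⟩
  exact WS.mul_mem (DD_WS hd) (RR_WS hr)

lemma NN_WS : NN ≤ WS := by
  rintro _ ⟨q, hq, n, rfl⟩
  exact WS.mul_mem (QQ_WS hq) (WS.pow_mem (ev_WS wm_3) n)

lemma RelF_WS {x : Γ} (hx : x ∈ WS) : RelF x 1 := fun i => ⟨i, one_smul _ _, by
  rw [wv_mul, show toM Wm * val x = toM Wm from hx]
  rfl⟩

lemma QQ_le_C0' : QQ ≤ C0 := by
  rintro _ ⟨d, hd, r, hr, rfl⟩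
  refine C0.mul_mem (EE_le_C0 (DD7_le hd)) ?_
  obtain ⟨d', hd', rfl⟩ := mem_RR7.1 hr
  have hc : cc ∈ C0 := gg_mem (a := 2) (by norm_num)
  exact C0.mul_mem (C0.mul_mem (C0.inv_mem hc) (EE_le_C0 (DD7_le hd'))) hc

lemma NN_le_C0' : NN ≤ C0 := by
  rintro _ ⟨q, hq, n, rfl⟩
  exact C0.mul_mem (QQ_le_C0' hq) (C0.pow_mem dl_C0 n)

lemma phi_NN {x : C0} (hx : (x : Γ) ∈ NN) : phi x = 1 := by
  rw [phi_eq (RelF_WS (NN_WS hx)), inv_one]

lemma phi_gg {a : ℕ} (ha : a < 14) {σ : Cfsg.M24} (hT : IsTable (TT a) ((σ : Cfsg.M24) : Equiv.Perm GolayPt)) :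
    phi ⟨gg a, gg_mem ha⟩ = σ⁻¹ := phi_eq (RelF_gg ha hT)

lemma range_tab {a : ℕ} (ha : a < 14) : ∃ σ ∈ phi.range, IsTable (TT a) ((σ : Cfsg.M24) : Equiv.Perm GolayPt) := by
  obtain ⟨σ, hσ⟩ := ex_tt ha
  refine ⟨σ, ⟨(⟨gg a, gg_mem ha⟩ : C0)⁻¹, ?_⟩, hσ⟩
  rw [map_inv, phi_gg ha hσ, inv_inv]

lemma range_ge : 887040 ≤ Nat.card phi.range := by
  apply J4F.cardD
  · have := range_tab (a := 1) (by norm_num)
    rwa [tt1] at this
  · have := range_tab (a := 2) (by norm_num)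
    rwa [tt2] at this

lemma ker_mul : Nat.card phi.ker * Nat.card phi.range = 21799895040 := by
  rw [← Subgroup.index_ker, Subgroup.card_mul_index, C0_card]

lemma NN_sub_card : Nat.card (NN.subgroupOf C0) = 24576 := by
  rw [Nat.card_congr (Subgroup.subgroupOfEquivOfLe NN_le_C0').toEquiv, NN_card]
  norm_num

theorem ker_eq : phi.ker = NN.subgroupOf C0 := by
  have hle : NN.subgroupOf C0 ≤ phi.ker := fun x hx => phi_NN hx
  have h1 := ker_mul
  have h2 := range_ge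
  have h3 : Nat.card phi.ker ≤ 24576 := by
    by_contra h
    push Not at h
    have := Nat.mul_le_mul (Nat.succ_le_of_lt h) h2
    omega
  haveI : Finite C0 := Nat.finite_of_card_ne_zero (by rw [C0_card]; norm_num)
  exact (Subgroup.eq_of_le_of_card_ge hle (by rw [NN_sub_card]; exact h3)).symm

theorem range_card : Nat.card phi.range = 887040 := by
  have h1 := ker_mul
  rw [ker_eq, NN_sub_card] at h1
  omega

/-- two points -/
def p0 : GolayPt := pt 22
def q0 : GolayPt := pt 23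

lemma pq_ne : p0 ≠ q0 := by
  intro h
  have h1 := congrArg idx h
  unfold p0 q0 at h1
  rw [idx_pt (by norm_num), idx_pt (by norm_num)] at h1
  omega

/-- preservation of the pair -/
def PS : Subgroup Cfsg.M24 where
  carrier := {m | (m • p0 = p0 ∧ m • q0 = q0) ∨ (m • p0 = q0 ∧ m • q0 = p0)}
  one_mem' := Or.inl ⟨one_smul _ _, one_smul _ _⟩
  mul_mem' := by
    rintro a b (⟨h1, h2⟩ | ⟨h1, h2⟩) (⟨h3, h4⟩ | ⟨h3, h4⟩)
    · left; exact ⟨by rw [mul_smul, h3, h1], by rw [mul_smul, h4, h2]⟩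
    · right; exact ⟨by rw [mul_smul, h3, h2], by rw [mul_smul, h4, h1]⟩
    · right; exact ⟨by rw [mul_smul, h3, h1], by rw [mul_smul, h4, h2]⟩
    · left; exact ⟨by rw [mul_smul, h3, h2], by rw [mul_smul, h4, h1]⟩
  inv_mem' := by
    rintro a (⟨h1, h2⟩ | ⟨h1, h2⟩)
    · left; exact ⟨by rw [inv_smul_eq_iff, h1], by rw [inv_smul_eq_iff, h2]⟩
    · right; exact ⟨by rw [inv_smul_eq_iff, h2], by rw [inv_smul_eq_iff, h1]⟩

lemma tab_pq {a : ℕ} (ha : a < 14) {σ : Cfsg.M24} (hT : IsTable (TT a) ((σ : Cfsg.M24) : Equiv.Perm GolayPt)) :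
    (a ≠ 1 → σ • p0 = p0 ∧ σ • q0 = q0) ∧ (a = 1 → σ • p0 = q0 ∧ σ • q0 = p0) := by
  have h1 := tt_p
  rw [List.all_eq_true] at h1
  have h2 := h1 a (List.mem_range.2 ha)
  rw [Bool.and_eq_true] at h2
  have h3 := Nat.eq_of_beq_eq_true h2.1
  have h4 := Nat.eq_of_beq_eq_true h2.2
  have h5 := hT p0
  have h6 := hT q0
  have e1 : idx p0 = 22 := idx_pt (by norm_num)
  have e2 : idx q0 = 23 := idx_pt (by norm_num)
  rw [e1, h3] at h5
  rw [e2, h4] at h6
  constructor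
  · intro hne
    have hb : Nat.beq a 1 = false := by
      cases h : Nat.beq a 1
      · rfl
      · exact absurd (Nat.eq_of_beq_eq_true h) hne
    rw [hb, cond_false] at h5 h6
    exact ⟨idx_injective (h5.trans e1.symm), idx_injective (h6.trans e2.symm)⟩
  · rintro rfl
    exact ⟨idx_injective (h5.trans e2.symm), idx_injective (h6.trans e1.symm)⟩

lemma phi_PS (g : C0) : phi g ∈ PS := by
  have h : C0 ≤ (PS.comap phi).map C0.subtype := by
    have h' : Subgroup.closure {x | ∃ a < 14, x = gg a} ≤ (PS.comap phi).map C0.subtype := by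
      rw [Subgroup.closure_le]
      rintro _ ⟨a, ha, rfl⟩
      refine ⟨⟨gg a, gg_mem ha⟩, ?_, rfl⟩
      show phi ⟨gg a, gg_mem ha⟩ ∈ PS
      obtain ⟨σ, hσ⟩ := ex_tt ha
      rw [phi_gg ha hσ]
      apply PS.inv_mem
      have h := tab_pq ha hσ
      by_cases h1 : a = 1
      · exact Or.inr (h.2 h1)
      · exact Or.inl (h.1 h1)
    exact h'
  obtain ⟨y, hy, hyg⟩ := h g.2
  have : y = g := Subtype.ext hyg
  rw [← this]
  exact hy

lemma phi_swap : phi ⟨gg 1, gg_mem (by norm_num)⟩ • p0 = q0 ∧ phi ⟨gg 1, gg_mem (by norm_num)⟩ • q0 = p0 := by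
  obtain ⟨σ, hσ⟩ := ex_tt (a := 1) (by norm_num)
  rw [phi_gg (by norm_num) hσ]
  have h := (tab_pq (by norm_num) hσ).2 rfl
  exact ⟨by rw [inv_smul_eq_iff, h.2], by rw [inv_smul_eq_iff, h.1]⟩

end Cfsg.Agent.HH.PM
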