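import Cfsg.Agent.HH.J4Z

set_option autoImplicit false
set_option maxRecDepth 100000
set_option maxHeartbeats 1000000

/-!
Simplicity of the group.
-/

namespace Cfsg.Agent.HH.PM

open Cfsg.Agent.Golay Cfsg.Agent.CosetEnum Cfsg.Agent.HH.J4G Cfsg.Agent.HH.J4S Cfsg.Agent.HH.J4F

lemma mxl_ex : ∀ j < 7, 2 ≤ j → ∃ p ∈ MXL, p.1 = j := by
  have h : (List.range 7).all (fun j => Nat.blt j 2 || MXL.any (fun p => Nat.beq p.1 j)) = true := by decide +kernel
  intro j hj h2
  rw [List.all_eq_true] at h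
  have h1 := h j (List.mem_range.2 hj)
  rw [Bool.or_eq_true, Nat.blt_eq] at h1
  rcases h1 with h1 | h1
  · omega
  · rw [List.any_eq_true] at h1
    obtain ⟨p, hp, hp2⟩ := h1
    exact ⟨p, hp, Nat.eq_of_beq_eq_true hp2⟩

/-- the subgroup K is maximal -/
theorem KK_max {H : Subgroup Γ} (hK : KK ≤ H) (hH : H ≤ G1) : H = KK ∨ H = G1 := by
  by_cases h : H ≤ KK
  · exact Or.inl (le_antisymm h hK)
  · right
    apply le_antisymm hH
    obtain ⟨g, hg, hgK⟩ := SetLike.not_le_iff_exists.1 h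
    obtain ⟨a, ha, j, hj, k, hk, hgj⟩ := cover (hH hg)
    have hgi : gi j ∈ H := by
      have : gi j = a⁻¹ * g * k⁻¹ := by rw [hgj]; group
      rw [this]
      exact H.mul_mem (H.mul_mem (H.inv_mem (hK ha)) hg) (H.inv_mem (hK hk))
    have ht : U 3 ∈ H := by
      by_cases h0 : j = 0
      · exfalso
        subst h0
        apply hgK
        have e0 : gi 0 = 1 := rfl
        rw [hgj, e0, one_mul]
        exact KK.mul_mem ha hk
      · by_cases h1 : j = 1
        · subst h1
          have e1 : gi 1 = U 3 := ev_single 3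
          rwa [e1] at hgi
        · obtain ⟨p, hp, rfl⟩ := mxl_ex j hj (by omega)
          have h2 := mx_all
          rw [List.all_eq_true] at h2
          have h3 := h2 p hp
          simp only [Bool.and_eq_true] at h3
          obtain ⟨⟨⟨k1, k2⟩, k3⟩, k4⟩ := h3
          have h4 := chk_spec k4
          rw [ev_append, ev_append, ev_cons, ev_append] at h4
          have h4' : gi p.1 * ev p.2.1 = ev p.2.2.1 * (U 3 * (ev p.2.2.2 * gi p.1)) := h4
          have h5 : U 3 = (ev p.2.2.1)⁻¹ * (gi p.1 * ev p.2.1) * (ev p.2.2.2 * gi p.1)⁻¹ := by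
            rw [h4']
            group
          rw [h5]
          exact H.mul_mem (H.mul_mem (H.inv_mem (hK (ev_mem_KK k2))) (H.mul_mem hgi (hK (ev_mem_KK k1))))
            (H.inv_mem (H.mul_mem (hK (ev_mem_KK k3)) hgi))
    unfold G1
    rw [Subgroup.closure_le]
    rintro x (rfl | hx)
    · exact ht
    · exact hK hx

lemma not_normal : ¬ ∀ k ∈ KK, U 3 * k * U 3 ∈ KK := by
  intro h
  have h3i : (U 3)⁻¹ = U 3 := by rw [inv_eq_iff_mul_eq_one, U3_sq]
  have key : ∀ g ∈ G1, g ∈ KK ∨ g * U 3 ∈ KK := by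
    intro g hg
    have s1 : ∀ x, (x ∈ KK ∨ x * U 3 ∈ KK) → (x * U 3 ∈ KK ∨ x * U 3 * U 3 ∈ KK) := by
      intro x hx
      rcases hx with hx | hx
      · right
        rw [mul_assoc, U3_sq, mul_one]
        exact hx
      · left
        exact hx
    have s2 : ∀ x, ∀ y ∈ KK, (x ∈ KK ∨ x * U 3 ∈ KK) → (x * y ∈ KK ∨ x * y * U 3 ∈ KK) := by
      intro x y hy hx
      rcases hx with hx | hx
      · left
        exact KK.mul_mem hx hy
      · right
        have : x * y * U 3 = (x * U 3) * (U 3 * y * U 3) := by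
          have : (x * U 3) * (U 3 * y * U 3) = x * (U 3 * U 3) * y * U 3 := by group
          rw [this, U3_sq, mul_one]
        rw [this]
        exact KK.mul_mem hx (h y hy)
    unfold G1 at hg
    induction hg using Subgroup.closure_induction_right with
    | one => exact Or.inl KK.one_mem
    | mul_right x hx y hy ih =>
      rcases hy with rfl | hy
      · exact s1 _ ih
      · exact s2 _ _ hy ih
    | mul_inv_cancel x hx y hy ih =>
      rcases hy with rfl | hy
      · rw [h3i]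
        exact s1 _ ih
      · exact s2 _ _ (KK.inv_mem hy) ih
  have hsub : (G1 : Set Γ) ⊆ (KK : Set Γ) ∪ (fun x => x * U 3) '' (KK : Set Γ) := by
    intro g hg
    rcases key g hg with h1 | h1
    · exact Or.inl h1
    · refine Or.inr ⟨g * U 3, h1, ?_⟩
      show g * U 3 * U 3 = g
      rw [mul_assoc, U3_sq, mul_one]
  have h1 := Set.ncard_le_ncard hsub (Set.toFinite _)
  have h2 := Set.ncard_union_le (KK : Set Γ) ((fun x => x * U 3) '' (KK : Set Γ))
  have h4 := Set.ncard_image_le (f := fun x => x * U 3) (Set.toFinite (KK : Set Γ))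
  have h5 : (G1 : Set Γ).ncard = Nat.card G1 := rfl
  have h6 : (KK : Set Γ).ncard = Nat.card KK := rfl
  rw [h5, card_G1] at h1
  rw [h6, card_KK'] at h2 h4
  have h7 := le_trans h1 (le_trans h2 (Nat.add_le_add_left h4 _))
  norm_num at h7

lemma U0_ne : U 0 ≠ 1 := by
  have := x_ne
  rwa [ev_single] at this

lemma X_ne : X ≠ 1 := by
  intro h
  apply U0_ne
  rw [← ρX, h, map_one]

/-- x is conjugate to an element of E -/
lemma x_in : ∃ g ∈ G1, ∃ e ∈ EE, U 0 = g * e * g⁻¹ := by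
  have h := chk_spec x_conj
  rw [ev_append, ev_append, ev_single] at h
  have hu : ev xu ∈ G1 := ev_mem_G1 (by decide)
  have he : ev xe ∈ EE := by
    apply ev_mem_EE
    intro c hc
    unfold xe at hc
    simp only [List.mem_cons, List.not_mem_nil, or_false] at hc
    unfold isE
    omega
  refine ⟨(ev xu)⁻¹, G1.inv_mem hu, ev xe, he, ?_⟩
  rw [inv_inv, mul_assoc, h, inv_mul_cancel_left]

theorem main_simple {N : Subgroup Γ} (hN : N ≤ G1) (hn : ∀ n ∈ N, ∀ g ∈ G1, g * n * g⁻¹ ∈ N) : N = ⊥ ∨ N = G1 := by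
  haveI : IsSimpleGroup Cfsg.M24 := simple_M24
  have hzz : zz ∈ G1 := by
    rw [zz_eq]
    exact KK_le_G1 (ρ_mem_KK _)
  have hirr : N ⊓ EE = ⊥ ∨ N ⊓ EE = EE := by
    apply EE_irr inf_le_right
    intro w hw
    exact ⟨hn w hw.1 zz hzz, zz_EE hw.2⟩
  obtain ⟨g, hg, e, he, hx⟩ := x_in
  rcases hirr with hirr | hirr
  · left
    -- N ∩ K = 1
    have hNK : ∀ n ∈ N, n ∈ KK → n = 1 := by
      intro n hnN hnK
      have h1 : n ∈ EE := by
        apply cent_EE hnK
        intro a ha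
        have h2 : n * (a * n⁻¹ * a⁻¹) ∈ N := N.mul_mem hnN (hn _ (N.inv_mem hnN) a (KK_le_G1 (EE_le_KK ha)))
        have h3 : n * (a * n⁻¹ * a⁻¹) ∈ EE := by
          obtain ⟨m, f, hf, rfl⟩ := hnK
          have h4 : ρ m * f * (a * (ρ m * f)⁻¹ * a⁻¹) = (ρ m * (f * a * f⁻¹) * (ρ m)⁻¹) * a⁻¹ := by group
          rw [h4]
          exact EE.mul_mem (ρ_conj m (EE.mul_mem (EE.mul_mem hf ha) (EE.inv_mem hf))) (EE.inv_mem ha)
        have h4 : n * (a * n⁻¹ * a⁻¹) ∈ N ⊓ EE := ⟨h2, h3⟩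
        rw [hirr, Subgroup.mem_bot] at h4
        calc n * a = n * (a * n⁻¹ * a⁻¹) * (a * n) := by group
          _ = a * n := by rw [h4, one_mul]
      have h2 : n ∈ N ⊓ EE := ⟨hnN, h1⟩
      rw [hirr] at h2
      exact Subgroup.mem_bot.1 h2
    by_contra hbot
    -- the product N K
    let H : Subgroup Γ :=
      { carrier := {g | ∃ n ∈ N, ∃ k ∈ KK, g = n * k}
        one_mem' := ⟨1, N.one_mem, 1, KK.one_mem, (mul_one _).symm⟩
        mul_mem' := by
          rintro _ _ ⟨n, h1, k, h2, rfl⟩ ⟨n', h3, k', h4, rfl⟩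
          refine ⟨n * (k * n' * k⁻¹), N.mul_mem h1 (hn _ h3 k (KK_le_G1 h2)), k * k', KK.mul_mem h2 h4, ?_⟩
          group
        inv_mem' := by
          rintro _ ⟨n, h1, k, h2, rfl⟩
          refine ⟨k⁻¹ * n⁻¹ * k⁻¹⁻¹, hn _ (N.inv_mem h1) _ (G1.inv_mem (KK_le_G1 h2)), k⁻¹, KK.inv_mem h2, ?_⟩
          group }
    have hKH : KK ≤ H := fun k hk => ⟨1, N.one_mem, k, hk, (one_mul _).symm⟩
    have hNH : N ≤ H := fun n h => ⟨n, h, 1, KK.one_mem, (mul_one _).symm⟩
    have hHG : H ≤ G1 := by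
      rintro _ ⟨n, h1, k, h2, rfl⟩
      exact G1.mul_mem (hN h1) (KK_le_G1 h2)
    rcases KK_max hKH hHG with h | h
    · apply hbot
      rw [Subgroup.eq_bot_iff_forall]
      intro n h1
      apply hNK n h1
      rw [← h]
      exact hNH h1
    · rw [← h] at hg
      obtain ⟨n, h1, k, h2, rfl⟩ := hg
      have he' : k * e * k⁻¹ ∈ EE := by
        obtain ⟨m, f, hf, rfl⟩ := h2
        have h4 : ρ m * f * e * (ρ m * f)⁻¹ = ρ m * (f * e * f⁻¹) * (ρ m)⁻¹ := by group
        rw [h4]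
        exact ρ_conj m (EE.mul_mem (EE.mul_mem hf he) (EE.inv_mem hf))
      have h5 : n * (k * e * k⁻¹ * n⁻¹ * (k * e * k⁻¹)⁻¹) ∈ N :=
        N.mul_mem h1 (hn _ (N.inv_mem h1) _ (KK_le_G1 (EE_le_KK he')))
      have h6 : n * (k * e * k⁻¹ * n⁻¹ * (k * e * k⁻¹)⁻¹) = U 0 * (k * e * k⁻¹)⁻¹ := by
        rw [hx]
        group
      have h7 : U 0 ∈ KK := U_mem_KK (by decide) (by decide)
      have h8 := hNK _ h5 (by
        rw [h6]
        exact KK.mul_mem h7 (KK.inv_mem (EE_le_KK he')))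
      rw [h6, mul_inv_eq_one] at h8
      have h9 : ρ X ∈ EE := by
        rw [ρX, h8]
        exact he'
      exact X_ne (ρ_EE h9)
  · have hEN : EE ≤ N := by
      rw [← hirr]
      exact inf_le_left
    have hxN : U 0 ∈ N := by
      rw [hx]
      exact hn e (hEN he) g hg
    have hρn : (N.comap ρ).Normal := ⟨fun m hm n => by
      rw [Subgroup.mem_comap] at hm ⊢
      rw [map_mul, map_mul, map_inv]
      exact hn _ hm _ (KK_le_G1 (ρ_mem_KK n))⟩
    have hρ : N.comap ρ = ⊤ := by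
      rcases hρn.eq_bot_or_eq_top with h | h
      · exfalso
        have h1 : X ∈ N.comap ρ := by
          rw [Subgroup.mem_comap, ρX]
          exact hxN
        rw [h] at h1
        exact X_ne (Subgroup.mem_bot.1 h1)
      · exact h
    have hKN : KK ≤ N := by
      rintro _ ⟨m, f, hf, rfl⟩
      have h1 : m ∈ N.comap ρ := by rw [hρ]; exact Subgroup.mem_top _
      exact N.mul_mem h1 (hEN hf)
    rcases KK_max hKN hN with h | h
    · exfalso
      apply not_normal
      intro k hk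
      have h3i : (U 3)⁻¹ = U 3 := by rw [inv_eq_iff_mul_eq_one, U3_sq]
      have h1 := hn k (hKN hk) (U 3) t_mem_G1
      rwa [h3i, h] at h1
    · exact Or.inr h

theorem simple_G1 : IsSimpleGroup G1 := by
  haveI : Nontrivial G1 := by
    rw [← Finite.one_lt_card_iff_nontrivial, card_G1]
    norm_num
  refine { eq_bot_or_eq_top_of_normal := ?_ }
  intro N hN
  have h := main_simple (N := N.map G1.subtype) (by
    rintro _ ⟨n, _, rfl⟩
    exact n.2) (by
    rintro _ ⟨n, h1, rfl⟩ g hg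
    exact ⟨⟨g, hg⟩ * n * ⟨g, hg⟩⁻¹, hN.conj_mem n h1 ⟨g, hg⟩, rfl⟩)
  rcases h with h | h
  · left
    exact (Subgroup.map_eq_bot_iff_of_injective N G1.subtype_injective).1 h
  · right
    rw [Subgroup.eq_top_iff']
    intro x
    have h1 : (x : Γ) ∈ N.map G1.subtype := by
      rw [h]
      exact x.2
    obtain ⟨y, hy, hxy⟩ := h1
    have : y = x := Subtype.ext hxy
    rwa [← this]

theorem exists_J4 : ∃ H : Subgroup (Matrix.GeneralLinearGroup (Fin 112) (ZMod 2)),
    IsSimpleGroup H ∧ Nat.card H = 86775571046077562880 := by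
  refine ⟨G1.map toGL.toMonoidHom, ?_, ?_⟩
  · haveI := simple_G1
    let f := G1.equivMapOfInjective toGL.toMonoidHom toGL.injective
    haveI : Nontrivial (G1.map toGL.toMonoidHom) := f.symm.toEquiv.nontrivial
    exact IsSimpleGroup.isSimpleGroup_of_surjective f.toMonoidHom f.surjective
  · rw [← Nat.card_congr (G1.equivMapOfInjective toGL.toMonoidHom toGL.injective).toEquiv, card_G1]

end Cfsg.Agent.HH.PM
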