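import Cfsg.Agent.HH.J4V11
import Cfsg.Agent.HH.J4W

set_option autoImplicit false
set_option maxRecDepth 100000
set_option maxHeartbeats 1000000

/-!
The structure of the centraliser of an involution: conclusion.
-/

namespace Cfsg.Agent.HH.PM

open Cfsg.Agent.Golay Matrix MulAction
open scoped Pointwise

lemma ex_noncomm : ∃ a ∈ QQ, ∃ b ∈ QQ, a * b ≠ b * a := by
  by_contra h
  push Not at h
  have h1 := DD_nondeg (a := fun _ => true) (fun r hr => h _ (DD_QQ (DD_pw_mem _)) _ (RR_QQ hr)) 0 (by norm_num)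
  exact Bool.noConfusion h1

section

variable {C' : Type} [Group C'] [Finite C'] (ι : C' →* Γ) (hι : Function.Injective ι) (hr : ι.range = C0)

include hι hr

lemma mem_C0' (x : C') : ι x ∈ C0 := by
  rw [← hr]
  exact ⟨x, rfl⟩

lemma comap_card {H : Subgroup Γ} (hH : H ≤ C0) : Nat.card (H.comap ι) = Nat.card H := by
  have h1 : (H.comap ι).map ι = H := Subgroup.map_comap_eq_self (by rw [hr]; exact hH)
  rw [Nat.card_congr ((H.comap ι).equivMapOfInjective ι hι).toEquiv, h1]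

lemma comap_normal {H : Subgroup Γ} (h : ∀ {g : Γ}, g ∈ C0 → ∀ {x : Γ}, x ∈ H → g * x * g⁻¹ ∈ H) : (H.comap ι).Normal := by
  refine ⟨fun n hn g => ?_⟩
  show ι (g * n * g⁻¹) ∈ H
  rw [map_mul, map_mul, map_inv]
  exact h (mem_C0' ι hι hr g) hn

lemma comap_extra : Cfsg.IsExtraspecial 2 (QQ.comap ι) := by
  have hz : zI ∈ ι.range := by
    rw [hr]
    exact QQ_le_C0' xsQ.mem
  obtain ⟨z', hz'⟩ := hz
  have hx : H90.XS (QQ.comap ι) z' :=
    { mem := by
        show ι z' ∈ QQ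
        rw [hz']
        exact xsQ.mem
      ne_one := by
        rintro rfl
        rw [map_one] at hz'
        exact zI_ne hz'.symm
      sq := hι (by rw [map_mul, hz', zI_sq, map_one])
      central := fun q hq => hι (by
        rw [map_mul, map_mul, hz']
        exact xsQ.central _ hq)
      comm := by
        intro x hx y hy
        rcases xsQ.comm _ hx _ hy with h | h
        · left
          apply hι
          rw [map_mul, map_mul, h]
        · right
          apply hι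
          rw [map_mul, map_mul, map_mul, hz', h]
      nondeg := by
        intro x hx h
        rcases xsQ.nondeg (ι x) hx (by
          intro y hy
          have hy' : y ∈ ι.range := by
            rw [hr]
            exact QQ_le_C0' hy
          obtain ⟨y', rfl⟩ := hy'
          rw [← map_mul, ← map_mul, h y' hy]) with h1 | h1
        · left
          exact hι (by rw [h1, map_one])
        · right
          exact hι (by rw [h1, hz']) }
  obtain ⟨a, ha, b, hb, hab⟩ := ex_noncomm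
  have ha' : a ∈ ι.range := by
    rw [hr]
    exact QQ_le_C0' ha
  have hb' : b ∈ ι.range := by
    rw [hr]
    exact QQ_le_C0' hb
  obtain ⟨a', rfl⟩ := ha'
  obtain ⟨b', rfl⟩ := hb'
  exact hx.isExtraspecial (a := a') (b := b') ha hb (fun h => hab (by rw [← map_mul, ← map_mul, h]))

/-- restriction of the codomain -/
def jj : C' →* C0 := ι.codRestrict C0 (mem_C0' ι hι hr)

lemma jj_val (x : C') : ((jj ι hι hr x : C0) : Γ) = ι x := rfl

lemma jj_surj : Function.Surjective (jj ι hι hr) := by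
  intro y
  have h : (y : Γ) ∈ ι.range := by
    rw [hr]
    exact y.2
  obtain ⟨x, hx⟩ := h
  exact ⟨x, Subtype.ext hx⟩

/-- the action -/
noncomputable def ff : C' →* Cfsg.M24 := phi.comp (jj ι hι hr)

lemma ff_ker : (ff ι hι hr).ker = NN.comap ι := by
  ext x
  rw [MonoidHom.mem_ker, Subgroup.mem_comap]
  have h1 : (jj ι hι hr x ∈ phi.ker) ↔ (jj ι hι hr x ∈ NN.subgroupOf C0) := by rw [ker_eq]
  rw [MonoidHom.mem_ker, Subgroup.mem_subgroupOf] at h1
  exact h1

lemma ff_range_card : Nat.card (ff ι hι hr).range = 887040 := by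
  have h : (ff ι hι hr).range = phi.range := by
    unfold ff
    rw [MonoidHom.range_comp, MonoidHom.range_eq_top.2 (jj_surj ι hι hr), ← MonoidHom.range_eq_map]
  rw [h, range_card]

lemma card_C' : Nat.card C' = 21799895040 := by
  rw [← C0_card, ← hr]
  exact Nat.card_congr (ι.ofInjective hι).toEquiv

/-- the subgroup of index two -/
noncomputable def MM : Subgroup C' := (stabilizer Cfsg.M24 p0).comap (ff ι hι hr)

lemma mem_MM {x : C'} : x ∈ MM ι hι hr ↔ ff ι hι hr x • p0 = p0 := Iff.rfl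

lemma ff_PS (x : C') : ff ι hι hr x ∈ PS := phi_PS _

lemma MM_index : (MM ι hι hr).index = 2 := by
  rw [Subgroup.index_eq_two_iff]
  obtain ⟨a, ha⟩ := jj_surj ι hι hr ⟨gg 1, gg_mem (by norm_num)⟩
  have h1 : ff ι hι hr a • p0 = q0 ∧ ff ι hι hr a • q0 = p0 := by
    show phi (jj ι hι hr a) • p0 = q0 ∧ phi (jj ι hι hr a) • q0 = p0
    rw [ha]
    exact phi_swap
  refine ⟨a, fun b => ?_⟩
  rw [mem_MM, mem_MM, map_mul, mul_smul, h1.1]
  rcases ff_PS ι hι hr b with ⟨h2, h3⟩ | ⟨h2, h3⟩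
  · right
    exact ⟨h2, fun h => pq_ne (h.symm.trans h3)⟩
  · left
    exact ⟨h3, fun h => pq_ne (h.symm.trans h2)⟩

/-- restriction -/
noncomputable def gf : MM ι hι hr →* Cfsg.M24 := (ff ι hι hr).comp (MM ι hι hr).subtype

lemma gf_ker : (gf ι hι hr).ker = (NN.comap ι).subgroupOf (MM ι hι hr) := by
  ext x
  rw [MonoidHom.mem_ker, Subgroup.mem_subgroupOf, ← ff_ker ι hι hr, MonoidHom.mem_ker]
  rfl

lemma NN_le_MM : NN.comap ι ≤ MM ι hι hr := by
  intro x hx
  rw [← ff_ker ι hι hr, MonoidHom.mem_ker] at hx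
  rw [mem_MM, hx, one_smul]

lemma gf_range : (gf ι hι hr).range = (stabilizer Cfsg.M24 p0 ⊓ stabilizer Cfsg.M24 q0 : Subgroup Cfsg.M24) := by
  have hle : (gf ι hι hr).range ≤ (stabilizer Cfsg.M24 p0 ⊓ stabilizer Cfsg.M24 q0 : Subgroup Cfsg.M24) := by
    rintro _ ⟨x, rfl⟩
    have hx : ff ι hι hr (x : C') • p0 = p0 := x.2
    rw [Subgroup.mem_inf, mem_stabilizer_iff, mem_stabilizer_iff]
    refine ⟨hx, ?_⟩
    show ff ι hι hr (x : C') • q0 = q0
    rcases ff_PS ι hι hr (x : C') with ⟨h2, h3⟩ | ⟨h2, h3⟩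
    · exact h3
    · exact absurd (hx.symm.trans h2) pq_ne
  apply Subgroup.eq_of_le_of_card_ge hle
  rw [card_stab2_M24 p0 q0 pq_ne]
  have h1 : Nat.card (gf ι hι hr).ker * Nat.card (gf ι hι hr).range = Nat.card (MM ι hι hr) := by
    rw [← Subgroup.index_ker, Subgroup.card_mul_index]
  have h2 : Nat.card (gf ι hι hr).ker = 24576 := by
    rw [gf_ker, Nat.card_congr (Subgroup.subgroupOfEquivOfLe (NN_le_MM ι hι hr)).toEquiv,
      comap_card ι hι hr NN_le_C0', NN_card]
    norm_num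
  have h3 : Nat.card (MM ι hι hr) * 2 = 21799895040 := by
    rw [← card_C' ι hι hr, ← MM_index ι hι hr, Subgroup.card_mul_index]
  rw [h2] at h1
  omega

theorem final : ∃ (Q N M : Subgroup C'), Q.Normal ∧ N.Normal ∧ Q ≤ N ∧ N ≤ M ∧ Nat.card Q = 2 ^ 13 ∧ Cfsg.IsExtraspecial 2 Q ∧
    Nat.card N = 3 * 2 ^ 13 ∧ M.index = 2 ∧ ∃ (_ : (N.subgroupOf M).Normal), Cfsg.IsM22 (M ⧸ N.subgroupOf M) := by
  have hN : (NN.comap ι).Normal := comap_normal ι hι hr NN_norm
  have hn : ((NN.comap ι).subgroupOf (MM ι hι hr)).Normal := hN.subgroupOf _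
  refine ⟨QQ.comap ι, NN.comap ι, MM ι hι hr, comap_normal ι hι hr QQ_norm, hN,
    Subgroup.comap_mono QQ_le_NN, NN_le_MM ι hι hr, ?_, comap_extra ι hι hr, ?_, MM_index ι hι hr, hn, ?_⟩
  · rw [comap_card ι hι hr QQ_le_C0', QQ_card]
    norm_num
  · rw [comap_card ι hι hr NN_le_C0', NN_card]
  · have e1 : (MM ι hι hr) ⧸ (NN.comap ι).subgroupOf (MM ι hι hr) ≃* (MM ι hι hr) ⧸ (gf ι hι hr).ker :=
      QuotientGroup.quotientMulEquivOfEq (gf_ker ι hι hr).symm
    have e2 : (MM ι hι hr) ⧸ (gf ι hι hr).ker ≃* (gf ι hι hr).range := QuotientGroup.quotientKerEquivRange _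
    have e3 : (gf ι hι hr).range ≃* (stabilizer Cfsg.M24 p0 ⊓ stabilizer Cfsg.M24 q0 : Subgroup Cfsg.M24) :=
      MulEquiv.subgroupCongr (gf_range ι hι hr)
    have e := (e1.trans e2).trans e3
    constructor
    · rw [e.isSimpleGroup_congr]
      exact simple_stab2_M24 p0 q0 pq_ne
    · rw [Nat.card_congr e.toEquiv]
      exact card_stab2_M24 p0 q0 pq_ne

end

theorem exists_centralizer : ∃ (G : Type) (_ : Group G) (_ : Finite G), Cfsg.IsJ4 G ∧ ∃ z : G, orderOf z = 2 ∧
    ∃ (Q N M : Subgroup (Subgroup.centralizer ({z} : Set G))), Q.Normal ∧ N.Normal ∧ Q ≤ N ∧ N ≤ M ∧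
      Nat.card Q = 2 ^ 13 ∧ Cfsg.IsExtraspecial 2 Q ∧ Nat.card N = 3 * 2 ^ 13 ∧ M.index = 2 ∧
      ∃ (_ : (N.subgroupOf M).Normal), Cfsg.IsM22 (M ⧸ N.subgroupOf M) := by
  have hz1 : zI ∈ G1 := (mem_CC.1 (CC_eq ▸ QQ_le_C0' xsQ.mem)).1
  haveI : Finite G1 := Nat.finite_of_card_ne_zero (by rw [card_G1]; norm_num)
  refine ⟨G1, inferInstance, inferInstance, ⟨simple_G1, card_G1⟩, ⟨zI, hz1⟩, ?_, ?_⟩
  · rw [orderOf_eq_prime_iff]
    constructor
    · apply Subtype.ext
      show zI ^ 2 = 1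
      rw [pow_two, zI_sq]
    · intro h
      exact zI_ne (congrArg Subtype.val h)
  · apply final (G1.subtype.comp (Subgroup.centralizer ({(⟨zI, hz1⟩ : G1)} : Set G1)).subtype)
    · intro a b h
      exact Subtype.ext (Subtype.ext h)
    · ext x
      rw [CC_eq, mem_CC]
      constructor
      · rintro ⟨⟨⟨c, hc⟩, hc'⟩, rfl⟩
        refine ⟨hc, ?_⟩
        rw [Subgroup.mem_centralizer_singleton_iff] at hc'
        exact congrArg Subtype.val hc'
      · rintro ⟨h1, h2⟩
        refine ⟨⟨⟨x, h1⟩, ?_⟩, rfl⟩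
        rw [Subgroup.mem_centralizer_singleton_iff]
        exact Subtype.ext h2

end Cfsg.Agent.HH.PM
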