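import Cfsg.Agent.HH.J4F4

set_option autoImplicit false
set_option maxRecDepth 100000
set_option maxHeartbeats 4000000

/-! Chains of subgroups of the Mathieu group (generated). -/

namespace Cfsg.Agent.HH.J4F

open Cfsg Cfsg.Agent.Golay Cfsg.Agent.CosetEnum Cfsg.Agent.HH.J4G Cfsg.Agent.HH.J4S

def progS : List ℕ := [1024, 2049, 2, 3075, 5, 5123, 2, 2, 5, 11263, 4, 12, 12288, 1023, 5, 15, 11277, 17426, 9216, 2, 5141, 1023, 2, 8200, 1023, 2, 26, 28700, 17437, 14366, 31774, 1023, 13, 22550, 23552, 1023, 3, 38, 21539, 19456, 42025, 30720, 1023, 3, 33825, 34816, 31744, 1023, 4, 50, 52273, 41010, 37939, 4148, 56358, 57372, 46108, 8221, 60445, 61460, 62464, 62522, 45079, 23552, 2, 5, 5, 69699, 58368, 59392, 1023, 4, 58429, 36864, 1023, 3, 28671, 1, 54271, 1, 51, 82995, 33823, 73759, 74825, 71754, 61515, 38988, 78921, 75850, 54347, 66636, 44109, 13390, 80905, 15370, 82954, 61450, 50187, 51209, 52228, 65588, 77877, 55350,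 24631, 80899, 58372, 71683, 72707, 84996, 62469, 75781, 64518, 89093, 66566, 79961, 80932]
def levS : List (ℕ × ℕ × List ℕ) := [(5, 16777215, [119, 117, 118, 116, 101, 90, 89, 88, 87, 79, 67, 66, 65, 64, 63, 62, 61, 60, 59, 58, 36, 35, 34, 33]), (15, 16375775, [119, 106, 102, 32, 31, 30, 29, 28, 27, 26, 25, 24, 23, 22, 21, 20, 19, 18, 17, 16]), (9, 16272351, [119, 68, 15, 14, 13, 12, 11, 10, 9, 8, 7, 6, 5, 4, 3, 2]), (22, 4210944, [119, 91, 1]), (16, 70656, [119, 37, 0]), (13, 270336, [119, 80])]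
theorem chkS : (chkC (runSlp progS [0xa25d7615a43d633322ca7ae5000443, 0xb140223ae60ae8990d483b2b3835f1]) 0 levS && (Nat.beq 0xa25d7615a43d633322ca7ae5000443 (wT wa4) && (Nat.beq 0xb140223ae60ae8990d483b2b3835f1 (wT wb4) && Nat.beq (prodC levS) 138240))) = true := by decide +kernel

theorem cardS {H : Subgroup M24} (h1 : (wa4.map gL).prod ∈ H) (h2 : (wb4.map gL).prod ∈ H) : 138240 ≤ Nat.card H := by
  have h := chkS
  simp only [Bool.and_eq_true] at h
  obtain ⟨h3, h4, h5, h6⟩ := h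
  rw [← Nat.eq_of_beq_eq_true h6]
  exact card_bound h1 h2 (Nat.eq_of_beq_eq_true h4) (Nat.eq_of_beq_eq_true h5) h3

theorem card_bound' {H : Subgroup M24} {t1 t2 : ℕ} (h1 : ∃ σ ∈ H, IsTable t1 ((σ : M24) : Equiv.Perm GolayPt))
    (h2 : ∃ σ ∈ H, IsTable t2 ((σ : M24) : Equiv.Perm GolayPt)) {prog : List ℕ} {l : List (ℕ × ℕ × List ℕ)}
    (h : chkC (runSlp prog [t1, t2]) 0 l = true) : prodC l ≤ Nat.card H := by
  have h3 := chain_bound (H := H.map M24.subtype) (L := runSlp prog [t1, t2]) (runSlp_inSub prog _ (by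
    intro n hn
    simp only [List.mem_cons, List.not_mem_nil, or_false] at hn
    rcases hn with rfl | rfl
    · obtain ⟨σ, hσ, ht⟩ := h1
      exact ⟨_, ⟨_, hσ, rfl⟩, ht⟩
    · obtain ⟨σ, hσ, ht⟩ := h2
      exact ⟨_, ⟨_, hσ, rfl⟩, ht⟩)) l 0 h
  rw [fixSub_zero, inf_top_eq] at h3
  rwa [Nat.card_congr (H.equivMapOfInjective M24.subtype M24.subtype_injective).toEquiv]

def tD1 : ℕ := 0xb5d878212eacda0228d128a8b7c861
def tD2 : ℕ := 0xbd9c403d61694739198982ab48a0e2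
def progD : List ℕ := [0, 2049, 3074, 3075, 4096, 2, 7174, 1023, 2, 9, 6155, 12299, 8, 10253, 8194, 1, 3, 6, 18451, 10240, 1023, 3, 13334, 1023, 7, 16384, 1024, 1023, 6, 21503, 1, 31, 32801, 34850, 25635, 36863, 21, 38, 38950, 40960, 1023, 25, 43, 12332, 45099, 47148, 9261, 48173, 35888, 31744, 52223, 1, 21519, 45056, 1023, 3, 26623, 1, 56, 60464, 62524, 11264, 2, 64576, 1023, 2, 35864, 1023, 2, 67, 46140, 34855, 64551, 36900, 50213, 45094, 18471, 47139, 70709, 43062, 50231, 23608, 21586, 20480, 54356, 1023, 2, 57389, 1023, 2, 32827, 1023, 2, 35875, 1023, 2, 71, 73751, 68632, 63511, 70680, 94231, 66584, 46086, 74825, 48202, 37963, 11340, 78851, 52228, 14341, 81925, 44038, 56326, 18439, 19463, 59399, 21512, 50184, 90120, 63496, 92161, 65600, 55361, 28738, 68664, 58425, 31802, 60421, 72709, 62470, 35847, 64519, 37895, 77830, 39975]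
def levD : List (ℕ × ℕ × List ℕ) := [(0, 4194303, [138, 136, 137, 135, 134, 126, 104, 103, 102, 101, 98, 93, 92, 91, 90, 89, 88, 77, 66, 65, 64, 63]), (3, 4194302, [138, 99, 94, 111, 62, 61, 60, 59, 58, 57, 56, 55, 54, 39, 38, 37, 36, 35, 34, 33, 32]), (23, 12582912, [138, 127]), (15, 4194294, [138, 105, 31, 30, 29, 28, 27, 26, 25, 24, 23, 22, 21, 20, 19, 18, 17, 16, 15, 14]), (2, 2060276, [138, 78, 67, 13, 12, 11, 10, 9, 8, 7, 6, 5, 4, 3, 2, 1]), (18, 787456, [138, 40, 0])]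
theorem chkD : (chkC (runSlp progD [tD1, tD2]) 0 levD && Nat.beq (prodC levD) 887040) = true := by decide +kernel

theorem cardD {H : Subgroup M24} (h1 : ∃ σ ∈ H, IsTable tD1 ((σ : M24) : Equiv.Perm GolayPt))
    (h2 : ∃ σ ∈ H, IsTable tD2 ((σ : M24) : Equiv.Perm GolayPt)) : 887040 ≤ Nat.card H := by
  have h := chkD
  simp only [Bool.and_eq_true] at h
  obtain ⟨h3, h6⟩ := h
  rw [← Nat.eq_of_beq_eq_true h6]
  exact card_bound' h1 h2 h3

end Cfsg.Agent.HH.J4F
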