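import Cfsg.Agent.HH.J4T

set_option autoImplicit false
set_option maxRecDepth 100000
set_option maxHeartbeats 4000000

/-! Conjugates of the elements of E (generated). -/

namespace Cfsg.Agent.HH.PM

open Cfsg.Agent.Golay

/-- numbers that differ modulo 2 ^ 448 -/
def neP (a b : ℕ) : Bool := !(Nat.beq (Nat.mod a (Nat.pow 2 448)) (Nat.mod b (Nat.pow 2 448)))

/-- test that a matrix does not commute with some element of E (the last four rows) -/
def tstE (acc : ℕ) : Bool :=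
  fz (Nat.shiftRight acc 12096) fun a =>
    ([4, 5, 6, 7] : List ℕ).any (fun c => neP (mulP a (nthP TB c)) (mulP (Nat.shiftRight (nthP TB c) 12096) acc))

/-- search -/
def bfs (exc : List ℕ) (L : List ℕ) : ℕ → ℕ → ℕ → Bool :=
  List.rec (motive := fun _ => ℕ → ℕ → ℕ → Bool) (fun acc mask _ => exc.any (Nat.beq mask) || tstE acc)
    (fun A _ ih acc mask w => ih acc mask (Nat.mul 2 w) && fz (mulP acc A) (fun acc' => ih acc' (Nat.add mask w) (Nat.mul 2 w))) L

/-- representatives of the double cosets and inverses -/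
def GJ (i : ℕ) : List ℕ := ([[], [3], [3, 1, 3], [3, 1, 0, 1, 3], [3, 1, 0, 2, 0, 1, 8, 3], [3, 1, 3, 1, 3], [3, 1, 3, 0, 1, 3]] : List (List ℕ)).getD i []
def GJi (i : ℕ) : List ℕ := ([[], [3], [3, 2, 3], [3, 2, 0, 2, 3], [3, 8, 2, 0, 1, 0, 2, 3], [3, 2, 3, 2, 3], [3, 2, 0, 3, 2, 3]] : List (List ℕ)).getD i []

def e3w (p : ℕ) : List ℕ := ([[], [4], [5], [4, 5], [6], [4, 6], [5, 6], [4, 5, 6]] : List (List ℕ)).getD p []

def cjv (j c : ℕ) : ℕ := evP (GJ j ++ (c :: GJi j))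

def bpart (exc : List ℕ) (j p : ℕ) : Bool :=
  fz (evP (GJ j ++ (e3w p ++ GJi j))) fun acc =>
    bfs exc [cjv j 7, cjv j 8, cjv j 9, cjv j 10, cjv j 11, cjv j 12, cjv j 13, cjv j 14] acc p 8

theorem gj_inv : (List.range 7).all (fun j => chk (GJ j ++ GJi j) []) = true := by decide +kernel

end Cfsg.Agent.HH.PM
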