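import Cfsg.Agent.HH.J4V0
import Cfsg.Agent.HH.J4VB

set_option autoImplicit false
set_option maxRecDepth 100000
set_option maxHeartbeats 1000000

/-!
Soundness of the search for conjugates of elements of E.
-/

namespace Cfsg.Agent.HH.PM

open Cfsg.Agent.Golay Matrix

/-- the matrix of an element -/
def val (x : Γ) : Matrix (Fin 112) (Fin 112) (ZMod 2) := ((toGL x : GL (Fin 112) (ZMod 2)) : Matrix (Fin 112) (Fin 112) (ZMod 2))

lemma val_mul (x y : Γ) : val (x * y) = val x * val y := by
  unfold val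
  rw [map_mul, Units.val_mul]

lemma val_ev (w : List ℕ) : val (ev w) = toM (evP w) := by
  unfold val
  rw [toGL_ev, evG_val]

lemma val_U (c : ℕ) : val (U c) = toM (nthP TB c) := by
  unfold val
  rw [toGL_U, UG_val]

lemma val_inj {x y : Γ} (h : val x = val y) : x = y := by
  apply toGL.injective
  exact Units.ext h

lemma bz_inj {a b : Bool} (h : bz a = bz b) : a = b := by
  revert h
  cases a <;> cases b <;> decide

lemma mod_eq_of_rows {a b : ℕ} (h : ∀ i < 4, ∀ j < 112, a.testBit (112 * i + j) = b.testBit (112 * i + j)) :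
    a % 2 ^ 448 = b % 2 ^ 448 := by
  apply Nat.eq_of_testBit_eq
  intro k
  rw [Nat.testBit_mod_two_pow, Nat.testBit_mod_two_pow]
  by_cases hk : k < 448
  · have h1 := h (k / 112) (by omega) (k % 112) (by omega)
    rw [Nat.div_add_mod] at h1
    rw [h1]
  · simp [hk]

lemma toM_shift (a : ℕ) {i : ℕ} (hi : i < 4) (k : Fin 112) :
    toM (a >>> 12096) ⟨i, by omega⟩ k = toM a ⟨108 + i, by omega⟩ k := by
  show bz ((a >>> 12096).testBit (112 * i + k)) = bz (a.testBit (112 * (108 + i) + k))
  rw [Nat.testBit_shiftRight]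
  congr 2
  ring

lemma tstE_spec {acc : ℕ} {x : Γ} (hx : val x = toM acc) (h : tstE acc = true) : x ∉ EE := by
  intro hE
  unfold tstE at h
  rw [fz_eq, List.any_eq_true] at h
  obtain ⟨c, hc, h1⟩ := h
  have hcE : isE c := by
    simp only [List.mem_cons, List.not_mem_nil, or_false] at hc
    unfold isE
    omega
  have h2 : val x * val (U c) = val (U c) * val x := by
    rw [← val_mul, ← val_mul, EE_comm hE (U_mem_EE hcE)]
  rw [hx, val_U] at h2
  have h3 : (mulP (Nat.shiftRight acc 12096) (nthP TB c)) % 2 ^ 448 =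
      (mulP (Nat.shiftRight (nthP TB c) 12096) acc) % 2 ^ 448 := by
    apply mod_eq_of_rows
    intro i hi j hj
    apply bz_inj
    have e1 : toM (mulP (acc >>> 12096) (nthP TB c)) ⟨i, by omega⟩ ⟨j, hj⟩ =
        (toM acc * toM (nthP TB c)) ⟨108 + i, by omega⟩ ⟨j, hj⟩ := by
      rw [toM_mulP, Matrix.mul_apply, Matrix.mul_apply]
      apply Finset.sum_congr rfl
      intro k _
      rw [toM_shift acc hi k]
    have e2 : toM (mulP ((nthP TB c) >>> 12096) acc) ⟨i, by omega⟩ ⟨j, hj⟩ =
        (toM (nthP TB c) * toM acc) ⟨108 + i, by omega⟩ ⟨j, hj⟩ := by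
      rw [toM_mulP, Matrix.mul_apply, Matrix.mul_apply]
      apply Finset.sum_congr rfl
      intro k _
      rw [toM_shift _ hi k]
    rw [h2] at e1
    exact e1.trans e2.symm
  unfold neP at h1
  rw [Bool.not_eq_true'] at h1
  have h4 : Nat.beq (Nat.mod (mulP (Nat.shiftRight acc 12096) (nthP TB c)) (Nat.pow 2 448))
      (Nat.mod (mulP (Nat.shiftRight (nthP TB c) 12096) acc) (Nat.pow 2 448)) = true := by
    rw [Nat.beq_eq]
    exact h3
  rw [h4] at h1
  exact Bool.false_ne_true h1.symm

lemma mod_two_pow_succ' (m i : ℕ) : m % 2 ^ (i + 1) = m % 2 ^ i + (if m.testBit i = true then 2 ^ i else 0) := by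
  rw [Nat.mod_pow_succ, Nat.testBit_eq_decide_div_mod_eq]
  congr 1
  rcases Nat.mod_two_eq_zero_or_one (m / 2 ^ i) with h | h <;> simp [h]

lemma bfs_nil (exc : List ℕ) (acc mask w : ℕ) : bfs exc [] acc mask w = (exc.any (Nat.beq mask) || tstE acc) := rfl

lemma bfs_cons (exc : List ℕ) (A : ℕ) (L : List ℕ) (acc mask w : ℕ) : bfs exc (A :: L) acc mask w =
    (bfs exc L acc mask (Nat.mul 2 w) && bfs exc L (mulP acc A) (Nat.add mask w) (Nat.mul 2 w)) := by
  have h : bfs exc (A :: L) acc mask w =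
    (bfs exc L acc mask (Nat.mul 2 w) && fz (mulP acc A) (fun acc' => bfs exc L acc' (Nat.add mask w) (Nat.mul 2 w))) := rfl
  rw [h, fz_eq]

lemma bfs_spec {exc : List ℕ} {d : ℕ → Γ} {N : ℕ} (L : List ℕ) : ∀ (i acc m : ℕ), i + L.length = N →
    (∀ t < L.length, val (d (i + t)) = toM (L.getD t 0)) → val (pw d m.testBit i) = toM acc →
    bfs exc L acc (m % 2 ^ i) (2 ^ i) = true →
    (exc.any (Nat.beq (m % 2 ^ N)) = true ∨ pw d m.testBit N ∉ EE) := by
  induction L with
  | nil =>
    intro i acc m hi _ hacc h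
    rw [List.length_nil, Nat.add_zero] at hi
    subst hi
    rw [bfs_nil, Bool.or_eq_true] at h
    rcases h with h | h
    · exact Or.inl h
    · exact Or.inr (tstE_spec hacc h)
  | cons A L ih =>
    intro i acc m hi hd hacc h
    rw [bfs_cons, Bool.and_eq_true] at h
    rw [List.length_cons] at hi hd
    have hd' : ∀ t < L.length, val (d (i + 1 + t)) = toM (L.getD t 0) := by
      intro t ht
      have h1 := hd (t + 1) (by omega)
      rw [List.getD_cons_succ] at h1
      rw [← h1]
      congr 2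
      ring
    have e2 : Nat.mul 2 (2 ^ i) = 2 ^ (i + 1) := by
      rw [pow_succ']
      rfl
    cases hb : m.testBit i with
    | false =>
      apply ih (i + 1) acc m (by omega) hd'
      · rw [pw_succ, hb]
        simp only [Bool.false_eq_true, if_false, mul_one]
        exact hacc
      · rw [mod_two_pow_succ', hb, ← e2]
        simp only [Bool.false_eq_true, if_false, Nat.add_zero]
        exact h.1
    | true =>
      apply ih (i + 1) (mulP acc A) m (by omega) hd'
      · rw [pw_succ, hb]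
        simp only [if_true]
        have h1 := hd 0 (by omega)
        rw [List.getD_cons_zero, Nat.add_zero] at h1
        rw [val_mul, hacc, h1, toM_mulP]
      · rw [mod_two_pow_succ', hb, ← e2]
        simp only [if_true]
        exact h.2

lemma e3w_spec {p : ℕ} (hp : p < 8) : ev (e3w p) = pw (fun j => U (4 + j)) p.testBit 3 := by
  have hw : ∀ a : ℕ → Bool, pw (fun j => U (4 + j)) a 3 =
      1 * (if a 0 = true then U 4 else 1) * (if a 1 = true then U 5 else 1) * (if a 2 = true then U 6 else 1) := fun _ => rfl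
  rw [hw]
  have hc : p = 0 ∨ p = 1 ∨ p = 2 ∨ p = 3 ∨ p = 4 ∨ p = 5 ∨ p = 6 ∨ p = 7 := by omega
  rcases hc with rfl | rfl | rfl | rfl | rfl | rfl | rfl | rfl
  · show ev [] = _
    rw [ev_nil]; simp [Nat.testBit, Nat.shiftRight]
  · show ev [4] = _
    rw [ev_single]; simp [Nat.testBit, Nat.shiftRight]
  · show ev [5] = _
    rw [ev_single]; simp [Nat.testBit, Nat.shiftRight]
  · show ev [4, 5] = _
    rw [ev_cons, ev_single]; simp [Nat.testBit, Nat.shiftRight]
  · show ev [6] = _
    rw [ev_single]; simp [Nat.testBit, Nat.shiftRight]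
  · show ev [4, 6] = _
    rw [ev_cons, ev_single]; simp [Nat.testBit, Nat.shiftRight]
  · show ev [5, 6] = _
    rw [ev_cons, ev_single]; simp [Nat.testBit, Nat.shiftRight]
  · show ev [4, 5, 6] = _
    rw [ev_cons, ev_cons, ev_single]; simp [Nat.testBit, Nat.shiftRight, mul_assoc]

lemma GJi_eq {j : ℕ} (hj : j < 7) : ev (GJi j) = (ev (GJ j))⁻¹ := by
  have h := gj_inv
  rw [List.all_eq_true] at h
  have h1 := chk_one (h j (List.mem_range.2 hj))
  rw [ev_append] at h1
  exact eq_inv_of_mul_eq_one_right h1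

lemma bpart_spec {exc : List ℕ} {j p : ℕ} (hj : j < 7) (hp : p < 8) (h : bpart exc j p = true) {m : ℕ} (hm : m < 2048)
    (hmp : m % 8 = p) : exc.any (Nat.beq m) = true ∨ ev (GJ j) * EM m * (ev (GJ j))⁻¹ ∉ EE := by
  unfold bpart at h
  rw [fz_eq] at h
  have h1 := bfs_spec (exc := exc) (d := fun i => ev (GJ j) * U (4 + i) * (ev (GJ j))⁻¹) (N := 11)
    [cjv j 7, cjv j 8, cjv j 9, cjv j 10, cjv j 11, cjv j 12, cjv j 13, cjv j 14] 3
    (evP (GJ j ++ (e3w p ++ GJi j))) m rfl ?_ ?_ ?_
  · rw [Nat.mod_eq_of_lt (by omega : m < 2 ^ 11), ← pw_conj] at h1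
    exact h1
  · intro t ht
    have key : ∀ c, val (ev (GJ j) * U c * (ev (GJ j))⁻¹) = toM (cjv j c) := by
      intro c
      unfold cjv
      rw [← val_ev, ev_append, ev_cons, GJi_eq hj, mul_assoc]
    have ht' : t < 8 := ht
    have hc : t = 0 ∨ t = 1 ∨ t = 2 ∨ t = 3 ∨ t = 4 ∨ t = 5 ∨ t = 6 ∨ t = 7 := by omega
    rcases hc with rfl | rfl | rfl | rfl | rfl | rfl | rfl | rfl
    · exact key 7
    · exact key 8
    · exact key 9
    · exact key 10
    · exact key 11
    · exact key 12
    · exact key 13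
    · exact key 14
  · rw [← val_ev, ev_append, ev_append, GJi_eq hj, e3w_spec hp, ← mul_assoc, pw_conj]
    congr 1
    apply pw_congr
    intro i hi
    rw [← hmp, show (8 : ℕ) = 2 ^ 3 by norm_num, Nat.testBit_mod_two_pow]
    simp [hi]
  · rw [show (2 : ℕ) ^ 3 = 8 by norm_num, hmp]
    exact h

end Cfsg.Agent.HH.PM
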