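import Cfsg.Agent.HH.J4C
import Mathlib.GroupTheory.PGroup
import Mathlib.GroupTheory.Sylow

set_option autoImplicit false
set_option maxRecDepth 100000
set_option maxHeartbeats 1000000

/-!
The order of the group.
-/

namespace Cfsg.Agent.HH.PM

open Cfsg.Agent.Golay Cfsg.Agent.CosetEnum Cfsg.Agent.HH.J4G Cfsg.Agent.HH.J4S Cfsg.Agent.HH.J4F

lemma U_mem_G1 {c : ℕ} (h : c < 31) : U c ∈ G1 := by
  by_cases h3 : c = 3
  · rw [h3]
    exact t_mem_G1
  · exact KK_le_G1 (U_mem_KK h h3)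

lemma ev_mem_G1 {w : List ℕ} (h : w.all (fun c => Nat.blt c 31) = true) : ev w ∈ G1 := by
  induction w with
  | nil => rw [ev_nil]; exact G1.one_mem
  | cons c w ih =>
    rw [List.all_cons, Bool.and_eq_true, Nat.blt_eq] at h
    rw [ev_cons]
    exact G1.mul_mem (U_mem_G1 h.1) (ih h.2)

lemma dvd_of_pow {G : Type*} [Group G] {H : Subgroup G} [Finite H] {p : ℕ} (hp : p.Prime) {g : G} (hg : g ∈ H)
    (h1 : g ^ p = 1) (h2 : g ≠ 1) : p ∣ Nat.card H := by
  haveI := Fact.mk hp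
  have h3 : orderOf g = p := orderOf_eq_prime h1 h2
  have h4 := orderOf_dvd_natCard (⟨g, hg⟩ : H)
  rwa [Subgroup.orderOf_mk, h3] at h4

lemma dvd29 : 29 ∣ Nat.card G1 :=
  dvd_of_pow (by norm_num) (ev_mem_G1 (w := p29) (by decide)) (chkpow_spec p29_pow) p29_ne
lemma dvd31 : 31 ∣ Nat.card G1 :=
  dvd_of_pow (by norm_num) (ev_mem_G1 (w := p31) (by decide)) (chkpow_spec p31_pow) p31_ne
lemma dvd37 : 37 ∣ Nat.card G1 :=
  dvd_of_pow (by norm_num) (ev_mem_G1 (w := p37) (by decide)) (chkpow_spec p37_pow) p37_ne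
lemma dvd43 : 43 ∣ Nat.card G1 :=
  dvd_of_pow (by norm_num) (ev_mem_G1 (w := p43) (by decide)) (chkpow_spec p43_pow) p43_ne

/-- extraspecial subgroups -/
lemma dvd_cube {G : Type*} [Group G] [Finite G] {H : Subgroup G} {p : ℕ} (hp : p.Prime) {a b : G} (ha : a ∈ H) (hb : b ∈ H)
    (ha1 : a ^ p = 1) (hb1 : b ^ p = 1) (hca : (a⁻¹ * b⁻¹ * a * b) * a = a * (a⁻¹ * b⁻¹ * a * b))
    (hcb : (a⁻¹ * b⁻¹ * a * b) * b = b * (a⁻¹ * b⁻¹ * a * b)) (hc : a⁻¹ * b⁻¹ * a * b ≠ 1) : p ^ 3 ∣ Nat.card H := by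
  haveI := Fact.mk hp
  generalize hcd : a⁻¹ * b⁻¹ * a * b = c at *
  have hab : a * b = b * (a * c) := by rw [← hcd]; group
  -- c has order p
  have hbc : ∀ n : ℕ, b⁻¹ * a ^ n * b = (a * c) ^ n := by
    intro n
    induction n with
    | zero => rw [pow_zero, pow_zero, mul_one, inv_mul_cancel]
    | succ n ih =>
      rw [pow_succ (a * c), ← ih, pow_succ]
      have : a * c = b⁻¹ * a * b := by rw [mul_assoc b⁻¹, hab]; group
      rw [this]
      group
  have hcomm : Commute a c := hca.symm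
  have hc1 : c ^ p = 1 := by
    have h1 := hbc p
    rw [ha1, mul_one, inv_mul_cancel, hcomm.mul_pow, ha1, one_mul] at h1
    exact h1.symm
  have zp : ∀ g : G, g ^ p = 1 → IsPGroup p (Subgroup.zpowers g) := by
    intro g hg
    rintro ⟨x, k, rfl⟩
    refine ⟨1, ?_⟩
    apply Subtype.ext
    rw [pow_one, Subgroup.coe_pow, Subgroup.coe_one]
    show (g ^ k) ^ p = 1
    rw [← zpow_natCast, ← zpow_mul, mul_comm, zpow_mul, zpow_natCast, hg, one_zpow]
  have hA : IsPGroup p (Subgroup.zpowers a ⊔ Subgroup.zpowers c : Subgroup G) := by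
    apply (zp a ha1).to_sup_of_normal_right' (zp c hc1)
    rw [Subgroup.zpowers_le, Subgroup.mem_normalizer_iff]
    intro h
    have e1 : ∀ k : ℤ, a * c ^ k * a⁻¹ = c ^ k := by
      intro k
      rw [(hcomm.zpow_right k).eq, mul_inv_cancel_right]
    constructor
    · rintro ⟨k, rfl⟩
      exact ⟨k, (e1 k).symm⟩
    · rintro ⟨k, hk⟩
      refine ⟨k, ?_⟩
      have hk' : c ^ k = a * h * a⁻¹ := hk
      have e2 := e1 k
      rw [hk'] at e2
      have e3 : a * h * a⁻¹ = h := by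
        have : a * (a * h * a⁻¹) * a⁻¹ = a * h * a⁻¹ := e2
        have h5 := mul_right_cancel this
        exact mul_left_cancel h5
      show c ^ k = h
      rw [hk', e3]
  have hP : IsPGroup p (Subgroup.zpowers b ⊔ (Subgroup.zpowers a ⊔ Subgroup.zpowers c) : Subgroup G) := by
    apply (zp b hb1).to_sup_of_normal_right' hA
    rw [Subgroup.zpowers_le]
    set A : Subgroup G := Subgroup.zpowers a ⊔ Subgroup.zpowers c with hAdef
    have haA : a ∈ A := (le_sup_left : Subgroup.zpowers a ≤ A) (Subgroup.mem_zpowers a)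
    have hcA : c ∈ A := (le_sup_right : Subgroup.zpowers c ≤ A) (Subgroup.mem_zpowers c)
    -- conjugation by b⁻¹ maps A into A
    have h1 : A ≤ A.comap (MulAut.conj b⁻¹).toMonoidHom := by
      conv_lhs => rw [hAdef]
      rw [sup_le_iff, Subgroup.zpowers_le, Subgroup.zpowers_le]
      constructor
      · show b⁻¹ * a * b⁻¹⁻¹ ∈ A
        have : b⁻¹ * a * b⁻¹⁻¹ = a * c := by
          rw [inv_inv, mul_assoc, hab]
          group
        rw [this]
        exact A.mul_mem haA hcA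
      · show b⁻¹ * c * b⁻¹⁻¹ ∈ A
        have : b⁻¹ * c * b⁻¹⁻¹ = c := by
          rw [inv_inv, mul_assoc, hcb]
          group
        rw [this]
        exact hcA
    have h2 : A.map (MulAut.conj b⁻¹).toMonoidHom = A := by
      apply Subgroup.eq_of_le_of_card_ge (Subgroup.map_le_iff_le_comap.2 h1)
      rw [Nat.card_congr (A.equivMapOfInjective (MulAut.conj b⁻¹).toMonoidHom (MulAut.conj b⁻¹).injective).toEquiv]
    have h3 : b⁻¹ ∈ Subgroup.normalizer (A : Set G) := by
      rw [Subgroup.mem_normalizer_iff]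
      intro h
      constructor
      · intro hh
        exact h1 hh
      · intro hh
        rw [← h2] at hh
        obtain ⟨x, hx, hx2⟩ := hh
        have : x = h := (MulAut.conj b⁻¹).injective hx2
        rwa [← this]
    have h4 := (Subgroup.normalizer (A : Set G)).inv_mem h3
    rwa [inv_inv] at h4
  set P : Subgroup G := Subgroup.zpowers b ⊔ (Subgroup.zpowers a ⊔ Subgroup.zpowers c) with hPd
  have hbP : b ∈ P := (le_sup_left : Subgroup.zpowers b ≤ P) (Subgroup.mem_zpowers b)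
  have haP : a ∈ P := ((le_sup_left.trans le_sup_right : Subgroup.zpowers a ≤ P)) (Subgroup.mem_zpowers a)
  have hcH : c ∈ H := by
    rw [← hcd]
    exact H.mul_mem (H.mul_mem (H.mul_mem (H.inv_mem ha) (H.inv_mem hb)) ha) hb
  have hPH : P ≤ H := by
    rw [hPd, sup_le_iff, sup_le_iff, Subgroup.zpowers_le, Subgroup.zpowers_le, Subgroup.zpowers_le]
    exact ⟨hb, ha, hcH⟩
  obtain ⟨n, hn⟩ := IsPGroup.iff_card.1 hP
  have hnc : a * b ≠ b * a := by
    intro h
    apply hc
    rw [← hcd, mul_assoc, h]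
    group
  have hn3 : 3 ≤ n := by
    by_contra hlt
    have hcases : n = 0 ∨ n = 1 ∨ n = 2 := by omega
    have key : IsMulCommutative P → False := by
      intro hcomm2
      apply hnc
      exact congrArg Subtype.val (hcomm2.is_comm.comm (⟨a, haP⟩ : P) ⟨b, hbP⟩)
    rcases hcases with rfl | rfl | rfl
    · rw [pow_zero] at hn
      have h1 : P = ⊥ := Subgroup.card_eq_one.1 hn
      rw [h1] at haP hbP
      apply hnc
      rw [Subgroup.mem_bot.1 haP, Subgroup.mem_bot.1 hbP]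
    · rw [pow_one] at hn
      haveI := isCyclic_of_prime_card hn
      apply hnc
      exact congrArg Subtype.val ((IsCyclic.commGroup (α := P)).mul_comm (⟨a, haP⟩ : P) ⟨b, hbP⟩)
    · exact key (IsPGroup.isMulCommutative_of_card_eq_prime_sq hn)
  have h5 : p ^ 3 ∣ Nat.card P := by
    rw [hn]
    exact pow_dvd_pow p hn3
  exact h5.trans (Subgroup.card_dvd_of_le hPH)

lemma dvd1331 : 11 ^ 3 ∣ Nat.card G1 := by
  have ha := chk_one a11_inv
  have hb := chk_one b11_inv
  rw [ev_append] at ha hb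
  have ha' : ev a11i = (ev a11)⁻¹ := eq_inv_of_mul_eq_one_left ha
  have hb' : ev b11i = (ev b11)⁻¹ := eq_inv_of_mul_eq_one_left hb
  have hc : ev c11 = (ev a11)⁻¹ * (ev b11)⁻¹ * ev a11 * ev b11 := by
    unfold c11
    rw [ev_append, ev_append, ev_append, ha', hb']
    group
  have h1 := chk_spec c11_a
  have h2 := chk_spec c11_b
  rw [ev_append, ev_append, hc] at h1 h2
  have h3 := c11_ne
  rw [hc] at h3
  exact dvd_cube (by norm_num) (ev_mem_G1 (w := a11) (by decide)) (ev_mem_G1 (w := b11) (by decide))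
    (chkpow_spec a11_pow) (chkpow_spec b11_pow) h1 h2 h3

theorem card_G1 : Nat.card G1 = 86775571046077562880 := by
  have hK : 501397585920 ∣ Nat.card G1 := by
    rw [← card_KK']
    exact Subgroup.card_dvd_of_le KK_le_G1
  have h1 : 45581598720 ∣ Nat.card G1 := (by norm_num : 45581598720 ∣ 501397585920).trans hK
  have h2 : 45581598720 * 11 ^ 3 ∣ Nat.card G1 :=
    Nat.Coprime.mul_dvd_of_dvd_of_dvd (by norm_num) h1 dvd1331
  have h3 : 45581598720 * 11 ^ 3 * 29 ∣ Nat.card G1 :=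
    Nat.Coprime.mul_dvd_of_dvd_of_dvd (by norm_num) h2 dvd29
  have h4 : 45581598720 * 11 ^ 3 * 29 * 31 ∣ Nat.card G1 :=
    Nat.Coprime.mul_dvd_of_dvd_of_dvd (by norm_num) h3 dvd31
  have h5 : 45581598720 * 11 ^ 3 * 29 * 31 * 37 ∣ Nat.card G1 :=
    Nat.Coprime.mul_dvd_of_dvd_of_dvd (by norm_num) h4 dvd37
  have h6 : 45581598720 * 11 ^ 3 * 29 * 31 * 37 * 43 ∣ Nat.card G1 :=
    Nat.Coprime.mul_dvd_of_dvd_of_dvd (by norm_num) h5 dvd43
  obtain ⟨q, hq⟩ := h6
  have h7 := card_G1_le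
  have h8 : 0 < Nat.card G1 := Nat.card_pos
  rw [hq] at h7 h8 ⊢
  have h9 : q = 1 := by
    have hq0 : q ≠ 0 := by
      rintro rfl
      rw [mul_zero] at h8
      exact lt_irrefl _ h8
    by_contra hq1
    have hq2 : 2 ≤ q := by omega
    have h10 : 45581598720 * 11 ^ 3 * 29 * 31 * 37 * 43 * 2 ≤ 329730049 * 501397585920 :=
      le_trans (Nat.mul_le_mul_left _ hq2) h7
    norm_num at h10
  rw [h9]
  norm_num

end Cfsg.Agent.HH.PM
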