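import Cfsg.Agent.HH.J4V2
import Cfsg.Agent.HH.J4V3
import Cfsg.Agent.HH.J4V5
import Cfsg.Agent.HH.J4Z

set_option autoImplicit false
set_option maxRecDepth 100000
set_option maxHeartbeats 1000000

/-!
The stabiliser of the involution in `2 ^ 11 : M₂₄`.
-/

namespace Cfsg.Agent.HH.PM

open Cfsg.Agent.Golay Cfsg.Agent.CosetEnum Cfsg.Agent.HH.J4G Cfsg.Agent.HH.J4S Cfsg.Agent.HH.J4F

theorem wa4z : chk (wa4 ++ [10]) ([10] ++ wa4) = true := by decide +kernel
theorem wb4z : chk (wb4 ++ [10]) ([10] ++ wb4) = true := by decide +kernel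

/-- stabiliser of the involution in M24 -/
noncomputable def Stz : Subgroup Cfsg.M24 := (Subgroup.centralizer {zI}).comap ρ

lemma mem_Stz {m : Cfsg.M24} : m ∈ Stz ↔ ρ m * zI = zI * ρ m := by
  unfold Stz
  rw [Subgroup.mem_comap, Subgroup.mem_centralizer_singleton_iff]

lemma EM_word_aux (m : ℕ) (n : ℕ) : pw (fun j => U (4 + j)) m.testBit n =
    ev ((List.range n).flatMap (fun j => if Nat.testBit m j = true then [4 + j] else [])) := by
  induction n with
  | zero => exact ev_nil.symm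
  | succ n ih =>
    rw [pw_succ, ih, List.range_succ, List.flatMap_append, ev_append, List.flatMap_singleton]
    congr 1
    split_ifs
    · exact (ev_single _).symm
    · exact ev_nil.symm

lemma EM_word (m : ℕ) : EM m = ev ((List.range 11).flatMap (fun j => if Nat.testBit m j = true then [4 + j] else [])) :=
  EM_word_aux m 11

lemma cm_conj {g j : ℕ} (hg : g < 3) (hj : j < 11) : (U g)⁻¹ * U (4 + j) * (U g)⁻¹⁻¹ = EM ((CM g).getD j 0) := by
  have h := cm_all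
  simp only [List.all_eq_true, List.mem_range] at h
  have h1 := chk_spec (h g hg j hj)
  rw [ev_cons, ev_single, ev_cons, ← EM_word] at h1
  rw [inv_inv, mul_assoc, h1, inv_mul_cancel_left]

lemma EM_foldl (c : ℕ → ℕ) (a : ℕ → Bool) (n : ℕ) :
    EM ((List.range n).foldl (fun acc j => Nat.xor acc (if a j = true then c j else 0)) 0) = pw (fun j => EM (c j)) a n := by
  induction n with
  | zero => exact EM_zero
  | succ n ih =>
    rw [List.range_succ, List.foldl_append, List.foldl_cons, List.foldl_nil, pw_succ, ← ih]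
    change EM (_ ^^^ _) = _
    rw [EM_xor]
    congr 1
    split_ifs
    · rfl
    · exact EM_zero

lemma EM_act {g : ℕ} (hg : g < 3) (m : ℕ) : (U g)⁻¹ * EM m * U g = EM (actM g m) := by
  unfold actM
  rw [EM_foldl (fun j => (CM g).getD j 0) (fun j => Nat.testBit m j)]
  have h := pw_conj (U g)⁻¹ (fun j => U (4 + j)) m.testBit 11
  rw [inv_inv] at h
  unfold EM
  rw [h]
  apply pw_congr'
  intro i hi
  have h2 := cm_conj hg hi
  rw [inv_inv] at h2
  exact h2

/-- the mask is flagged -/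
def flg (m : ℕ) : Bool := Nat.beq (Nat.land (Nat.shiftRight (ote m) 13) 1) 1

lemma orbit_z : ∀ d m, Nat.shiftRight (ote m) 14 = d → m < 2048 → flg m = true →
    ∃ σ : Cfsg.M24, (ρ σ)⁻¹ * zI * ρ σ = EM m := by
  intro d
  induction d using Nat.strong_induction_on with
  | _ d ih =>
    intro m hd hm hf
    have h := ot_all
    rw [List.all_eq_true] at h
    have h1 := h m (List.mem_range.2 hm)
    unfold otc at h1
    simp only [fz_eq] at h1
    have hf' : Nat.beq (Nat.land (Nat.shiftRight (ote m) 13) 1) 1 = true := hf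
    rw [hf'] at h1
    simp only [Bool.or_eq_true, Bool.and_eq_true, Nat.blt_eq] at h1
    rcases h1 with h1 | ⟨h2, h3, h4, h5⟩
    · have h6 := Nat.eq_of_beq_eq_true h1
      subst h6
      exact ⟨1, by rw [map_one, inv_one, one_mul, mul_one, zI_eq]⟩
    · have hp : Nat.land (ote m) 2047 < 2048 := by
        have : (ote m) &&& 2047 ≤ 2047 := Nat.and_le_right
        exact Nat.lt_succ_of_le this
      obtain ⟨σ, hσ⟩ := ih _ (by rw [← hd]; exact h2) _ rfl hp h3
      refine ⟨σ * gM (Nat.land (Nat.shiftRight (ote m) 11) 3 + 1), ?_⟩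
      rw [map_mul, ρ_letter h4]
      have h6 := EM_act h4 (Nat.land (ote m) 2047)
      rw [Nat.eq_of_beq_eq_true h5, ← hσ] at h6
      rw [← h6]
      group

lemma index_Stz : 1771 ≤ Stz.index := by
  classical
  have hch : ∀ m : {m // m ∈ (List.range 2048).filter flg}, ∃ σ : Cfsg.M24, (ρ σ)⁻¹ * zI * ρ σ = EM m := by
    rintro ⟨m, hm⟩
    rw [List.mem_filter, List.mem_range] at hm
    exact orbit_z _ m rfl hm.1 hm.2
  choose s hs using hch
  let f : {m // m ∈ (List.range 2048).filter flg} → Cfsg.M24 ⧸ Stz := fun m => QuotientGroup.mk (s m)⁻¹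
  have hf : Function.Injective f := by
    intro m m' h
    have h1 : (s m)⁻¹⁻¹ * (s m')⁻¹ ∈ Stz := QuotientGroup.eq.1 h
    rw [inv_inv, mem_Stz, map_mul, map_inv] at h1
    have h2 : EM m = EM m' := by
      rw [← hs m, ← hs m']
      calc (ρ (s m))⁻¹ * zI * ρ (s m) = (ρ (s m))⁻¹ * (zI * (ρ (s m) * (ρ (s m'))⁻¹)) * ρ (s m') := by group
        _ = (ρ (s m))⁻¹ * ((ρ (s m) * (ρ (s m'))⁻¹) * zI) * ρ (s m') := by rw [h1]
        _ = _ := by group
    have hm := (List.mem_filter.1 m.2).1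
    have hm' := (List.mem_filter.1 m'.2).1
    rw [List.mem_range] at hm hm'
    exact Subtype.ext (EM_inj hm hm' h2)
  have h1 := Nat.card_le_card_of_injective f hf
  have h2 : Nat.card {m // m ∈ (List.range 2048).filter flg} = 1771 := by
    have h3 : Nat.card {m // m ∈ ((List.range 2048).filter flg).toFinset} = 1771 := by
      rw [Nat.card_eq_fintype_card, Fintype.card_coe, List.toFinset_card_of_nodup (List.nodup_range.filter _)]
      exact ot_card
    rw [← h3]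
    refine Nat.card_congr (Equiv.subtypeEquivRight ?_)
    intro x
    rw [List.mem_toFinset]
  rw [h2] at h1
  exact h1

lemma Stz_le : Nat.card Stz ≤ 138240 := by
  have h1 := Stz.card_mul_index
  have h2 := index_Stz
  rw [card_M24] at h1
  by_contra hc
  have h3 : 138241 * 1771 ≤ Nat.card Stz * Stz.index := Nat.mul_le_mul (by omega) h2
  rw [h1] at h3
  norm_num at h3

lemma wa4_Stz : (wa4.map gL).prod ∈ Stz := by
  rw [mem_Stz]
  have h : ρ ((wa4.map gL).prod) = ev wa4 := ρ_word (by decide +kernel)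
  rw [h]
  have h1 := chk_spec wa4z
  rw [ev_append, ev_append, ev_single] at h1
  exact h1

lemma wb4_Stz : (wb4.map gL).prod ∈ Stz := by
  rw [mem_Stz]
  have h : ρ ((wb4.map gL).prod) = ev wb4 := ρ_word (by decide +kernel)
  rw [h]
  have h1 := chk_spec wb4z
  rw [ev_append, ev_append, ev_single] at h1
  exact h1

lemma Stz_card : Nat.card Stz = 138240 := le_antisymm Stz_le (cardS wa4_Stz wb4_Stz)

/-- the stabiliser in K -/
def PP : Subgroup Γ := KK ⊓ Subgroup.centralizer {zI}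

lemma mem_PP {g : Γ} : g ∈ PP ↔ g ∈ KK ∧ g * zI = zI * g := by
  unfold PP
  rw [Subgroup.mem_inf, Subgroup.mem_centralizer_singleton_iff]

lemma ρ_mul_inj {m m' : Cfsg.M24} {e e' : Γ} (he : e ∈ EE) (he' : e' ∈ EE) (h : ρ m * e = ρ m' * e') : m = m' ∧ e = e' := by
  have h2 : ρ (m'⁻¹ * m) ∈ EE := by
    have h3 : ρ (m'⁻¹ * m) = e' * e⁻¹ := by
      rw [map_mul, map_inv, inv_mul_eq_iff_eq_mul, ← mul_assoc, ← h, mul_inv_cancel_right]
    rw [h3]
    exact EE.mul_mem he' (EE.inv_mem he)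
  have h4 := ρ_EE h2
  rw [inv_mul_eq_one] at h4
  subst h4
  exact ⟨rfl, mul_left_cancel h⟩

lemma PP_le : Nat.card PP ≤ 283115520 := by
  have hch : ∀ g : PP, ∃ p : Stz × EE, (g : Γ) = ρ p.1 * p.2 := by
    rintro ⟨g, hg⟩
    obtain ⟨⟨m, e, he, rfl⟩, h2⟩ := mem_PP.1 hg
    refine ⟨(⟨m, ?_⟩, ⟨e, he⟩), rfl⟩
    rw [mem_Stz]
    rw [mul_assoc, EE_comm he zI_mem, ← mul_assoc, ← mul_assoc] at h2
    exact mul_right_cancel h2
  choose p hp using hch
  have hinj : Function.Injective p := by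
    intro a b h
    apply Subtype.ext
    rw [hp a, hp b, h]
  have h := Nat.card_le_card_of_injective p hinj
  rw [Nat.card_prod, card_EE, Stz_card] at h
  exact h

lemma KK_conj {k e : Γ} (hk : k ∈ KK) (he : e ∈ EE) : k * e * k⁻¹ ∈ EE := by
  obtain ⟨m, f, hf, rfl⟩ := hk
  have h4 : ρ m * f * e * (ρ m * f)⁻¹ = ρ m * (f * e * f⁻¹) * (ρ m)⁻¹ := by group
  rw [h4]
  exact ρ_conj m (EE.mul_mem (EE.mul_mem hf he) (EE.inv_mem hf))

def FJ (j : ℕ) : Set Γ := {e | e ∈ EE ∧ gi j * e * (gi j)⁻¹ ∈ EE}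
def KJ (j : ℕ) : Set Γ := {k | k ∈ KK ∧ k * zI * k⁻¹ ∈ FJ j}
def TJ (j : ℕ) : Set Γ := {g | ∃ h ∈ KK, ∃ k ∈ KJ j, g = h * (gi j * k)}

lemma card_TJ (j : ℕ) : (TJ j).ncard * Nat.card (SI j) ≤ Nat.card KK * (KJ j).ncard := by
  classical
  have hch : ∀ g : TJ j, ∃ p : KK × KJ j, (g : Γ) = p.1 * (gi j * p.2) := by
    rintro ⟨g, h, hh, k, hk, rfl⟩
    exact ⟨(⟨h, hh⟩, ⟨k, hk⟩), rfl⟩
  choose p hp using hch
  have hsk : ∀ (s : SI j) (k : KJ j), (s : Γ) * k ∈ KJ j := by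
    intro s k
    obtain ⟨hk1, hk2, hk3⟩ := k.2
    refine ⟨KK.mul_mem s.2.1 hk1, ?_, ?_⟩
    · have e1 : (s : Γ) * k * zI * ((s : Γ) * k)⁻¹ = s * (k * zI * (k : Γ)⁻¹) * (s : Γ)⁻¹ := by group
      rw [e1]
      exact KK_conj s.2.1 hk2
    · have e1 : gi j * ((s : Γ) * k * zI * ((s : Γ) * k)⁻¹) * (gi j)⁻¹ =
        (gi j * s * (gi j)⁻¹) * (gi j * (k * zI * (k : Γ)⁻¹) * (gi j)⁻¹) * (gi j * s * (gi j)⁻¹)⁻¹ := by group
      rw [e1]
      exact KK_conj s.2.2 hk3
  let f : TJ j × SI j → KK × KJ j := fun q =>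
    (⟨(p q.1).1 * (gi j * (q.2 : Γ)⁻¹ * (gi j)⁻¹), KK.mul_mem (p q.1).1.2 ((SI j).inv_mem q.2.2).2⟩,
      ⟨(q.2 : Γ) * (p q.1).2, hsk q.2 (p q.1).2⟩)
  have hf : Function.Injective f := by
    rintro ⟨d, s⟩ ⟨d', s'⟩ h
    have h1 : ((p d).1 : Γ) * (gi j * (s : Γ)⁻¹ * (gi j)⁻¹) = (p d').1 * (gi j * (s' : Γ)⁻¹ * (gi j)⁻¹) :=
      congrArg Subtype.val (congrArg Prod.fst h)
    have h2 : (s : Γ) * (p d).2 = s' * (p d').2 := congrArg Subtype.val (congrArg Prod.snd h)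
    have h3 : (d : Γ) = d' := by
      calc (d : Γ) = ((p d).1 : Γ) * (gi j * (s : Γ)⁻¹ * (gi j)⁻¹) * (gi j * ((s : Γ) * (p d).2)) := by
            rw [hp d]
            group
        _ = ((p d').1 : Γ) * (gi j * (s' : Γ)⁻¹ * (gi j)⁻¹) * (gi j * ((s' : Γ) * (p d').2)) := by rw [h1, h2]
        _ = d' := by
            rw [hp d']
            group
    have h4 : d = d' := Subtype.ext h3
    subst h4
    have h5 : (s : Γ) = s' := mul_right_cancel h2
    rw [Subtype.ext h5]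
  have h := Nat.card_le_card_of_injective f hf
  rwa [Nat.card_prod, Nat.card_prod] at h

lemma fiber_card (e : Γ) : ({k : Γ | k ∈ KK ∧ k * zI * k⁻¹ = e}).ncard ≤ 283115520 := by
  by_cases hne : ∃ k0, k0 ∈ KK ∧ k0 * zI * k0⁻¹ = e
  · obtain ⟨k0, hk0, he⟩ := hne
    refine le_trans ?_ PP_le
    have h1 : {k : Γ | k ∈ KK ∧ k * zI * k⁻¹ = e} ⊆ (fun x => k0 * x) '' (PP : Set Γ) := by
      rintro k ⟨hk, hke⟩
      refine ⟨k0⁻¹ * k, ?_, by show k0 * (k0⁻¹ * k) = k; group⟩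
      rw [SetLike.mem_coe, mem_PP]
      refine ⟨KK.mul_mem (KK.inv_mem hk0) hk, ?_⟩
      calc k0⁻¹ * k * zI = k0⁻¹ * (k * zI * k⁻¹) * k := by group
        _ = k0⁻¹ * (k0 * zI * k0⁻¹) * k := by rw [hke, he]
        _ = zI * (k0⁻¹ * k) := by group
    have h2 := Set.ncard_le_ncard h1 (Set.toFinite _)
    exact le_trans h2 (Set.ncard_image_le (Set.toFinite _))
  · have : {k : Γ | k ∈ KK ∧ k * zI * k⁻¹ = e} = ∅ := by
      rw [Set.eq_empty_iff_forall_notMem]
      intro k hk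
      exact hne ⟨k, hk⟩
    rw [this, Set.ncard_empty]
    exact Nat.zero_le _

lemma list_card (ML : List ℕ) : ({k : Γ | k ∈ KK ∧ ∃ m ∈ ML, k * zI * k⁻¹ = EM m}).ncard ≤ ML.length * 283115520 := by
  induction ML with
  | nil =>
    have : {k : Γ | k ∈ KK ∧ ∃ m ∈ ([] : List ℕ), k * zI * k⁻¹ = EM m} = ∅ := by
      rw [Set.eq_empty_iff_forall_notMem]
      rintro k ⟨_, m, hm, _⟩
      exact absurd hm List.not_mem_nil
    rw [this, Set.ncard_empty]
    exact Nat.zero_le _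
  | cons a ML ih =>
    have hsub : {k : Γ | k ∈ KK ∧ ∃ m ∈ (a :: ML), k * zI * k⁻¹ = EM m} ⊆
        {k : Γ | k ∈ KK ∧ k * zI * k⁻¹ = EM a} ∪ {k : Γ | k ∈ KK ∧ ∃ m ∈ ML, k * zI * k⁻¹ = EM m} := by
      rintro k ⟨hk, m, hm, h⟩
      rcases List.mem_cons.1 hm with rfl | hm
      · exact Or.inl ⟨hk, h⟩
      · exact Or.inr ⟨hk, m, hm, h⟩
    have h1 := Set.ncard_le_ncard hsub (Set.toFinite _)
    have h2 := Set.ncard_union_le {k : Γ | k ∈ KK ∧ k * zI * k⁻¹ = EM a} {k : Γ | k ∈ KK ∧ ∃ m ∈ ML, k * zI * k⁻¹ = EM m}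
    have h3 := fiber_card (EM a)
    rw [List.length_cons, Nat.add_mul, one_mul]
    refine le_trans h1 (le_trans h2 ?_)
    rw [add_comm]
    exact Nat.add_le_add ih h3

end Cfsg.Agent.HH.PM
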