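import Cfsg.Agent.HH.J4VB

set_option autoImplicit false
set_option maxRecDepth 100000
set_option maxHeartbeats 4000000

/-! Conjugates of the elements of E, part 1 (generated). -/

namespace Cfsg.Agent.HH.PM

open Cfsg.Agent.Golay

theorem bf1_0 : bpart [0, 1, 2, 3, 64, 65, 66, 67] 1 0 = true := by decide +kernel
theorem bf1_1 : bpart [0, 1, 2, 3, 64, 65, 66, 67] 1 1 = true := by decide +kernel
theorem bf1_2 : bpart [0, 1, 2, 3, 64, 65, 66, 67] 1 2 = true := by decide +kernel
theorem bf1_3 : bpart [0, 1, 2, 3, 64, 65, 66, 67] 1 3 = true := by decide +kernel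
theorem bf1_4 : bpart [0, 1, 2, 3, 64, 65, 66, 67] 1 4 = true := by decide +kernel
theorem bf1_5 : bpart [0, 1, 2, 3, 64, 65, 66, 67] 1 5 = true := by decide +kernel
theorem bf1_6 : bpart [0, 1, 2, 3, 64, 65, 66, 67] 1 6 = true := by decide +kernel
theorem bf1_7 : bpart [0, 1, 2, 3, 64, 65, 66, 67] 1 7 = true := by decide +kernel

end Cfsg.Agent.HH.PM
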