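import Cfsg.Agent.HH.J4VB

set_option autoImplicit false
set_option maxRecDepth 100000
set_option maxHeartbeats 4000000

/-! Conjugates of the elements of E, part 2 (generated). -/

namespace Cfsg.Agent.HH.PM

open Cfsg.Agent.Golay

theorem bf2_0 : bpart [0] 2 0 = true := by decide +kernel
theorem bf2_1 : bpart [0] 2 1 = true := by decide +kernel
theorem bf2_2 : bpart [0] 2 2 = true := by decide +kernel
theorem bf2_3 : bpart [0] 2 3 = true := by decide +kernel
theorem bf2_4 : bpart [0] 2 4 = true := by decide +kernel
theorem bf2_5 : bpart [0] 2 5 = true := by decide +kernel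
theorem bf2_6 : bpart [0] 2 6 = true := by decide +kernel
theorem bf2_7 : bpart [0] 2 7 = true := by decide +kernel

end Cfsg.Agent.HH.PM
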