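import Cfsg.Agent.HH.J4V4
import Cfsg.Agent.HH.J4VB1
import Cfsg.Agent.HH.J4VB2
import Cfsg.Agent.HH.J4VB3
import Cfsg.Agent.HH.J4VB4
import Cfsg.Agent.HH.J4VB5
import Cfsg.Agent.HH.J4VB6

set_option autoImplicit false
set_option maxRecDepth 100000
set_option maxHeartbeats 1000000

/-!
An upper bound for the centraliser of the involution.
-/

namespace Cfsg.Agent.HH.PM

open Cfsg.Agent.Golay Cfsg.Agent.CosetEnum Cfsg.Agent.HH.J4G Cfsg.Agent.HH.J4S Cfsg.Agent.HH.J4F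

lemma all_parts {exc : List ℕ} {j : ℕ} (hj : j < 7) (h : ∀ p < 8, bpart exc j p = true) {e : Γ} (he : e ∈ FJ j) :
    ∃ m ∈ exc, e = EM m := by
  obtain ⟨he1, he2⟩ := he
  obtain ⟨m, hm, rfl⟩ := EM_surj he1
  have h1 := bpart_spec (exc := exc) hj (Nat.mod_lt m (by norm_num)) (h (m % 8) (Nat.mod_lt m (by norm_num))) hm rfl
  rcases h1 with h1 | h1
  · rw [List.any_eq_true] at h1
    obtain ⟨x, hx, h2⟩ := h1
    rw [Nat.eq_of_beq_eq_true h2]
    exact ⟨x, hx, rfl⟩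
  · exact absurd he2 h1

lemma FJ1 {e : Γ} (he : e ∈ FJ 1) : ∃ m ∈ [0, 1, 2, 3, 64, 65, 66, 67], e = EM m := by
  apply all_parts (by norm_num) _ he
  intro p hp
  have hc : p = 0 ∨ p = 1 ∨ p = 2 ∨ p = 3 ∨ p = 4 ∨ p = 5 ∨ p = 6 ∨ p = 7 := by omega
  rcases hc with rfl | rfl | rfl | rfl | rfl | rfl | rfl | rfl
  exacts [bf1_0, bf1_1, bf1_2, bf1_3, bf1_4, bf1_5, bf1_6, bf1_7]

lemma FJ2 {e : Γ} (he : e ∈ FJ 2) : ∃ m ∈ [0], e = EM m := by
  apply all_parts (by norm_num) _ he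
  intro p hp
  have hc : p = 0 ∨ p = 1 ∨ p = 2 ∨ p = 3 ∨ p = 4 ∨ p = 5 ∨ p = 6 ∨ p = 7 := by omega
  rcases hc with rfl | rfl | rfl | rfl | rfl | rfl | rfl | rfl
  exacts [bf2_0, bf2_1, bf2_2, bf2_3, bf2_4, bf2_5, bf2_6, bf2_7]

lemma FJ3 {e : Γ} (he : e ∈ FJ 3) : ∃ m ∈ [0], e = EM m := by
  apply all_parts (by norm_num) _ he
  intro p hp
  have hc : p = 0 ∨ p = 1 ∨ p = 2 ∨ p = 3 ∨ p = 4 ∨ p = 5 ∨ p = 6 ∨ p = 7 := by omega
  rcases hc with rfl | rfl | rfl | rfl | rfl | rfl | rfl | rfl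
  exacts [bf3_0, bf3_1, bf3_2, bf3_3, bf3_4, bf3_5, bf3_6, bf3_7]

lemma FJ4 {e : Γ} (he : e ∈ FJ 4) : ∃ m ∈ [0, 64], e = EM m := by
  apply all_parts (by norm_num) _ he
  intro p hp
  have hc : p = 0 ∨ p = 1 ∨ p = 2 ∨ p = 3 ∨ p = 4 ∨ p = 5 ∨ p = 6 ∨ p = 7 := by omega
  rcases hc with rfl | rfl | rfl | rfl | rfl | rfl | rfl | rfl
  exacts [bf4_0, bf4_1, bf4_2, bf4_3, bf4_4, bf4_5, bf4_6, bf4_7]

lemma FJ5 {e : Γ} (he : e ∈ FJ 5) : ∃ m ∈ [0], e = EM m := by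
  apply all_parts (by norm_num) _ he
  intro p hp
  have hc : p = 0 ∨ p = 1 ∨ p = 2 ∨ p = 3 ∨ p = 4 ∨ p = 5 ∨ p = 6 ∨ p = 7 := by omega
  rcases hc with rfl | rfl | rfl | rfl | rfl | rfl | rfl | rfl
  exacts [bf5_0, bf5_1, bf5_2, bf5_3, bf5_4, bf5_5, bf5_6, bf5_7]

lemma FJ6 {e : Γ} (he : e ∈ FJ 6) : ∃ m ∈ [0], e = EM m := by
  apply all_parts (by norm_num) _ he
  intro p hp
  have hc : p = 0 ∨ p = 1 ∨ p = 2 ∨ p = 3 ∨ p = 4 ∨ p = 5 ∨ p = 6 ∨ p = 7 := by omega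
  rcases hc with rfl | rfl | rfl | rfl | rfl | rfl | rfl | rfl
  exacts [bf6_0, bf6_1, bf6_2, bf6_3, bf6_4, bf6_5, bf6_6, bf6_7]

lemma conj_ne (k : Γ) : k * zI * k⁻¹ ≠ 1 := by
  intro h
  apply zI_ne
  have : zI = k⁻¹ * (k * zI * k⁻¹) * k := by group
  rw [this, h]
  group

/-- from the list -/
lemma KJ_card {j : ℕ} {exc : List ℕ} (h : ∀ e ∈ FJ j, ∃ m ∈ (0 :: exc), e = EM m) :
    (KJ j).ncard ≤ exc.length * 283115520 := by
  refine le_trans (Set.ncard_le_ncard ?_ (Set.toFinite _)) (list_card exc)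
  rintro k ⟨hk, hf⟩
  refine ⟨hk, ?_⟩
  obtain ⟨m, hm, he⟩ := h _ hf
  rcases List.mem_cons.1 hm with rfl | hm
  · rw [EM_zero] at he
    exact absurd he (conj_ne k)
  · exact ⟨m, hm, he⟩

/-- intersections with E -/
def SE (j : ℕ) : Subgroup Γ := SI j ⊓ EE

lemma card_SI_ge (j : ℕ) : Nat.card (SB j) * Nat.card (SE j) ≤ Nat.card (SI j) := by
  have hch : ∀ m : SB j, ∃ e : Γ, e ∈ EE ∧ ρ m * e ∈ SI j := by
    rintro ⟨m, e, he, h⟩
    exact ⟨e, he, h⟩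
  choose e he hs using hch
  rw [← Nat.card_prod]
  refine Nat.card_le_card_of_injective (fun q : SB j × SE j =>
    (⟨ρ q.1 * e q.1 * q.2, (SI j).mul_mem (hs q.1) q.2.2.1⟩ : SI j)) ?_
  rintro ⟨m, a⟩ ⟨m', a'⟩ h
  have h1 : ρ (m : Cfsg.M24) * e m * a = ρ (m' : Cfsg.M24) * e m' * a' := congrArg Subtype.val h
  rw [mul_assoc, mul_assoc] at h1
  obtain ⟨h2, h3⟩ := ρ_mul_inj (EE.mul_mem (he m) a.2.2) (EE.mul_mem (he m') a'.2.2) h1
  have h4 : m = m' := Subtype.ext h2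
  subst h4
  have h5 : (a : Γ) = a' := mul_left_cancel h3
  rw [Subtype.ext h5]

lemma ET_le_SE : ET ≤ SE 1 := by
  intro a ha
  refine ⟨⟨EE_le_KK (ET_le ha), ?_⟩, ET_le ha⟩
  have e1 : gi 1 = U 3 := ev_single 3
  have h3 : (U 3)⁻¹ = U 3 := by rw [inv_eq_iff_mul_eq_one, U3_sq]
  rw [e1, h3]
  exact ET_conj ha

lemma card_ET : 512 ≤ Nat.card ET := by
  have hch : ∀ e : EE, ∃ p : Fin 4 × ET, (e : Γ) = ev (CW p.1) * p.2 := by
    rintro ⟨e, he⟩
    obtain ⟨c, hc, a, ha, h⟩ := EE_split he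
    exact ⟨(⟨c, hc⟩, ⟨a, ha⟩), h⟩
  choose p hp using hch
  have hinj : Function.Injective p := by
    intro a b h
    apply Subtype.ext
    rw [hp a, hp b, h]
  have h := Nat.card_le_card_of_injective p hinj
  rw [Nat.card_prod, card_EE, Nat.card_fin] at h
  omega

lemma card_SE1 : 512 ≤ Nat.card (SE 1) :=
  le_trans card_ET (Nat.card_le_card_of_injective _ (Subgroup.inclusion_injective ET_le_SE))

lemma card_SI1 : 33030144 ≤ Nat.card (SI 1) := by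
  refine le_trans ?_ (card_SI_ge 1)
  exact le_trans (by norm_num) (Nat.mul_le_mul b1 card_SE1)

/-- spans of lists of masks -/
def spanL : List ℕ → List ℕ
  | [] => [0]
  | m :: L => spanL L ++ (spanL L).map (fun x => m ^^^ x)

lemma spanL_mem {H : Subgroup Γ} {L : List ℕ} (h : ∀ m ∈ L, EM m ∈ H) : ∀ x ∈ spanL L, EM x ∈ H := by
  induction L with
  | nil =>
    intro x hx
    rw [spanL, List.mem_singleton] at hx
    rw [hx, EM_zero]
    exact H.one_mem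
  | cons m L ih =>
    have ih := ih fun m hm => h m (List.mem_cons_of_mem _ hm)
    intro x hx
    rw [spanL, List.mem_append, List.mem_map] at hx
    rcases hx with hx | ⟨y, hy, rfl⟩
    · exact ih x hx
    · rw [EM_xor]
      exact H.mul_mem (h m List.mem_cons_self) (ih y hy)

lemma span_ok : (spanL (X4.map Prod.fst)).length = 128 ∧ (spanL (X4.map Prod.fst)).Nodup ∧
    ∀ x ∈ spanL (X4.map Prod.fst), x < 2048 := by decide +kernel

lemma X4_mem {p : ℕ × List ℕ} (hp : p ∈ X4) : EM p.1 ∈ SE 4 := by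
  have h := x4_all
  rw [List.all_eq_true] at h
  have h1 := h p hp
  simp only [Bool.and_eq_true] at h1
  obtain ⟨⟨_, h2⟩, h3⟩ := h1
  have h4 := chk_spec h3
  rw [ev_append, ev_append, ← EM_word] at h4
  have e4 : gi 4 = ev [3, 1, 0, 2, 0, 1, 8, 3] := rfl
  refine ⟨⟨EE_le_KK (EM_mem _), ?_⟩, EM_mem _⟩
  rw [e4, h4, mul_inv_cancel_right]
  exact ev_mem_KK (w := p.2) h2

lemma card_SE4 : 128 ≤ Nat.card (SE 4) := by
  classical
  obtain ⟨h1, h2, h3⟩ := span_ok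
  let L := spanL (X4.map Prod.fst)
  have hm : ∀ x ∈ L, EM x ∈ SE 4 := spanL_mem (by
    intro m hm
    rw [List.mem_map] at hm
    obtain ⟨p, hp, rfl⟩ := hm
    exact X4_mem hp)
  let f : {x // x ∈ L.toFinset} → SE 4 := fun x => ⟨EM x, hm x (List.mem_toFinset.1 x.2)⟩
  have hf : Function.Injective f := by
    intro x y h
    exact Subtype.ext (EM_inj (h3 x (List.mem_toFinset.1 x.2)) (h3 y (List.mem_toFinset.1 y.2)) (congrArg Subtype.val h))
  have h4 := Nat.card_le_card_of_injective f hf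
  have h5 : Nat.card {x // x ∈ L.toFinset} = 128 := by
    rw [Nat.card_eq_fintype_card, Fintype.card_coe, List.toFinset_card_of_nodup h2]
    exact h1
  rwa [h5] at h4

lemma card_SB4 : 138240 ≤ Nat.card (SB 4) := cardS (sgm (a := 6) (by decide)) (sgm (a := 7) (by decide))

lemma card_SI4 : 17694720 ≤ Nat.card (SI 4) := by
  refine le_trans ?_ (card_SI_ge 4)
  exact le_trans (by norm_num) (Nat.mul_le_mul card_SB4 card_SE4)

lemma TJ1 : (TJ 1).ncard ≤ 60 * 501397585920 := by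
  have h1 := card_TJ 1
  have h2 := KJ_card (j := 1) (exc := [1, 2, 3, 64, 65, 66, 67]) (fun e he => FJ1 he)
  rw [card_KK'] at h1
  have h3 : (TJ 1).ncard * 33030144 ≤ 501397585920 * (7 * 283115520) :=
    le_trans (Nat.mul_le_mul_left _ card_SI1) (le_trans h1 (Nat.mul_le_mul_left _ h2))
  have h4 : (TJ 1).ncard * 33030144 ≤ (60 * 501397585920) * 33030144 := le_trans h3 (by norm_num)
  exact Nat.le_of_mul_le_mul_right h4 (by norm_num)

lemma TJ4 : (TJ 4).ncard ≤ 16 * 501397585920 := by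
  have h1 := card_TJ 4
  have h2 := KJ_card (j := 4) (exc := [64]) (fun e he => FJ4 he)
  rw [card_KK'] at h1
  have h3 : (TJ 4).ncard * 17694720 ≤ 501397585920 * (1 * 283115520) :=
    le_trans (Nat.mul_le_mul_left _ card_SI4) (le_trans h1 (Nat.mul_le_mul_left _ h2))
  have h4 : (TJ 4).ncard * 17694720 ≤ (16 * 501397585920) * 17694720 := le_trans h3 (by norm_num)
  exact Nat.le_of_mul_le_mul_right h4 (by norm_num)

lemma KJ_empty {j : ℕ} (h : ∀ e ∈ FJ j, ∃ m ∈ [0], e = EM m) {k : Γ} (hk : k ∈ KJ j) : False := by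
  obtain ⟨m, hm, he⟩ := h _ hk.2
  rw [List.mem_singleton] at hm
  rw [hm, EM_zero] at he
  exact conj_ne k he

/-- the elements that conjugate the involution into E -/
def TT1 : Set Γ := {g | g ∈ G1 ∧ g * zI * g⁻¹ ∈ EE}

lemma TT1_card : TT1.ncard ≤ 77 * 501397585920 := by
  have hsub : TT1 ⊆ (KK : Set Γ) ∪ (TJ 1 ∪ TJ 4) := by
    rintro g ⟨hg, hgz⟩
    obtain ⟨h, hh, j, hj, k, hk, rfl⟩ := cover hg
    have hkj : k ∈ KJ j := by
      refine ⟨hk, KK_conj hk zI_mem, ?_⟩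
      have e1 : gi j * (k * zI * k⁻¹) * (gi j)⁻¹ = h⁻¹ * (h * (gi j * k) * zI * (h * (gi j * k))⁻¹) * h⁻¹⁻¹ := by group
      rw [e1]
      exact KK_conj (KK.inv_mem hh) hgz
    have hT : h * (gi j * k) ∈ TJ j := ⟨h, hh, k, hkj, rfl⟩
    have hc : j = 0 ∨ j = 1 ∨ j = 2 ∨ j = 3 ∨ j = 4 ∨ j = 5 ∨ j = 6 := by omega
    rcases hc with rfl | rfl | rfl | rfl | rfl | rfl | rfl
    · left
      have e0 : gi 0 = 1 := rfl
      rw [e0, one_mul]
      exact KK.mul_mem hh hk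
    · exact Or.inr (Or.inl hT)
    · exact (KJ_empty (fun e he => FJ2 he) hkj).elim
    · exact (KJ_empty (fun e he => FJ3 he) hkj).elim
    · exact Or.inr (Or.inr hT)
    · exact (KJ_empty (fun e he => FJ5 he) hkj).elim
    · exact (KJ_empty (fun e he => FJ6 he) hkj).elim
  have h1 := Set.ncard_le_ncard hsub (Set.toFinite _)
  have u0 := Set.ncard_union_le (KK : Set Γ) (TJ 1 ∪ TJ 4)
  have u1 := Set.ncard_union_le (TJ 1) (TJ 4)
  have hK : (KK : Set Γ).ncard = 501397585920 := card_KK'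
  rw [hK] at u0
  have t1 := le_trans u1 (Nat.add_le_add TJ1 TJ4)
  have t0 := le_trans u0 (Nat.add_le_add_left t1 _)
  exact le_trans h1 (le_trans t0 (by norm_num))

/-- the centraliser -/
def CC : Subgroup Γ := G1 ⊓ Subgroup.centralizer {zI}

lemma mem_CC {g : Γ} : g ∈ CC ↔ g ∈ G1 ∧ g * zI = zI * g := by
  unfold CC
  rw [Subgroup.mem_inf, Subgroup.mem_centralizer_singleton_iff]

theorem CC_le : Nat.card CC ≤ 21799895040 := by
  classical
  have hT : ∀ (k : KK) (c : CC), (k : Γ) * c ∈ TT1 := by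
    intro k c
    obtain ⟨h1, h2⟩ := mem_CC.1 c.2
    refine ⟨G1.mul_mem (KK_le_G1 k.2) h1, ?_⟩
    have : (k : Γ) * c * zI * ((k : Γ) * c)⁻¹ = k * zI * (k : Γ)⁻¹ := by
      calc (k : Γ) * c * zI * ((k : Γ) * c)⁻¹ = k * (c * zI) * (c : Γ)⁻¹ * (k : Γ)⁻¹ := by group
        _ = k * (zI * c) * (c : Γ)⁻¹ * (k : Γ)⁻¹ := by rw [h2]
        _ = _ := by group
    rw [this]
    exact KK_conj k.2 zI_mem
  -- chosen decompositions
  have hch : ∀ t : TT1, ∃ q : KK × CC, (∃ (k : KK) (c : CC), (t : Γ) = k * c) → (t : Γ) = q.1 * q.2 := by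
    intro t
    by_cases h : ∃ (k : KK) (c : CC), (t : Γ) = k * c
    · obtain ⟨k, c, h⟩ := h
      exact ⟨(k, c), fun _ => h⟩
    · exact ⟨(1, 1), fun h' => absurd h' h⟩
  choose q hq using hch
  have hPP : ∀ (k : KK) (c : CC), ((q ⟨_, hT k c⟩).1 : Γ)⁻¹ * k ∈ PP := by
    intro k c
    have h1 := hq ⟨_, hT k c⟩ ⟨k, c, rfl⟩
    rw [mem_PP]
    refine ⟨KK.mul_mem (KK.inv_mem (q ⟨_, hT k c⟩).1.2) k.2, ?_⟩
    have h2 : ((q ⟨_, hT k c⟩).1 : Γ)⁻¹ * k = ((q ⟨_, hT k c⟩).2 : Γ) * (c : Γ)⁻¹ := by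
      have h1' : (k : Γ) * c = ((q ⟨_, hT k c⟩).1 : Γ) * (q ⟨_, hT k c⟩).2 := h1
      rw [inv_mul_eq_iff_eq_mul, ← mul_assoc, ← h1', mul_inv_cancel_right]
    rw [h2]
    exact (mem_CC.1 (CC.mul_mem (q ⟨_, hT k c⟩).2.2 (CC.inv_mem c.2))).2
  let f : KK × CC → TT1 × PP := fun p => (⟨_, hT p.1 p.2⟩, ⟨_, hPP p.1 p.2⟩)
  have hf : Function.Injective f := by
    rintro ⟨k, c⟩ ⟨k', c'⟩ h
    have h1 : (⟨(k : Γ) * c, hT k c⟩ : TT1) = ⟨(k' : Γ) * c', hT k' c'⟩ := congrArg Prod.fst h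
    have h2 : ((q ⟨_, hT k c⟩).1 : Γ)⁻¹ * k = ((q ⟨_, hT k' c'⟩).1 : Γ)⁻¹ * k' := congrArg Subtype.val (congrArg Prod.snd h)
    rw [h1] at h2
    have h3 : (k : Γ) = k' := mul_left_cancel h2
    have h4 : (k : Γ) * c = k' * c' := congrArg Subtype.val h1
    rw [h3] at h4
    have h5 : (c : Γ) = c' := mul_left_cancel h4
    rw [Subtype.ext h3, Subtype.ext h5]
  have h1 := Nat.card_le_card_of_injective f hf
  rw [Nat.card_prod, Nat.card_prod, card_KK'] at h1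
  have h2 : Nat.card TT1 ≤ 77 * 501397585920 := TT1_card
  have h3 : 501397585920 * Nat.card CC ≤ 501397585920 * (77 * 283115520) := by
    refine le_trans h1 (le_trans (Nat.mul_le_mul h2 PP_le) (by norm_num))
  have h4 := Nat.le_of_mul_le_mul_left h3 (by norm_num)
  exact le_trans h4 (by norm_num)

end Cfsg.Agent.HH.PM
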