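import Cfsg.Agent.HH.J4V1

set_option autoImplicit false
set_option maxRecDepth 100000
set_option maxHeartbeats 4000000

/-! Normality, part 1 (generated). -/

namespace Cfsg.Agent.HH.PM

open Cfsg.Agent.Golay

theorem nq_all1 : (List.range 7).all (fun a => (List.range 12).all (fun i =>
    chk (qg i ++ GN (7 + a)) (GN (7 + a) ++ qwl (NQT (7 + a) i)))) = true := by
  decide +kernel

end Cfsg.Agent.HH.PM
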