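import Cfsg.Agent.HH.J4V6
import Cfsg.Agent.HH.J4V1
import Cfsg.Agent.HH.J4VN0
import Cfsg.Agent.HH.J4VN1
import Cfsg.Agent.H90.Extraspecial

set_option autoImplicit false
set_option maxRecDepth 100000
set_option maxHeartbeats 1000000

/-!
The centraliser of the involution: order, and the normal subgroup of order `2 ^ 13`.
-/

namespace Cfsg.Agent.HH.PM

open Cfsg.Agent.Golay Cfsg.Agent.CosetEnum Cfsg.Agent.HH.J4G Cfsg.Agent.HH.J4S Cfsg.Agent.HH.J4F

theorem sa_eq : chk sa wa4 = true := by decide +kernel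
theorem sb_eq : chk sb wb4 = true := by decide +kernel

/-- the generators -/
def gg (a : ℕ) : Γ := ev (GN a)

/-- the group generated -/
def C0 : Subgroup Γ := Subgroup.closure {x | ∃ a < 14, x = gg a}

lemma gg_mem {a : ℕ} (h : a < 14) : gg a ∈ C0 := Subgroup.subset_closure ⟨a, h, rfl⟩

lemma gg_CC {a : ℕ} (h : a < 14) : gg a ∈ CC := by
  rw [mem_CC]
  have h1 := gn_z
  have h2 := gn_let
  rw [List.all_eq_true] at h1 h2
  refine ⟨ev_mem_G1 (h2 a (List.mem_range.2 h)), ?_⟩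
  have h3 := chk_spec (h1 a (List.mem_range.2 h))
  rw [ev_append, ev_append, ev_single] at h3
  exact h3.symm

lemma C0_le : C0 ≤ CC := by
  unfold C0
  rw [Subgroup.closure_le]
  rintro _ ⟨a, ha, rfl⟩
  exact gg_CC ha

lemma gg_E {j : ℕ} (hj : j < 11) : gg (3 + j) = U (4 + j) := by
  have hc : j = 0 ∨ j = 1 ∨ j = 2 ∨ j = 3 ∨ j = 4 ∨ j = 5 ∨ j = 6 ∨ j = 7 ∨ j = 8 ∨ j = 9 ∨ j = 10 := by omega
  rcases hc with rfl | rfl | rfl | rfl | rfl | rfl | rfl | rfl | rfl | rfl | rfl <;> exact ev_single _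

lemma EE_le_C0 : EE ≤ C0 := by
  intro e he
  obtain ⟨m, _, rfl⟩ := EM_surj he
  apply pw_mem
  intro i hi
  rw [← gg_E hi]
  exact gg_mem (by omega)

lemma ρ_Stz_C0 {m : Cfsg.M24} (h : m ∈ Stz) : ρ m ∈ C0 := by
  have hle : Subgroup.closure {(wa4.map gL).prod, (wb4.map gL).prod} ≤ Stz := by
    rw [Subgroup.closure_le]
    rintro _ (rfl | rfl)
    · exact wa4_Stz
    · exact wb4_Stz
  have hc : 138240 ≤ Nat.card (Subgroup.closure {(wa4.map gL).prod, (wb4.map gL).prod}) :=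
    cardS (Subgroup.subset_closure (by simp)) (Subgroup.subset_closure (by simp))
  have heq : Subgroup.closure {(wa4.map gL).prod, (wb4.map gL).prod} = Stz := by
    apply Subgroup.eq_of_le_of_card_ge hle
    rw [Stz_card]
    exact hc
  have hle2 : Stz ≤ C0.comap ρ := by
    rw [← heq, Subgroup.closure_le]
    rintro _ (rfl | rfl)
    · show ρ ((wa4.map gL).prod) ∈ C0
      have h : ρ ((wa4.map gL).prod) = ev wa4 := ρ_word (by decide +kernel)
      rw [h, ← chk_spec sa_eq]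
      exact gg_mem (a := 0) (by norm_num)
    · show ρ ((wb4.map gL).prod) ∈ C0
      have h : ρ ((wb4.map gL).prod) = ev wb4 := ρ_word (by decide +kernel)
      rw [h, ← chk_spec sb_eq]
      exact gg_mem (a := 1) (by norm_num)
  exact hle2 h

lemma PP_le_C0 : PP ≤ C0 := by
  intro g hg
  obtain ⟨⟨m, e, he, rfl⟩, h2⟩ := mem_PP.1 hg
  apply C0.mul_mem _ (EE_le_C0 he)
  apply ρ_Stz_C0
  rw [mem_Stz]
  rw [mul_assoc, EE_comm he zI_mem, ← mul_assoc, ← mul_assoc] at h2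
  exact mul_right_cancel h2

lemma PP_card : Nat.card PP = 283115520 := by
  apply le_antisymm PP_le
  let f : Stz × EE → PP := fun q => ⟨ρ q.1 * q.2, by
    rw [mem_PP]
    refine ⟨⟨q.1, q.2, q.2.2, rfl⟩, ?_⟩
    rw [mul_assoc, EE_comm q.2.2 zI_mem, ← mul_assoc, mem_Stz.1 q.1.2, mul_assoc]⟩
  have hf : Function.Injective f := by
    rintro ⟨m, a⟩ ⟨m', a'⟩ h
    obtain ⟨h2, h3⟩ := ρ_mul_inj a.2 a'.2 (congrArg Subtype.val h)
    exact Prod.ext (Subtype.ext h2) (Subtype.ext h3)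
  have h := Nat.card_le_card_of_injective f hf
  rwa [Nat.card_prod, card_EE, Stz_card] at h

lemma gg_word (l : List ℕ) (h : ∀ a ∈ l, a < 14) : ev (l.flatMap GN) ∈ C0 := by
  induction l with
  | nil => exact C0.one_mem
  | cons a l ih =>
    rw [List.flatMap_cons, ev_append]
    exact C0.mul_mem (gg_mem (h a List.mem_cons_self)) (ih fun b hb => h b (List.mem_cons_of_mem _ hb))

theorem e7_ne : ev (I7.flatMap GN) ≠ 1 := ev_ne 1 (by decide +kernel)
theorem e11_ne : ev (I11.flatMap GN) ≠ 1 := ev_ne 1 (by decide +kernel)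

theorem C0_card : Nat.card C0 = 21799895040 := by
  have h1 : 283115520 ∣ Nat.card C0 := by
    rw [← PP_card]
    exact Subgroup.card_dvd_of_le PP_le_C0
  have h7 : 7 ∣ Nat.card C0 :=
    dvd_of_pow (by norm_num) (gg_word I7 (by decide)) (chkpow_spec e7_pow) e7_ne
  have h11 : 11 ∣ Nat.card C0 :=
    dvd_of_pow (by norm_num) (gg_word I11 (by decide)) (chkpow_spec e11_pow) e11_ne
  have h2 : 283115520 * 7 ∣ Nat.card C0 := Nat.Coprime.mul_dvd_of_dvd_of_dvd (by norm_num) h1 h7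
  have h3 : 283115520 * 7 * 11 ∣ Nat.card C0 := Nat.Coprime.mul_dvd_of_dvd_of_dvd (by norm_num) h2 h11
  have h4 : Nat.card C0 ≤ 21799895040 :=
    le_trans (Nat.card_le_card_of_injective _ (Subgroup.inclusion_injective C0_le)) CC_le
  have h5 := Nat.le_of_dvd Nat.card_pos h3
  norm_num at h5
  exact le_antisymm h4 h5

theorem CC_eq : C0 = CC := by
  apply Subgroup.eq_of_le_of_card_ge C0_le
  rw [C0_card]
  exact CC_le

/-- basis of D -/
def dd (i : ℕ) : Γ := ev (Dl i)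
def cc : Γ := ev cw

lemma cc_inv : ev cwi = cc⁻¹ := by
  have h := chk_one cw_inv
  rw [ev_append] at h
  exact eq_inv_of_mul_eq_one_left h

lemma dd_mem {i : ℕ} (h : i < 7) : dd i ∈ EE := by
  have hc : i = 0 ∨ i = 1 ∨ i = 2 ∨ i = 3 ∨ i = 4 ∨ i = 5 ∨ i = 6 := by omega
  apply ev_mem_EE
  rcases hc with rfl | rfl | rfl | rfl | rfl | rfl | rfl <;>
    (intro c hc; unfold Dl at hc; simp at hc; unfold isE; omega)

lemma dd6 : dd 6 = zI := ev_single 10

/-- the elementary abelian subgroups -/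
def DD7 : Subgroup Γ := Subgroup.closure {x | ∃ i < 7, x = dd i}
def RR7 : Subgroup Γ := DD7.map (MulAut.conj cc⁻¹).toMonoidHom

lemma mem_RR7 {x : Γ} : x ∈ RR7 ↔ ∃ d ∈ DD7, x = cc⁻¹ * d * cc := by
  constructor
  · rintro ⟨d, hd, rfl⟩
    refine ⟨d, hd, ?_⟩
    show cc⁻¹ * d * cc⁻¹⁻¹ = _
    rw [inv_inv]
  · rintro ⟨d, hd, rfl⟩
    refine ⟨d, hd, ?_⟩
    show cc⁻¹ * d * cc⁻¹⁻¹ = _
    rw [inv_inv]

lemma DD7_le : DD7 ≤ EE := by
  unfold DD7
  rw [Subgroup.closure_le]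
  rintro _ ⟨i, hi, rfl⟩
  exact dd_mem hi

lemma dd_DD {i : ℕ} (h : i < 7) : dd i ∈ DD7 := Subgroup.subset_closure ⟨i, h, rfl⟩

lemma zI_DD : zI ∈ DD7 := by
  rw [← dd6]
  exact dd_DD (by norm_num)

lemma dwl_mem {l : List ℕ} (h : ∀ c ∈ l, c < 7) : ev (dwl l) ∈ DD7 := by
  induction l with
  | nil => exact DD7.one_mem
  | cons a l ih =>
    have e : dwl (a :: l) = Dl a ++ dwl l := List.flatMap_cons ..
    rw [e, ev_append]
    exact DD7.mul_mem (dd_DD (h a List.mem_cons_self)) (ih fun b hb => h b (List.mem_cons_of_mem _ hb))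

lemma cc_z : cc * zI = zI * cc := (mem_CC.1 (gg_CC (a := 2) (by norm_num))).2

lemma DD_z {x : Γ} (h : x ∈ DD7) : x * zI = zI * x := EE_comm (DD7_le h) zI_mem

lemma RR_z {x : Γ} (h : x ∈ RR7) : x * zI = zI * x := by
  obtain ⟨d, hd, rfl⟩ := mem_RR7.1 h
  have h1 := DD_z hd
  have h2 : cc⁻¹ * zI = zI * cc⁻¹ := by
    rw [inv_mul_eq_iff_eq_mul, ← mul_assoc, cc_z, mul_inv_cancel_right]
  calc cc⁻¹ * d * cc * zI = cc⁻¹ * d * (cc * zI) := by group
    _ = cc⁻¹ * (d * zI) * cc := by rw [cc_z]; group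
    _ = (cc⁻¹ * zI) * d * cc := by rw [h1]; group
    _ = _ := by rw [h2]; group

lemma zI_RR : zI ∈ RR7 := by
  rw [mem_RR7]
  refine ⟨zI, zI_DD, ?_⟩
  rw [mul_assoc, ← cc_z, inv_mul_cancel_left]

/-- commutation up to the involution -/
def cz (x y : Γ) : Prop := x * y = y * x ∨ x * y = zI * (y * x)

lemma cz_symm {x y : Γ} (h : cz x y) : cz y x := by
  rcases h with h | h
  · exact Or.inl h.symm
  · right
    rw [h, ← mul_assoc, zI_sq, one_mul]

lemma cz_mul {x y y' : Γ} (hx : x * zI = zI * x) (hy : y * zI = zI * y) (h : cz x y) (h' : cz x y') : cz x (y * y') := by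
  rcases h with h | h <;> rcases h' with h' | h'
  · left
    rw [← mul_assoc, h, mul_assoc, h', mul_assoc]
  · right
    rw [← mul_assoc, h, mul_assoc, h', ← mul_assoc y zI, hy, mul_assoc, mul_assoc]
  · right
    rw [← mul_assoc, h, mul_assoc, mul_assoc, h', mul_assoc]
  · left
    rw [← mul_assoc, h, mul_assoc, mul_assoc, h', ← mul_assoc y zI, hy, mul_assoc, ← mul_assoc zI zI, zI_sq, one_mul,
      mul_assoc]

lemma cz_one (x : Γ) : cz x 1 := Or.inl (by rw [mul_one, one_mul])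

/-- the generators of R -/
def rr (i : ℕ) : Γ := cc⁻¹ * dd i * cc

lemma rr_mem {i : ℕ} (h : i < 7) : rr i ∈ RR7 := mem_RR7.2 ⟨_, dd_DD h, rfl⟩

end Cfsg.Agent.HH.PM
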