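import Cfsg.Agent.HH.J4V7

set_option autoImplicit false
set_option maxRecDepth 100000
set_option maxHeartbeats 1000000

/-!
The normal subgroups of order `2 ^ 13` and `3 · 2 ^ 13` of the centraliser.
-/

namespace Cfsg.Agent.HH.PM

open Cfsg.Agent.Golay Cfsg.Agent.CosetEnum Cfsg.Agent.HH.J4G Cfsg.Agent.HH.J4S Cfsg.Agent.HH.J4F

theorem gram0 : (List.range 6).all (fun i => (List.range 6).all (fun j =>
    chk ((cwi ++ (Dl j ++ cw)) ++ Dl i) (Dl i ++ (cwi ++ (Dl j ++ cw))) ||
    chk ((cwi ++ (Dl j ++ cw)) ++ Dl i) ([10] ++ (Dl i ++ (cwi ++ (Dl j ++ cw)))))) = true := by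
  decide +kernel

lemma rr_ev (j : ℕ) : ev (cwi ++ (Dl j ++ cw)) = rr j := by
  rw [ev_append, ev_append, cc_inv, ← mul_assoc]
  rfl

lemma dd_sq {i : ℕ} (h : i < 7) : dd i * dd i = 1 := EE_sq (dd_mem h)
lemma dd_comm {i j : ℕ} (hi : i < 7) (hj : j < 7) : dd i * dd j = dd j * dd i := EE_comm (dd_mem hi) (dd_mem hj)
lemma rr_sq {i : ℕ} (h : i < 7) : rr i * rr i = 1 := by
  unfold rr
  calc cc⁻¹ * dd i * cc * (cc⁻¹ * dd i * cc) = cc⁻¹ * (dd i * dd i) * cc := by group
    _ = 1 := by rw [dd_sq h]; group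
lemma rr_comm {i j : ℕ} (hi : i < 7) (hj : j < 7) : rr i * rr j = rr j * rr i := by
  unfold rr
  calc cc⁻¹ * dd i * cc * (cc⁻¹ * dd j * cc) = cc⁻¹ * (dd i * dd j) * cc := by group
    _ = cc⁻¹ * (dd j * dd i) * cc := by rw [dd_comm hi hj]
    _ = _ := by group

lemma rr6 : rr 6 = zI := by
  unfold rr
  rw [dd6, mul_assoc, ← cc_z, inv_mul_cancel_left]

lemma DD_pw {x : Γ} (h : x ∈ DD7) : ∃ a : ℕ → Bool, x = pw dd a 7 :=
  mem_closure_pw (fun _ hi _ hj => dd_comm hi hj) (fun _ hi => dd_sq hi) h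

lemma RR_pw {x : Γ} (h : x ∈ RR7) : ∃ a : ℕ → Bool, x = pw rr a 7 := by
  obtain ⟨d, hd, rfl⟩ := mem_RR7.1 h
  obtain ⟨a, rfl⟩ := DD_pw hd
  refine ⟨a, ?_⟩
  have h1 := pw_conj cc⁻¹ dd a 7
  rw [inv_inv] at h1
  exact h1

lemma DD_pw_mem (a : ℕ → Bool) : pw dd a 7 ∈ DD7 := pw_mem (fun _ hi => dd_DD hi) a
lemma RR_pw_mem (a : ℕ → Bool) {n : ℕ} (hn : n ≤ 7) : pw rr a n ∈ RR7 := pw_mem (fun _ hi => rr_mem (by omega)) a

lemma RR_comm {x y : Γ} (hx : x ∈ RR7) (hy : y ∈ RR7) : x * y = y * x := by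
  obtain ⟨d, hd, rfl⟩ := mem_RR7.1 hx
  obtain ⟨e, he, rfl⟩ := mem_RR7.1 hy
  calc cc⁻¹ * d * cc * (cc⁻¹ * e * cc) = cc⁻¹ * (d * e) * cc := by group
    _ = cc⁻¹ * (e * d) * cc := by rw [EE_comm (DD7_le hd) (DD7_le he)]
    _ = _ := by group

lemma pw_z {g : ℕ → Γ} {n : ℕ} (h : ∀ i < n, g i * zI = zI * g i) (a : ℕ → Bool) : pw g a n * zI = zI * pw g a n := by
  induction n with
  | zero => show 1 * zI = zI * 1; rw [one_mul, mul_one]
  | succ n ih =>
    have ih := ih fun i hi => h i (by omega)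
    rw [pw_succ]
    split_ifs
    · rw [mul_assoc, h n (by omega), ← mul_assoc, ih, mul_assoc]
    · rw [mul_one, ih]

lemma cz_pw {g : ℕ → Γ} {x : Γ} (hx : x * zI = zI * x) {n : ℕ} (hz : ∀ i < n, g i * zI = zI * g i)
    (h : ∀ i < n, cz x (g i)) (a : ℕ → Bool) : cz x (pw g a n) := by
  induction n with
  | zero => exact cz_one x
  | succ n ih =>
    rw [pw_succ]
    apply cz_mul hx
    · exact pw_z (fun i hi => hz i (by omega)) a
    · exact ih (fun i hi => hz i (by omega)) (fun i hi => h i (by omega))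
    · split_ifs
      · exact h n (by omega)
      · exact cz_one x

lemma cz_gens {i j : ℕ} (hi : i < 7) (hj : j < 7) : cz (rr j) (dd i) := by
  by_cases h6 : i < 6
  · by_cases h7 : j < 6
    · have h := gram0
      simp only [List.all_eq_true, List.mem_range, Bool.or_eq_true] at h
      rcases h i h6 j h7 with h1 | h1
      · left
        have h2 := chk_spec h1
        rw [ev_append, rr_ev, ev_append, rr_ev] at h2
        exact h2
      · right
        have h2 := chk_spec h1
        rw [ev_append, rr_ev, ev_append, ev_append, rr_ev, ev_single] at h2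
        exact h2
    · have : j = 6 := by omega
      subst this
      left
      rw [rr6]
      exact (DD_z (dd_DD hi)).symm
  · have : i = 6 := by omega
    subst this
    left
    rw [dd6]
    exact RR_z (rr_mem hj)

lemma cz_DR {d r : Γ} (hd : d ∈ DD7) (hr : r ∈ RR7) : cz d r := by
  obtain ⟨a, rfl⟩ := DD_pw hd
  obtain ⟨b, rfl⟩ := RR_pw hr
  apply cz_pw (DD_z hd) (fun i hi => RR_z (rr_mem hi))
  intro j hj
  apply cz_symm
  exact cz_pw (RR_z (rr_mem hj)) (fun i hi => DD_z (dd_DD hi)) (fun i hi => cz_gens hi hj) a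

/-- the group of order 2 ^ 13 -/
def QQ : Subgroup Γ where
  carrier := {x | ∃ d ∈ DD7, ∃ r ∈ RR7, x = d * r}
  one_mem' := ⟨1, DD7.one_mem, 1, RR7.one_mem, (mul_one _).symm⟩
  mul_mem' := by
    rintro _ _ ⟨d, hd, r, hr, rfl⟩ ⟨d', hd', r', hr', rfl⟩
    rcases cz_DR hd' hr with h | h
    · refine ⟨d * d', DD7.mul_mem hd hd', r * r', RR7.mul_mem hr hr', ?_⟩
      calc d * r * (d' * r') = d * (r * d') * r' := by group
        _ = d * (d' * r) * r' := by rw [h]
        _ = _ := by group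
    · have h2 : r * d' = zI * (d' * r) := by
        rw [h, ← mul_assoc, zI_sq, one_mul]
      refine ⟨d * zI * d', DD7.mul_mem (DD7.mul_mem hd zI_DD) hd', r * r', RR7.mul_mem hr hr', ?_⟩
      calc d * r * (d' * r') = d * (r * d') * r' := by group
        _ = d * (zI * (d' * r)) * r' := by rw [h2]
        _ = _ := by group
  inv_mem' := by
    rintro _ ⟨d, hd, r, hr, rfl⟩
    rcases cz_DR hd hr with h | h
    · refine ⟨d⁻¹, DD7.inv_mem hd, r⁻¹, RR7.inv_mem hr, ?_⟩
      rw [h, mul_inv_rev]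
    · refine ⟨d⁻¹ * zI⁻¹, DD7.mul_mem (DD7.inv_mem hd) (DD7.inv_mem zI_DD), r⁻¹, RR7.inv_mem hr, ?_⟩
      rw [h, mul_inv_rev, mul_inv_rev]
      have h3 : r⁻¹ * zI⁻¹ = zI⁻¹ * r⁻¹ := by
        rw [← mul_inv_rev, ← mul_inv_rev, RR_z hr]
      calc d⁻¹ * r⁻¹ * zI⁻¹ = d⁻¹ * (r⁻¹ * zI⁻¹) := by group
        _ = _ := by rw [h3]; group

lemma mem_QQ {x : Γ} : x ∈ QQ ↔ ∃ d ∈ DD7, ∃ r ∈ RR7, x = d * r := Iff.rfl
lemma DD_QQ {d : Γ} (h : d ∈ DD7) : d ∈ QQ := ⟨d, h, 1, RR7.one_mem, (mul_one _).symm⟩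
lemma RR_QQ {r : Γ} (h : r ∈ RR7) : r ∈ QQ := ⟨1, DD7.one_mem, r, h, (one_mul _).symm⟩

lemma QQ_z {x : Γ} (h : x ∈ QQ) : x * zI = zI * x := by
  obtain ⟨d, hd, r, hr, rfl⟩ := h
  rw [mul_assoc, RR_z hr, ← mul_assoc, DD_z hd, mul_assoc]

/-- pairing -/
lemma pair_lemma {g : ℕ → Γ} {w : Γ} {j : ℕ} (hw : w * zI = zI * w) (hz : ∀ i < 7, g i * zI = zI * g i)
    (hg : ∀ i < 6, g i * w = w * g i * (if i = j then zI else 1)) (h6 : g 6 * w = w * g 6) (hj : j < 6) (a : ℕ → Bool)
    {n : ℕ} (hn : n ≤ 7) : pw g a n * w = w * pw g a n * (if j < n ∧ a j = true then zI else 1) := by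
  induction n with
  | zero =>
    rw [if_neg (by omega)]
    show 1 * w = w * 1 * 1
    group
  | succ n ih =>
    have ih := ih (by omega)
    have hpz := pw_z (n := n) (fun i hi => hz i (by omega)) a
    rw [pw_succ]
    by_cases hjn : n = j
    · subst hjn
      rw [if_neg (by omega), mul_one] at ih
      cases ha : a n
      · simp only [Bool.false_eq_true, if_false, mul_one, and_false]
        exact ih
      · simp only [if_true, and_true]
        rw [if_pos (Nat.lt_succ_self n)]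
        have h1 := hg n hj
        rw [if_pos rfl] at h1
        calc pw g a n * g n * w = pw g a n * (g n * w) := by group
          _ = (pw g a n * w) * g n * zI := by rw [h1]; group
          _ = _ := by rw [ih]; group
    · have h1 : g n * w = w * g n := by
        by_cases hn6 : n < 6
        · have := hg n hn6
          rwa [if_neg hjn, mul_one] at this
        · have : n = 6 := by omega
          subst this
          exact h6
      have e1 : (j < n + 1 ∧ a j = true) ↔ (j < n ∧ a j = true) := by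
        constructor
        · rintro ⟨h2, h3⟩
          exact ⟨by omega, h3⟩
        · rintro ⟨h2, h3⟩
          exact ⟨by omega, h3⟩
      rw [if_congr e1 rfl rfl]
      have hzc : (if j < n ∧ a j = true then zI else 1) * (if a n = true then g n else 1) =
          (if a n = true then g n else 1) * (if j < n ∧ a j = true then zI else 1) := by
        split_ifs
        · exact (hz n (by omega)).symm
        · rw [mul_one, one_mul]
        · rw [mul_one, one_mul]
        · rfl
      have h2 : (if a n = true then g n else 1) * w = w * (if a n = true then g n else 1) := by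
        split_ifs
        · exact h1
        · rw [mul_one, one_mul]
      rw [mul_assoc, h2, ← mul_assoc, ih, mul_assoc (w * pw g a n), hzc]
      group

lemma pw_top {g : ℕ → Γ} (h6 : g 6 = zI) {a : ℕ → Bool} (h : ∀ j < 6, a j = false) : pw g a 7 = 1 ∨ pw g a 7 = zI := by
  have h1 : pw g a 6 = 1 := by
    rw [pw_congr (b := fun _ => false) (fun i hi => h i hi), pw_false]
  rw [pw_succ, h1, one_mul]
  split_ifs
  · exact Or.inr h6
  · exact Or.inl rfl

lemma rt_lt {i : ℕ} (h : i < 6) : (∀ c ∈ RDT i, c < 7) ∧ (∀ c ∈ RET i, c < 7) := by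
  have h1 := rt_ok
  simp only [List.all_eq_true, List.mem_range, Bool.and_eq_true, Nat.blt_eq] at h1
  exact h1 i h

lemma ev_R (j : ℕ) : ev (cwi ++ (dwl (RDT j) ++ cw)) = cc⁻¹ * ev (dwl (RDT j)) * cc := by
  rw [ev_append, ev_append, cc_inv, ← mul_assoc]
  rfl

/-- an element of D that commutes with R -/
lemma DD_nondeg {a : ℕ → Bool} (h : ∀ r ∈ RR7, pw dd a 7 * r = r * pw dd a 7) : ∀ j < 6, a j = false := by
  intro j hj
  have hr : cc⁻¹ * ev (dwl (RDT j)) * cc ∈ RR7 := mem_RR7.2 ⟨_, dwl_mem (rt_lt hj).1, rfl⟩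
  have h1 := pair_lemma (g := dd) (w := cc⁻¹ * ev (dwl (RDT j)) * cc) (j := j) (RR_z hr)
    (fun i hi => DD_z (dd_DD hi)) (by
      intro i hi
      have h2 := gram1
      simp only [List.all_eq_true, List.mem_range] at h2
      have h3 := chk_spec (h2 i hi j hj)
      rw [ev_append, ev_R, ev_append, ev_R, ev_append] at h3
      have h3' : dd i * (cc⁻¹ * ev (dwl (RDT j)) * cc) = (cc⁻¹ * ev (dwl (RDT j)) * cc) * (dd i * ev (if i = j then [10] else [])) := h3
      rw [h3']
      split_ifs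
      · rw [ev_single]
        show _ * (dd i * zI) = _
        group
      · rw [ev_nil]
        group) (by rw [dd6]; exact (RR_z hr).symm) hj a (n := 7) le_rfl
  rw [h _ hr] at h1
  have h2 : (if j < 7 ∧ a j = true then zI else 1) = (1 : Γ) := by
    have := h1.symm
    rwa [mul_eq_left] at this
  by_contra hc
  rw [Bool.not_eq_false] at hc
  rw [if_pos ⟨by omega, hc⟩] at h2
  exact zI_ne h2

lemma RR_nondeg {a : ℕ → Bool} (h : ∀ d ∈ DD7, pw rr a 7 * d = d * pw rr a 7) : ∀ j < 6, a j = false := by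
  intro j hj
  have hr : ev (dwl (RET j)) ∈ DD7 := dwl_mem (rt_lt hj).2
  have h1 := pair_lemma (g := rr) (w := ev (dwl (RET j))) (j := j) (DD_z hr)
    (fun i hi => RR_z (rr_mem hi)) (by
      intro i hi
      have h2 := gram2
      simp only [List.all_eq_true, List.mem_range] at h2
      have h3 := chk_spec (h2 j hj i hi)
      rw [ev_append, rr_ev, ev_append, ev_append, rr_ev] at h3
      rw [h3]
      by_cases hij : i = j
      · rw [if_pos hij, if_pos hij.symm, ev_single]
        show _ * (rr i * zI) = _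
        group
      · rw [if_neg hij, if_neg (fun h => hij h.symm), ev_nil]
        group) (by rw [rr6]; exact (DD_z hr).symm) hj a (n := 7) le_rfl
  rw [h _ hr] at h1
  have h2 : (if j < 7 ∧ a j = true then zI else 1) = (1 : Γ) := by
    have := h1.symm
    rwa [mul_eq_left] at this
  by_contra hc
  rw [Bool.not_eq_false] at hc
  rw [if_pos ⟨by omega, hc⟩] at h2
  exact zI_ne h2

theorem xsQ : H90.XS QQ zI where
  mem := DD_QQ zI_DD
  ne_one := zI_ne
  sq := zI_sq
  central := fun q hq => QQ_z hq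
  comm := by
    rintro _ ⟨d, hd, r, hr, rfl⟩ _ ⟨d', hd', r', hr', rfl⟩
    have hx : (d * r) * zI = zI * (d * r) := QQ_z ⟨d, hd, r, hr, rfl⟩
    apply cz_mul hx (DD_z hd')
    · exact cz_symm (cz_mul (DD_z hd') (DD_z hd) (Or.inl (EE_comm (DD7_le hd') (DD7_le hd))) (cz_DR hd' hr))
    · exact cz_symm (cz_mul (RR_z hr') (DD_z hd) (cz_symm (cz_DR hd hr')) (Or.inl (RR_comm hr' hr)))
  nondeg := by
    rintro _ ⟨d, hd, r, hr, rfl⟩ h
    obtain ⟨a, rfl⟩ := DD_pw hd
    obtain ⟨b, rfl⟩ := RR_pw hr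
    have ha := DD_nondeg (a := a) (by
      intro s hs
      have h1 := h s (RR_QQ hs)
      rw [mul_assoc, RR_comm hr hs, ← mul_assoc, ← mul_assoc] at h1
      exact mul_right_cancel h1)
    have hd1 := pw_top (g := dd) dd6 ha
    have hb := RR_nondeg (a := b) (by
      intro s hs
      have h1 := h s (DD_QQ hs)
      rcases hd1 with h2 | h2
      · rw [h2, one_mul] at h1
        exact h1
      · rw [h2, mul_assoc, ← mul_assoc s zI, DD_z hs, mul_assoc] at h1
        exact mul_left_cancel h1)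
    have hr1 := pw_top (g := rr) rr6 hb
    rcases hd1 with h2 | h2 <;> rcases hr1 with h3 | h3 <;> rw [h2, h3]
    · left; rw [one_mul]
    · right; rw [one_mul]
    · right; rw [mul_one]
    · left; exact zI_sq

end Cfsg.Agent.HH.PM
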