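import Cfsg.Agent.Golay.Table
import Mathlib.Tactic
import Mathlib.Data.ZMod.Basic
import Mathlib.Data.Matrix.Mul

set_option autoImplicit false
set_option maxHeartbeats 1000000

/-!
Matrices over a prime field packed into one natural number, for kernel evaluation.
-/

namespace Cfsg.Agent.HH.PM

open Cfsg.Agent.Golay (fz fz_eq)

/-- digit base -/
abbrev BB : ℕ := 4294967296

lemma pow32 (k : ℕ) : 2 ^ (32 * k) = BB ^ k := by
  rw [pow_mul]; norm_num

/-- packed digits -/
def pk (n : ℕ) (d : ℕ → ℕ) : ℕ := ∑ k ∈ Finset.range n, d k * BB ^ k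

lemma pk_zero (d : ℕ → ℕ) : pk 0 d = 0 := rfl

lemma pk_succ (n : ℕ) (d : ℕ → ℕ) : pk (n + 1) d = pk n d + d n * BB ^ n := Finset.sum_range_succ _ _

lemma pk_add (a b : ℕ) (d : ℕ → ℕ) : pk (a + b) d = pk a d + BB ^ a * pk b (fun j => d (a + j)) := by
  unfold pk
  rw [Finset.sum_range_add, Finset.mul_sum]
  congr 1
  apply Finset.sum_congr rfl
  intro j _
  rw [pow_add]; ring

lemma pk_congr {n : ℕ} {d d' : ℕ → ℕ} (h : ∀ k < n, d k = d' k) : pk n d = pk n d' := by
  unfold pk
  apply Finset.sum_congr rfl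
  intro k hk
  rw [h k (Finset.mem_range.1 hk)]

lemma pk_lt {n : ℕ} {d : ℕ → ℕ} (h : ∀ k < n, d k < BB) : pk n d < BB ^ n := by
  induction n with
  | zero => simp [pk_zero]
  | succ n ih =>
    rw [pk_succ]
    have h1 := ih (fun k hk => h k (by omega))
    have h2 := h n (by omega)
    calc pk n d + d n * BB ^ n < BB ^ n + d n * BB ^ n := by omega
      _ = (d n + 1) * BB ^ n := by ring
      _ ≤ BB * BB ^ n := Nat.mul_le_mul_right _ h2
      _ = BB ^ (n + 1) := by ring

lemma pk_inj {n : ℕ} {d d' : ℕ → ℕ} (h : ∀ k < n, d k < BB) (h' : ∀ k < n, d' k < BB) (e : pk n d = pk n d') :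
    ∀ k < n, d k = d' k := by
  induction n with
  | zero => intro k hk; omega
  | succ n ih =>
    rw [pk_succ, pk_succ] at e
    have h1 := pk_lt (fun k hk => h k (by omega : k < n + 1))
    have h2 := pk_lt (fun k hk => h' k (by omega : k < n + 1))
    have l1 : pk n d < BB ^ n := pk_lt (fun k hk => h k (by omega))
    have l2 : pk n d' < BB ^ n := pk_lt (fun k hk => h' k (by omega))
    have hp : 0 < BB ^ n := by positivity
    have e1 : d n = d' n := by
      have := congrArg (· / BB ^ n) e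
      simp only [Nat.add_mul_div_right _ _ hp, Nat.div_eq_of_lt l1, Nat.div_eq_of_lt l2, zero_add] at this
      exact this
    have e2 : pk n d = pk n d' := by
      rw [e1] at e; omega
    intro k hk
    rcases Nat.lt_succ_iff_lt_or_eq.1 hk with h3 | h3
    · exact ih (fun k hk => h k (by omega)) (fun k hk => h' k (by omega)) e2 k h3
    · rw [h3, e1]

lemma pk_lin (n : ℕ) (a : ℕ) (d e : ℕ → ℕ) : a * pk n d + pk n e = pk n (fun k => a * d k + e k) := by
  unfold pk
  rw [Finset.mul_sum, ← Finset.sum_add_distrib]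
  apply Finset.sum_congr rfl
  intro k _
  ring

/-- extraction of a block -/
lemma pk_block {N : ℕ} {d : ℕ → ℕ} (h : ∀ k < N, d k < BB) {a b : ℕ} (hab : a + b ≤ N) :
    pk N d / BB ^ a % BB ^ b = pk b (fun j => d (a + j)) := by
  obtain ⟨c, rfl⟩ := Nat.exists_eq_add_of_le hab
  rw [pk_add, pk_add a b]
  have l1 : pk a d < BB ^ a := pk_lt (fun k hk => h k (by omega))
  have l2 : pk b (fun j => d (a + j)) < BB ^ b := pk_lt (fun k hk => h _ (by omega))
  have hp : 0 < BB ^ a := by positivity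
  rw [pow_add, add_assoc, mul_assoc, ← mul_add, Nat.add_mul_div_left _ _ hp, Nat.div_eq_of_lt l1, zero_add,
    Nat.add_mul_mod_self_left, Nat.mod_eq_of_lt l2]

lemma testBit_pk {n : ℕ} {d : ℕ → ℕ} (h : ∀ k < n, d k < BB) (k t : ℕ) (ht : t < 32) :
    (pk n d).testBit (32 * k + t) = (decide (k < n) && (d k).testBit t) := by
  induction n with
  | zero => simp [pk_zero]
  | succ n ih =>
    have l1 : pk n d < BB ^ n := pk_lt (fun k hk => h k (by omega))
    have hB : BB ^ n = 2 ^ (32 * n) := (pow32 n).symm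
    rw [pk_succ, add_comm, mul_comm, hB]
    rw [hB] at l1
    rw [Nat.testBit_two_pow_mul_add _ l1]
    split_ifs with h1
    · rw [ih (fun k hk => h k (by omega))]
      congr 1
      have : k < n ∨ k = n := by omega
      by_cases h2 : k < n
      · simp [h2]; omega
      · omega
    · have h2 : n ≤ k := by
        by_contra h3
        apply h1; omega
      rcases Nat.eq_or_lt_of_le h2 with rfl | h3
      · have : 32 * n + t - 32 * n = t := by omega
        rw [this]; simp
      · have h4 : (d n).testBit (32 * k + t - 32 * n) = false := by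
          apply Nat.testBit_lt_two_pow
          refine lt_of_lt_of_le (h n (by omega)) ?_
          calc BB = 2 ^ 32 := rfl
            _ ≤ _ := Nat.pow_le_pow_right (by norm_num) (by omega)
        rw [h4]
        simp; omega

lemma pk_shift_land {n : ℕ} {x : ℕ → ℕ} (h : ∀ k < n, x k < BB) :
    (pk n x >>> 16) &&& pk n (fun _ => 65535) = pk n (fun k => x k / 65536) := by
  apply Nat.eq_of_testBit_eq
  intro p
  obtain ⟨k, t, ht, rfl⟩ : ∃ k t, t < 32 ∧ p = 32 * k + t := ⟨p / 32, p % 32, Nat.mod_lt _ (by norm_num), by omega⟩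
  have h1 : ∀ k < n, x k / 65536 < BB := fun k hk => lt_of_le_of_lt (Nat.div_le_self _ _) (h k hk)
  rw [Nat.testBit_and, Nat.testBit_shiftRight, testBit_pk (fun _ _ => by norm_num) _ _ ht, testBit_pk h1 _ _ ht]
  have h2 : (65535 : ℕ).testBit t = decide (t < 16) := by
    have : (65535 : ℕ) = 2 ^ 16 - 1 := rfl
    rw [this, Nat.testBit_two_pow_sub_one]
  rw [h2]
  by_cases h3 : t < 16
  · rw [show 16 + (32 * k + t) = 32 * k + (16 + t) by ring, testBit_pk h _ _ (by omega)]
    have h4 : (x k / 65536).testBit t = (x k).testBit (16 + t) := by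
      rw [show (65536 : ℕ) = 2 ^ 16 from rfl, Nat.testBit_div_two_pow]
      congr 1; ring
    rw [h4]
    by_cases h5 : k < n
    · simp [h3, h5]
    · simp [h5]
  · simp only [h3, decide_false, Bool.and_false]
    by_cases h5 : k < n
    · have h4 : (x k / 65536).testBit t = false := by
        apply Nat.testBit_lt_two_pow
        calc x k / 65536 < 2 ^ 16 := by
              have := h k h5
              apply Nat.div_lt_of_lt_mul
              exact this
          _ ≤ 2 ^ t := Nat.pow_le_pow_right (by norm_num) (by omega)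
      rw [h4]; simp
    · simp [h5]

/-- the constant digit vector -/
lemma pk_const (n c : ℕ) : pk n (fun _ => c) = c * ((BB ^ n - 1) / (BB - 1)) := by
  have h : pk n (fun _ => 1) * (BB - 1) = BB ^ n - 1 := by
    induction n with
    | zero => simp [pk_zero]
    | succ n ih =>
      rw [pk_succ, add_mul, ih, one_mul]
      have hp : 0 < BB ^ n := by positivity
      have e1 : BB ^ (n + 1) = BB * BB ^ n := by ring
      have e2 : BB ^ n * (BB - 1) = BB * BB ^ n - BB ^ n := by
        rw [Nat.mul_sub, mul_one, mul_comm]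
      rw [e1, e2]
      have : BB ^ n ≤ BB * BB ^ n := Nat.le_mul_of_pos_left _ (by norm_num)
      omega
  have h2 : pk n (fun _ => 1) = (BB ^ n - 1) / (BB - 1) := by
    rw [← h, Nat.mul_div_cancel _ (by norm_num)]
  rw [← h2]
  have := pk_lin n c (fun _ => 1) (fun _ => 0)
  have h0 : pk n (fun _ => 0) = 0 := by unfold pk; simp
  rw [h0, add_zero] at this
  rw [this]
  apply pk_congr; intro k _; ring

/-! ### kernel functions -/

/-- linear combination of rows -/
def lin (S M R : ℕ) (l : List (ℕ × ℕ)) : ℕ :=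
  List.rec (motive := fun _ => ℕ) 0
    (fun p _ ih => Nat.add (Nat.mul p.2 (Nat.land (Nat.shiftRight S (Nat.mul R p.1)) M)) ih) l

/-- assembling the rows -/
def asm (S M R : ℕ) (L : List (List (ℕ × ℕ))) : ℕ :=
  List.rec (motive := fun _ => ℕ) 0 (fun l _ ih => Nat.add (lin S M R l) (Nat.shiftLeft ih R)) L

/-- reduction of all digits -/
def red (p c MQ X : ℕ) : ℕ := Nat.sub X (Nat.mul p (Nat.land (Nat.shiftRight (Nat.mul X c) 16) MQ))

/-- one step -/
def step (p c n : ℕ) (L : List (List (ℕ × ℕ))) (S : ℕ) : ℕ :=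
  fz (Nat.mul 32 n) fun R => fz (Nat.sub (Nat.pow 2 R) 1) fun M =>
  fz (Nat.mul 65535 (Nat.div (Nat.sub (Nat.pow 2 (Nat.mul R n)) 1) 4294967295)) fun MQ =>
  fz S fun S' => fz (asm S' M R L) fun X => red p c MQ X

lemma lin_cons (S M R : ℕ) (q : ℕ × ℕ) (l : List (ℕ × ℕ)) :
    lin S M R (q :: l) = q.2 * ((S >>> (R * q.1)) &&& M) + lin S M R l := rfl

lemma asm_cons (S M R : ℕ) (l : List (ℕ × ℕ)) (L : List (List (ℕ × ℕ))) :
    asm S M R (l :: L) = lin S M R l + (asm S M R L) <<< R := rfl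

/-- the digits of a linear combination of rows -/
def ew (n : ℕ) (l : List (ℕ × ℕ)) (d : ℕ → ℕ) (j : ℕ) : ℕ := (l.map (fun q => q.2 * d (n * q.1 + j))).sum

lemma ew_cons (n : ℕ) (q : ℕ × ℕ) (l : List (ℕ × ℕ)) (d : ℕ → ℕ) (j : ℕ) :
    ew n (q :: l) d j = q.2 * d (n * q.1 + j) + ew n l d j := by
  unfold ew; rw [List.map_cons, List.sum_cons]

lemma lin_pk {n : ℕ} {d : ℕ → ℕ} (hd : ∀ k < n * n, d k < BB) :
    ∀ l : List (ℕ × ℕ), (∀ q ∈ l, q.1 < n) → lin (pk (n * n) d) (2 ^ (32 * n) - 1) (32 * n) l = pk n (ew n l d) := by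
  intro l
  induction l with
  | nil =>
    intro _
    change 0 = _
    unfold pk ew; simp
  | cons q l ih =>
    intro hl
    rw [lin_cons, ih (fun q hq => hl q (List.mem_cons_of_mem _ hq)), Nat.and_two_pow_sub_one_eq_mod,
      Nat.shiftRight_eq_div_pow]
    have hq : q.1 < n := hl q List.mem_cons_self
    have e1 : 2 ^ (32 * n * q.1) = BB ^ (n * q.1) := by
      rw [mul_assoc, pow32]
    have e2 : 2 ^ (32 * n) = BB ^ n := pow32 n
    rw [e1, e2, pk_block hd (by nlinarith), pk_lin]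
    apply pk_congr
    intro k _
    rw [ew_cons]

lemma asm_pk {n : ℕ} (hn : 0 < n) {d : ℕ → ℕ} (hd : ∀ k < n * n, d k < BB) :
    ∀ L : List (List (ℕ × ℕ)), (∀ l ∈ L, ∀ q ∈ l, q.1 < n) →
      asm (pk (n * n) d) (2 ^ (32 * n) - 1) (32 * n) L = pk (n * L.length) (fun k => ew n (L.getD (k / n) []) d (k % n)) := by
  intro L
  induction L with
  | nil => intro _; rfl
  | cons l L ih =>
    intro hL
    rw [asm_cons, ih (fun l hl => hL l (List.mem_cons_of_mem _ hl)), lin_pk hd _ (hL l List.mem_cons_self),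
      List.length_cons, Nat.shiftLeft_eq]
    have e2 : 2 ^ (32 * n) = BB ^ n := pow32 n
    rw [e2, show n * (L.length + 1) = n + n * L.length by ring, pk_add, mul_comm (pk _ _)]
    congr 1
    · apply pk_congr
      intro k hk
      rw [Nat.div_eq_of_lt hk, Nat.mod_eq_of_lt hk]
      rfl
    · congr 1
      apply pk_congr
      intro k _
      rw [Nat.add_div_left _ hn, Nat.add_mod_left]
      rfl

lemma red_pk {p c N K : ℕ} {e : ℕ → ℕ} (he : ∀ k < N, e k < K) (hK : K * c ≤ BB) (hc0 : 0 < c)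
    (hc : ∀ x < K, x * c / 65536 = x / p) :
    red p c (65535 * ((BB ^ N - 1) / (BB - 1))) (pk N e) = pk N (fun k => e k % p) := by
  unfold red
  change pk N e - p * (((pk N e * c) >>> 16) &&& _) = _
  have h1 : pk N e * c = pk N (fun k => e k * c) := by
    unfold pk
    rw [Finset.sum_mul]
    apply Finset.sum_congr rfl
    intro k _
    ring
  have h2 : ∀ k < N, e k * c < BB := by
    intro k hk
    refine lt_of_lt_of_le ?_ hK
    exact Nat.mul_lt_mul_of_pos_right (he k hk) hc0
  rw [h1, ← pk_const, pk_shift_land h2]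
  have h3 : pk N (fun k => e k * c / 65536) = pk N (fun k => e k / p) := pk_congr (fun k hk => hc _ (he k hk))
  rw [h3]
  have h4 := pk_lin N p (fun k => e k / p) (fun k => e k % p)
  have h5 : pk N (fun k => p * (e k / p) + e k % p) = pk N e := pk_congr (fun k _ => Nat.div_add_mod _ _)
  rw [h5] at h4
  omega

/-! ### matrices -/

section

variable (n p : ℕ) [NeZero n] [NeZero p]

/-- digits of a matrix -/
def dM (A : Matrix (Fin n) (Fin n) (ZMod p)) (k : ℕ) : ℕ := (A (Fin.ofNat n (k / n)) (Fin.ofNat n (k % n))).val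

/-- the packed matrix -/
def enc (A : Matrix (Fin n) (Fin n) (ZMod p)) : ℕ := pk (n * n) (dM n p A)

/-- a sparse matrix -/
def spm (L : List (List (ℕ × ℕ))) : Matrix (Fin n) (Fin n) (ZMod p) := fun i j =>
  ((L.getD i.val []).map (fun q => if q.1 = j.val then (q.2 : ZMod p) else 0)).sum

/-- validity of a sparse matrix -/
def valid (w : ℕ) (L : List (List (ℕ × ℕ))) : Bool :=
  L.length == n && L.all (fun l => Nat.ble l.length w && l.all (fun q => Nat.blt q.1 n && Nat.blt q.2 p))

variable {n p}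

lemma dM_mk (A : Matrix (Fin n) (Fin n) (ZMod p)) (i j : Fin n) : dM n p A (n * i.val + j.val) = (A i j).val := by
  have hn : 0 < n := Nat.pos_of_ne_zero (NeZero.ne n)
  unfold dM
  have e1 : (n * i.val + j.val) / n = i.val := by
    rw [Nat.mul_add_div hn, Nat.div_eq_of_lt j.2, add_zero]
  have e2 : (n * i.val + j.val) % n = j.val := by
    rw [Nat.mul_add_mod, Nat.mod_eq_of_lt j.2]
  rw [e1, e2]
  have e3 : ∀ i : Fin n, Fin.ofNat n i.val = i := fun i => Fin.ext (Nat.mod_eq_of_lt i.2)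
  rw [e3, e3]

lemma dM_lt (A : Matrix (Fin n) (Fin n) (ZMod p)) (k : ℕ) : dM n p A k < p := ZMod.val_lt _

lemma enc_inj (hp : p ≤ BB) {A A' : Matrix (Fin n) (Fin n) (ZMod p)} (h : enc n p A = enc n p A') : A = A' := by
  have h1 := pk_inj (fun k _ => lt_of_lt_of_le (dM_lt A k) hp) (fun k _ => lt_of_lt_of_le (dM_lt A' k) hp) h
  ext i j
  have h2 := h1 (n * i.val + j.val) (by
    have := i.2; have := j.2
    nlinarith)
  rw [dM_mk, dM_mk] at h2
  exact ZMod.val_injective _ h2

lemma ew_cast (l : List (ℕ × ℕ)) (A : Matrix (Fin n) (Fin n) (ZMod p)) (j : Fin n) (hl : ∀ q ∈ l, q.1 < n) :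
    ((ew n l (dM n p A) j.val : ℕ) : ZMod p) =
      ∑ c : Fin n, (l.map (fun q => if q.1 = c.val then (q.2 : ZMod p) else 0)).sum * A c j := by
  induction l with
  | nil => simp [ew]
  | cons q l ih =>
    rw [ew_cons, Nat.cast_add, ih (fun q hq => hl q (List.mem_cons_of_mem _ hq)), Nat.cast_mul]
    have hq : q.1 < n := hl q List.mem_cons_self
    have e1 : dM n p A (n * q.1 + j.val) = (A ⟨q.1, hq⟩ j).val := dM_mk A ⟨q.1, hq⟩ j
    rw [e1, ZMod.natCast_zmod_val]
    simp only [List.map_cons, List.sum_cons, add_mul]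
    rw [Finset.sum_add_distrib]
    congr 1
    rw [Finset.sum_eq_single (⟨q.1, hq⟩ : Fin n)]
    · rw [if_pos rfl]
    · intro c _ hc
      rw [if_neg, zero_mul]
      intro h; apply hc; exact Fin.ext h.symm
    · intro h; exact absurd (Finset.mem_univ _) h

lemma ew_lt {w : ℕ} (d : ℕ → ℕ) (hd : ∀ k, d k < p) (j : ℕ) :
    ∀ l : List (ℕ × ℕ), l.length ≤ w → (∀ q ∈ l, q.2 < p) → ew n l d j ≤ w * ((p - 1) * (p - 1)) := by
  intro l
  induction l generalizing w with
  | nil => intro _ _; simp [ew]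
  | cons q l ih =>
    intro hw hl
    rw [ew_cons]
    rw [List.length_cons] at hw
    have h1 := ih (w := w - 1) (by omega) (fun q hq => hl q (List.mem_cons_of_mem _ hq))
    have h2 : q.2 * d (n * q.1 + j) ≤ (p - 1) * (p - 1) := by
      have a1 := hl q List.mem_cons_self
      have a2 := hd (n * q.1 + j)
      exact Nat.mul_le_mul (by omega) (by omega)
    obtain ⟨w', rfl⟩ : ∃ w', w = w' + 1 := ⟨w - 1, by omega⟩
    rw [Nat.add_sub_cancel] at h1
    calc _ ≤ (p - 1) * (p - 1) + w' * ((p - 1) * (p - 1)) := Nat.add_le_add h2 h1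
      _ = _ := by ring

theorem step_enc {c w K : ℕ} (hK : w * ((p - 1) * (p - 1)) < K) (hKc : K * c ≤ BB) (hc0 : 0 < c)
    (hc : ∀ x < K, x * c / 65536 = x / p) (hp : p ≤ BB) {L : List (List (ℕ × ℕ))} (hL : valid n p w L = true)
    (A : Matrix (Fin n) (Fin n) (ZMod p)) : step p c n L (enc n p A) = enc n p (spm n p L * A) := by
  have hn : 0 < n := Nat.pos_of_ne_zero (NeZero.ne n)
  unfold valid at hL
  simp only [Bool.and_eq_true, beq_iff_eq, List.all_eq_true] at hL
  obtain ⟨hlen, hL⟩ := hL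
  have hq1 : ∀ l ∈ L, ∀ q ∈ l, q.1 < n := fun l hl q hq => by
    have h1 := ((hL l hl).2 q hq).1
    rw [Nat.blt_eq] at h1
    exact h1
  have hq2 : ∀ l ∈ L, ∀ q ∈ l, q.2 < p := fun l hl q hq => by
    have h1 := ((hL l hl).2 q hq).2
    rw [Nat.blt_eq] at h1
    exact h1
  have hw : ∀ l ∈ L, l.length ≤ w := fun l hl => by
    have h1 := (hL l hl).1
    rw [Nat.ble_eq] at h1
    exact h1
  unfold step
  simp only [fz_eq]
  change red p c (65535 * ((2 ^ (32 * n * n) - 1) / 4294967295)) (asm (enc n p A) (2 ^ (32 * n) - 1) (32 * n) L) = _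
  unfold enc
  rw [asm_pk hn (fun k _ => lt_of_lt_of_le (dM_lt A k) hp) L hq1, hlen]
  have e1 : 2 ^ (32 * n * n) = BB ^ (n * n) := by rw [mul_assoc, pow32]
  rw [e1]
  have hgd : ∀ i < n, (L.getD i []) ∈ L := by
    intro i hi
    rw [List.getD_eq_getElem _ _ (by omega)]
    exact List.getElem_mem _
  have hdiv : ∀ k < n * n, k / n < n := fun k hk => Nat.div_lt_of_lt_mul hk
  have hred := red_pk (p := p) (c := c) (N := n * n) (K := K) (e := fun k => ew n (L.getD (k / n) []) (dM n p A) (k % n))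
    (fun k hk => lt_of_le_of_lt (ew_lt _ (dM_lt A) _ _ (hw _ (hgd _ (hdiv k hk))) (hq2 _ (hgd _ (hdiv k hk)))) hK) hKc hc0 hc
  refine hred.trans ?_
  apply pk_congr
  intro k hk
  have hkn : k % n < n := Nat.mod_lt _ hn
  have h1 := ew_cast (L.getD (k / n) []) A ⟨k % n, hkn⟩ (hq1 _ (hgd _ (hdiv k hk)))
  have h2 : dM n p (spm n p L * A) k = ((spm n p L * A) ⟨k / n, hdiv k hk⟩ ⟨k % n, hkn⟩).val := by
    rw [← dM_mk]
    congr 1
    exact (Nat.div_add_mod _ _).symm
  rw [h2, Matrix.mul_apply]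
  have h3 : ∑ c : Fin n, spm n p L ⟨k / n, hdiv k hk⟩ c * A c ⟨k % n, hkn⟩ = ((ew n (L.getD (k / n) []) (dM n p A) (k % n) : ℕ) : ZMod p) :=
    h1.symm
  rw [h3, ZMod.val_natCast]

/-- evaluation of a word in given sparse matrices -/
def evw (p c n : ℕ) (T : List (List (List (ℕ × ℕ)))) (S : ℕ) (w : List ℕ) : ℕ :=
  List.rec (motive := fun _ => ℕ) S (fun i _ ih => step p c n (T.getD i []) ih) w

/-- the packed identity -/
def one (n : ℕ) : ℕ := (2 ^ (32 * (n + 1) * n) - 1) / (2 ^ (32 * (n + 1)) - 1)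

lemma geom_aux (q n : ℕ) (hq : 1 < q) : (q ^ n - 1) / (q - 1) = ∑ i ∈ Finset.range n, q ^ i := by
  have h : (∑ i ∈ Finset.range n, q ^ i) * (q - 1) = q ^ n - 1 := by
    have := Nat.geomSum_eq hq n
    rw [this]
    apply Nat.div_mul_cancel
    simpa using Nat.sub_dvd_pow_sub_pow q 1 n
  rw [← h, Nat.mul_div_cancel _ (by omega)]

lemma pk_mul (a b : ℕ) (d : ℕ → ℕ) : pk (b * a) d = ∑ i ∈ Finset.range a, BB ^ (b * i) * pk b (fun j => d (b * i + j)) := by
  induction a with
  | zero => simp [pk_zero]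
  | succ a ih => rw [Nat.mul_succ, pk_add, ih, Finset.sum_range_succ]

lemma one_eq_a (hp1 : 1 < p) (i : ℕ) (hi' : i < n) : pk n (fun j => dM n p 1 (n * i + j)) = BB ^ i := by
  have d1 : dM n p 1 (n * i + i) = 1 := by
    have h9 := dM_mk (n := n) (p := p) 1 ⟨i, hi'⟩ ⟨i, hi'⟩
    rw [Matrix.one_apply_eq] at h9
    haveI : Fact (1 < p) := ⟨hp1⟩
    exact h9.trans (ZMod.val_one p)
  have d2 : ∀ j, j < n → j ≠ i → dM n p 1 (n * i + j) = 0 := by
    intro j hj hji
    have h9 := dM_mk (n := n) (p := p) 1 ⟨i, hi'⟩ ⟨j, hj⟩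
    rw [Matrix.one_apply_ne, ZMod.val_zero] at h9
    · exact h9
    · intro h; apply hji; exact (congrArg Fin.val h).symm
  unfold pk
  rw [Finset.sum_eq_single i]
  · change dM n p 1 (n * i + i) * _ = _
    rw [d1, one_mul]
  · intro j hj hji
    change dM n p 1 (n * i + j) * _ = _
    rw [d2 j (Finset.mem_range.1 hj) hji, zero_mul]
  · intro h; exact absurd (Finset.mem_range.2 hi') h

lemma one_eq (hp1 : 1 < p) : one n = enc n p 1 := by
  unfold one
  have e3 : (2 : ℕ) ^ (32 * (n + 1)) = BB ^ (n + 1) := pow32 _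
  have e1 : 2 ^ (32 * (n + 1) * n) = (BB ^ (n + 1)) ^ n := by rw [pow_mul, e3]
  have e4 : 1 < BB ^ (n + 1) := by
    rw [← e3]; exact Nat.one_lt_two_pow (by omega)
  rw [e1, e3, geom_aux _ _ e4]
  unfold enc
  rw [pk_mul]
  apply Finset.sum_congr rfl
  intro i hi
  rw [one_eq_a hp1 i (Finset.mem_range.1 hi), ← pow_add, ← pow_mul, show n * i + i = (n + 1) * i by ring]

/-- the product of a word -/
def wpr (n p : ℕ) [NeZero n] [NeZero p] (T : List (List (List (ℕ × ℕ)))) (w : List ℕ) : Matrix (Fin n) (Fin n) (ZMod p) :=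
  (w.map (fun i => spm n p (T.getD i []))).prod

theorem evw_eq {c w K : ℕ} (hK : w * ((p - 1) * (p - 1)) < K) (hKc : K * c ≤ BB) (hc0 : 0 < c)
    (hc : ∀ x < K, x * c / 65536 = x / p) (hp : p ≤ BB) (hp1 : 1 < p) {T : List (List (List (ℕ × ℕ)))}
    (hT : T.all (valid n p w) = true) (ws : List ℕ) (hws : ws.all (fun i => Nat.blt i T.length) = true) :
    evw p c n T (one n) ws = enc n p (wpr n p T ws) := by
  induction ws with
  | nil => exact one_eq hp1
  | cons i ws ih =>
    rw [List.all_cons, Bool.and_eq_true, Nat.blt_eq] at hws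
    have h1 := ih hws.2
    change step p c n (T.getD i []) (evw p c n T (one n) ws) = _
    rw [h1, step_enc hK hKc hc0 hc hp]
    · unfold wpr
      rw [List.map_cons, List.prod_cons]
    · rw [List.all_eq_true] at hT
      rw [List.getD_eq_getElem _ _ hws.1]
      exact hT _ (List.getElem_mem _)

/-- check that words are trivial -/
def chkW (p c n : ℕ) (T : List (List (List (ℕ × ℕ)))) (W : List (List ℕ)) : Bool :=
  fz (one n) fun o => W.all fun w => Nat.beq (evw p c n T o w) o

theorem chkW_spec {c w K : ℕ} (hK : w * ((p - 1) * (p - 1)) < K) (hKc : K * c ≤ BB) (hc0 : 0 < c)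
    (hc : ∀ x < K, x * c / 65536 = x / p) (hp : p ≤ BB) (hp1 : 1 < p) {T : List (List (List (ℕ × ℕ)))}
    (hT : T.all (valid n p w) = true) {W : List (List ℕ)} (hW : chkW p c n T W = true) {ws : List ℕ} (hm : ws ∈ W)
    (hws : ws.all (fun i => Nat.blt i T.length) = true) : wpr n p T ws = 1 := by
  unfold chkW at hW
  rw [fz_eq, List.all_eq_true] at hW
  have h1 := hW ws hm
  have h1 := Nat.eq_of_beq_eq_true h1
  rw [evw_eq hK hKc hc0 hc hp hp1 hT ws hws] at h1
  have h2 : one n = enc n p (1 : Matrix (Fin n) (Fin n) (ZMod p)) := one_eq hp1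
  rw [h2] at h1
  exact enc_inj hp h1

end

end Cfsg.Agent.HH.PM
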