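import Mathlib
import Cfsg.Agent.HH.QuadA
import Cfsg.Agent.Extra.Basic

set_option autoImplicit false

/-!
A commutator subgroup acting quadratically in odd characteristic.
-/

namespace Cfsg.Agent.HH

open Subgroup
open scoped commutatorElement

universe u v

/-- simultaneous sign vectors for commuting involutions -/
theorem exists_sign_vector {K : Type*} [Field K] (h2 : (2 : K) ≠ 0) {V : Type v} [AddCommGroup V] [Module K V]
    {V' : Type*} [AddCommGroup V'] [Module K V'] (f : V →ₗ[K] V') (D : Finset (Module.End K V)) :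
    ∀ (S : Submodule K V), (∀ d ∈ D, ∀ v ∈ S, d v ∈ S) → (∀ d ∈ D, d * d = 1) →
      (∀ d ∈ D, ∀ e ∈ D, d * e = e * d) → (∃ v ∈ S, f v ≠ 0) →
      ∃ v ∈ S, f v ≠ 0 ∧ ∀ d ∈ D, d v = v ∨ d v = -v := by
  classical
  induction D using Finset.induction_on with
  | empty => rintro S - - - ⟨v, hv, hfv⟩; exact ⟨v, hv, hfv, fun d hd => absurd hd (Finset.notMem_empty d)⟩
  | insert d D hd ih =>
    intro S hinv hsq hcomm hex
    obtain ⟨v, hv, hfv, hsv⟩ := ih S (fun e he => hinv e (Finset.mem_insert_of_mem he))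
      (fun e he => hsq e (Finset.mem_insert_of_mem he))
      (fun e he e' he' => hcomm e (Finset.mem_insert_of_mem he) e' (Finset.mem_insert_of_mem he')) hex
    have hdd := hsq d (Finset.mem_insert_self d D)
    have hddv : d (d v) = v := by
      have := congrArg (fun T : Module.End K V => T v) hdd
      exact this
    have hdv : d v ∈ S := hinv d (Finset.mem_insert_self d D) v hv
    have hsgn : ∀ e ∈ D, e (d v) = d v ∨ e (d v) = -(d v) := by
      intro e he
      have h1 : e (d v) = d (e v) := by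
        have := congrArg (fun T : Module.End K V => T v)
          (hcomm e (Finset.mem_insert_of_mem he) d (Finset.mem_insert_self d D))
        exact this
      rw [h1]
      rcases hsv e he with h | h
      · left; rw [h]
      · right; rw [h, map_neg]
    have hsame : ∀ e ∈ D, (e v = v ∧ e (d v) = d v) ∨ (e v = -v ∧ e (d v) = -(d v)) := by
      intro e he
      have h1 : e (d v) = d (e v) := by
        have := congrArg (fun T : Module.End K V => T v)
          (hcomm e (Finset.mem_insert_of_mem he) d (Finset.mem_insert_self d D))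
        exact this
      rcases hsv e he with h | h
      · left; exact ⟨h, by rw [h1, h]⟩
      · right; exact ⟨h, by rw [h1, h, map_neg]⟩
    by_cases hplus : f (v + d v) = 0
    · refine ⟨v - d v, sub_mem hv hdv, ?_, ?_⟩
      · intro h0
        apply hfv
        have h3 : (2 : K) • f v = 0 := by
          rw [two_smul]
          have h4 : f v + f v = f (v + d v) + f (v - d v) := by rw [map_add, map_sub]; abel
          rw [h4, hplus, h0, add_zero]
        exact (smul_eq_zero.1 h3).resolve_left h2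
      · intro e he
        rcases Finset.mem_insert.1 he with rfl | he
        · right; rw [map_sub, hddv]; abel
        · rcases hsame e he with ⟨h1, h3⟩ | ⟨h1, h3⟩
          · left; rw [map_sub, h1, h3]
          · right; rw [map_sub, h1, h3]; abel
    · refine ⟨v + d v, add_mem hv hdv, hplus, ?_⟩
      intro e he
      rcases Finset.mem_insert.1 he with rfl | he
      · left; rw [map_add, hddv]; abel
      · rcases hsame e he with ⟨h1, h3⟩ | ⟨h1, h3⟩
        · left; rw [map_add, h1, h3]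
        · right; rw [map_add, h1, h3]; abel

/-- The characters of a group centralized by `a` on which `a` acts nontrivially are stable. -/
theorem weight_stable {X : Type u} [Group X] [Finite X] {K : Type*} [Field K] {V : Type v} [AddCommGroup V] [Module K V]
    (ρ : Representation K X V) {a h : X} {D : Subgroup X} (hD : ∀ d ∈ D, h * d * h⁻¹ ∈ D)
    (hD' : ∀ d ∈ D, h⁻¹ * d * h ∈ D)
    (had : ∀ d ∈ D, a * d = d * a) (hodd : Odd (orderOf h)) {ε : X → K}
    {v : V} (hv : ∀ d ∈ D, ρ d v = ε d • v) (hav : (ρ a - 1) v ≠ 0)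
    (hrel : (ρ a - 1) ((ρ h - 1) ((ρ h - 1) v)) = 0) : ∀ d ∈ D, ε (h⁻¹ * d * h) = ε d := by
  classical
  by_contra hcon
  push Not at hcon
  obtain ⟨d, hd, hne⟩ := hcon
  have hv0 : v ≠ 0 := by
    rintro rfl
    exact hav (map_zero _)
  have hinj : ∀ c c' : K, c • v = c' • v → c = c' := by
    intro c c' hc
    by_contra hne
    have : (c - c') • v = 0 := by rw [sub_smul, hc, sub_self]
    rcases smul_eq_zero.1 this with h1 | h1
    · exact hne (sub_eq_zero.1 h1)
    · exact hv0 h1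
  -- weights of h v and h² v
  have hw1 : ∀ d ∈ D, ρ d (ρ h v) = ε (h⁻¹ * d * h) • ρ h v := by
    intro d hd
    have h1 : ρ d (ρ h v) = ρ h (ρ (h⁻¹ * d * h) v) := by
      rw [← rho_mul, ← rho_mul]; congr 2; group
    rw [h1, hv _ (hD' d hd), map_smul]
  have hw2 : ∀ d ∈ D, ρ d (ρ h (ρ h v)) = ε (h⁻¹ * (h⁻¹ * d * h) * h) • ρ h (ρ h v) := by
    intro d hd
    have h1 : ρ d (ρ h (ρ h v)) = ρ h (ρ (h⁻¹ * d * h) (ρ h v)) := by
      rw [← rho_mul, ← rho_mul, ← rho_mul, ← rho_mul]; congr 2; group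
    rw [h1, hw1 _ (hD' d hd), map_smul]
  -- the weights differ for h²
  obtain ⟨d', hd', hne'⟩ : ∃ d' ∈ D, ε (h⁻¹ * (h⁻¹ * d' * h) * h) ≠ ε d' := by
    by_contra hcon
    push Not at hcon
    apply hne
    -- ε is invariant under conjugation by h^2, hence by h
    have h3 : ∀ (k : ℕ) (d : X), d ∈ D → (h ^ (2 * k))⁻¹ * d * h ^ (2 * k) ∈ D ∧
        ε ((h ^ (2 * k))⁻¹ * d * h ^ (2 * k)) = ε d := by
      intro k
      induction k with
      | zero => intro d hd; simp [hd]
      | succ k ih =>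
        intro d hd
        obtain ⟨h4, h5⟩ := ih d hd
        have h6 : (h ^ (2 * (k + 1)))⁻¹ * d * h ^ (2 * (k + 1)) =
            h⁻¹ * (h⁻¹ * ((h ^ (2 * k))⁻¹ * d * h ^ (2 * k)) * h) * h := by
          rw [show 2 * (k + 1) = 2 * k + 1 + 1 by ring, pow_succ, pow_succ]; group
        rw [h6]
        exact ⟨hD' _ (hD' _ h4), by rw [hcon _ h4, h5]⟩
    obtain ⟨m, hm⟩ := hodd
    have h4 := (h3 (m + 1) d hd).2
    have h5 : h ^ (2 * (m + 1)) = h := by
      rw [show 2 * (m + 1) = (2 * m + 1) + 1 by ring, ← hm, pow_succ, pow_orderOf_eq_one, one_mul]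
    rwa [h5] at h4
  -- apply the killing operator
  have hcomm : ∀ d ∈ D, ∀ w, ρ d ((ρ a - 1) w) = (ρ a - 1) (ρ d w) := by
    intro d hd w
    rw [LinearMap.sub_apply, LinearMap.sub_apply, map_sub, Module.End.one_apply, Module.End.one_apply, ← rho_mul,
      ← rho_mul, had d hd]
  have hexp : (ρ h - 1) ((ρ h - 1) v) = ρ h (ρ h v) - (2 : ℕ) • ρ h v + v := by
    simp only [LinearMap.sub_apply, Module.End.one_apply, map_sub, two_smul]
    abel
  rw [hexp] at hrel
  set c1 := ε (h⁻¹ * d * h) with hc1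
  set c2 := ε (h⁻¹ * (h⁻¹ * d' * h) * h) with hc2
  -- T = (d - c1) (d' - c2)
  have hT1 : ∀ w, ρ d' ((ρ a - 1) w) - c2 • (ρ a - 1) w = (ρ a - 1) (ρ d' w - c2 • w) := by
    intro w
    rw [hcomm d' hd', map_sub, map_smul]
  have hT2 : ∀ w, ρ d ((ρ a - 1) w) - c1 • (ρ a - 1) w = (ρ a - 1) (ρ d w - c1 • w) := by
    intro w
    rw [hcomm d hd, map_sub, map_smul]
  have hs1 : (ρ a - 1) (ρ d' (ρ h (ρ h v) - (2 : ℕ) • ρ h v + v) - c2 • (ρ h (ρ h v) - (2 : ℕ) • ρ h v + v)) = 0 := by
    rw [← hT1, hrel, map_zero, smul_zero, sub_zero]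
  have hs1' : ρ d' (ρ h (ρ h v) - (2 : ℕ) • ρ h v + v) - c2 • (ρ h (ρ h v) - (2 : ℕ) • ρ h v + v) =
      (-((2 : ℕ) • (ε (h⁻¹ * d' * h) - c2))) • ρ h v + (ε d' - c2) • v := by
    rw [map_add, map_sub, map_nsmul, hw2 d' hd', hw1 d' hd', hv d' hd', ← hc2]
    module
  rw [hs1'] at hs1
  have hs2 : (ρ a - 1) (ρ d ((-((2 : ℕ) • (ε (h⁻¹ * d' * h) - c2))) • ρ h v + (ε d' - c2) • v) -
      c1 • ((-((2 : ℕ) • (ε (h⁻¹ * d' * h) - c2))) • ρ h v + (ε d' - c2) • v)) = 0 := by
    rw [← hT2, hs1, map_zero, smul_zero, sub_zero]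
  have hs2' : ρ d ((-((2 : ℕ) • (ε (h⁻¹ * d' * h) - c2))) • ρ h v + (ε d' - c2) • v) -
      c1 • ((-((2 : ℕ) • (ε (h⁻¹ * d' * h) - c2))) • ρ h v + (ε d' - c2) • v) =
      ((ε d' - c2) * (ε d - c1)) • v := by
    rw [map_add, map_smul, map_smul, hw1 d hd, hv d hd, ← hc1]
    module
  rw [hs2', map_smul] at hs2
  rcases smul_eq_zero.1 hs2 with h1 | h1
  · rcases mul_eq_zero.1 h1 with h1 | h1
    · exact hne' (sub_eq_zero.1 h1).symm
    · exact hne (sub_eq_zero.1 h1).symm
  · exact hav h1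

theorem mem_normalizer_of_conj {X : Type u} [Group X] [Finite X] {D : Subgroup X} {a : X}
    (h : ∀ d ∈ D, a * d * a⁻¹ ∈ D) : a ∈ normalizer (D : Set X) := by
  have hpow : ∀ (k : ℕ) (d : X), d ∈ D → a ^ k * d * (a ^ k)⁻¹ ∈ D := by
    intro k
    induction k with
    | zero => intro d hd; simpa using hd
    | succ k ih =>
      intro d hd
      have h1 : a ^ (k + 1) * d * (a ^ (k + 1))⁻¹ = a * (a ^ k * d * (a ^ k)⁻¹) * a⁻¹ := by
        rw [pow_succ']; group
      rw [h1]
      exact h _ (ih d hd)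
  rw [mem_normalizer_iff]
  intro d
  refine ⟨h d, fun hd => ?_⟩
  have h2 := hpow (orderOf a - 1) _ hd
  have h3 : a ^ (orderOf a - 1) = a⁻¹ := by
    rw [eq_inv_iff_mul_eq_one, ← pow_succ, Nat.sub_add_cancel (orderOf_pos a), pow_orderOf_eq_one]
  rw [h3] at h2
  have h4 : a⁻¹ * (a * d * a⁻¹) * a⁻¹⁻¹ = d := by group
  rwa [h4] at h2

theorem two_ne_zmod3 : (2 : ZMod 3) ≠ 0 := by decide

theorem three_eq_zmod3 : (3 : ZMod 3) = 0 := by decide

/-- **The commutator subgroup of a `p`-group of "length three" operators acts trivially.** -/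
theorem quad_comm_trivial {X : Type u} [Group X] [Finite X] {p : ℕ} [hp : Fact p.Prime] (hp2 : p ≠ 2)
    (hX : IsPSolvable p X) (hcore : pCore p X = ⊥) {V : Type v} [AddCommGroup V] [Module (ZMod p) V] [Finite V]
    (ρ : Representation (ZMod p) X V) (hinj : Function.Injective ρ) {H : Subgroup X} (hH : IsPGroup p H)
    (h1 : ∀ a ∈ ⁅H, H⁆, ∀ b ∈ ⁅H, H⁆, (ρ a - 1) * (ρ b - 1) = 0)
    (h2 : ∀ a ∈ ⁅H, H⁆, ∀ h ∈ H, (ρ a - 1) * ((ρ h - 1) * (ρ h - 1)) = 0) : ⁅H, H⁆ = ⊥ := by
  classical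
  by_contra hA
  set A := ⁅H, H⁆ with hAdef
  have hAH : A ≤ H := Subgroup.commutator_le_self H
  have hAp : IsPGroup p A := hH.to_le hAH
  have hHA : H ≤ normalizer (A : Set X) := by
    intro h hh
    apply mem_normalizer_of_conj
    intro d hd
    have h3 := Subgroup.map_subtype_commutator H
    rw [hAdef, ← h3] at hd ⊢
    obtain ⟨d', hd', rfl⟩ := hd
    exact ⟨⟨h, hh⟩ * d' * (⟨h, hh⟩)⁻¹, (inferInstance : (commutator H).Normal).conj_mem d' hd' _, rfl⟩
  set L := pPrimeCore p X with hL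
  haveI hLn : L.Normal := (Solv.coprime_card_sSup p _ (fun _ h => h)).1
  have hLc : (Nat.card L).Coprime p := Solv.pPrimeCore_card_coprime p
  have hnt : ⁅L, A⁆ ≠ ⊥ := comm_pPrimeCore_ne hX hcore hAp hA
  have hHL : H ≤ normalizer (L : Set X) := by rw [normalizer_eq_top]; exact le_top
  have hcopHL : (Nat.card H).Coprime (Nat.card L) := by
    obtain ⟨k, hk⟩ := IsPGroup.iff_card.1 hH
    rw [hk]
    exact (Nat.Coprime.pow_right k hLc).symm
  haveI : Group.IsNilpotent H := hH.isNilpotent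
  obtain ⟨q, hq, P, hP, hPC⟩ := H62.exists_invariant_sylow_not_le hHL hcopHL (Or.inl inferInstance)
    (C := centralizer (A : Set X)) (by
      intro h
      apply hnt
      rw [commutator_eq_bot_iff_le_centralizer]
      exact h)
  haveI : Fact q.Prime := ⟨hq⟩
  have hPq : IsPGroup q ((P : Subgroup L).map L.subtype) := P.isPGroup'.map _
  obtain ⟨Q, hQP, hHQ, hQnt, hQmin⟩ := Cop.exists_min (A := A) hP (by
    rw [Ne, commutator_eq_bot_iff_le_centralizer]; exact hPC)
  have hQq : IsPGroup q Q := hPq.to_le hQP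
  have hQL : Q ≤ L := hQP.trans (Subgroup.map_subtype_le _)
  have hQcop : (Nat.card Q).Coprime p := Nat.Coprime.coprime_dvd_left (Subgroup.card_dvd_of_le hQL) hLc
  obtain ⟨a, haA, haQ⟩ : ∃ a ∈ A, ⁅Q, zpowers a⁆ ≠ ⊥ := by
    by_contra hcon
    push Not at hcon
    apply hQnt
    rw [commutator_eq_bot_iff_le_centralizer]
    intro g hg
    rw [mem_centralizer_iff]
    intro a ha
    have h3 := hcon a ha
    rw [commutator_eq_bot_iff_le_centralizer] at h3
    exact mem_centralizer_iff.1 (h3 hg) a (mem_zpowers a)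
  have ha1 : a ≠ 1 := by
    rintro rfl
    apply haQ
    rw [zpowers_one_eq_bot, commutator_bot_right]
  obtain ⟨hp3, Q₂, hQ₂Q, hQ₂, -, -, ⟨g₀, hg₀, h₀, hh₀, hne₀⟩, -, -⟩ := quad_exc hp2 ρ hinj ha1 (h1 a haA a haA) hQcop
    (hHQ (hAH haA)) haQ
  subst hp3
  have hq2 : q = 2 := by
    by_contra hne
    have hg1 : g₀ ≠ 1 := by
      rintro rfl
      apply hne₀; rw [one_mul, mul_one]
    obtain ⟨k1, hk1⟩ := hQ₂ ⟨g₀, hg₀⟩
    obtain ⟨k2, hk2⟩ := hQq ⟨g₀, hQ₂Q hg₀⟩
    have e1 : g₀ ^ 2 ^ k1 = 1 := congrArg Subtype.val hk1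
    have e2 : g₀ ^ q ^ k2 = 1 := congrArg Subtype.val hk2
    apply hg1
    rw [← orderOf_eq_one_iff]
    apply Nat.dvd_one.1
    have h12 : Nat.Coprime (2 ^ k1) (q ^ k2) := Nat.Coprime.pow _ _ ((Nat.coprime_primes Nat.prime_two hq).2 (Ne.symm hne))
    rw [← Nat.Coprime.gcd_eq_one h12]
    exact Nat.dvd_gcd (orderOf_dvd_of_pow_eq_one e1) (orderOf_dvd_of_pow_eq_one e2)
  subst hq2
  have hAcop : (Nat.card A).Coprime 2 := by
    obtain ⟨k, hk⟩ := IsPGroup.iff_card.1 hAp
    rw [hk]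
    exact Nat.Coprime.pow_left k (by norm_num)
  have hstr := Cop.min_structure hQq hHQ hAH hHA hAcop hQnt hQmin
  obtain ⟨hsp, -, hcen⟩ : Cfsg.IsSpecial 2 Q ∧ ¬ IsMulCommutative Q ∧
      (center Q).map Q.subtype = Q ⊓ centralizer (A : Set X) := by
    rcases hstr with ⟨h3, -⟩ | h3
    · exfalso
      apply hne₀
      have := h3.1.is_comm.comm ⟨g₀, hQ₂Q hg₀⟩ ⟨h₀, hQ₂Q hh₀⟩
      exact congrArg Subtype.val this
    · exact h3
  set D := Q ⊓ centralizer (A : Set X) with hD
  have hDQ : D ≤ Q := inf_le_left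
  have hDcomm : ∀ d ∈ D, ∀ g ∈ Q, d * g = g * d := by
    intro d hd g hg
    rw [← hcen] at hd
    obtain ⟨z, hz, rfl⟩ := hd
    have := congrArg Subtype.val (mem_center_iff.1 hz ⟨g, hg⟩)
    exact this.symm
  have hDA : ∀ d ∈ D, ∀ b ∈ A, b * d = d * b := fun d hd b hb => mem_centralizer_iff.1 hd.2 b hb
  have hDsq : ∀ d ∈ D, d * d = 1 := by
    intro d hd
    rw [← hcen] at hd
    obtain ⟨z, hz, rfl⟩ := hd
    have := congrArg Subtype.val (Extra.center_pow_eq_one_of_isSpecial hsp z hz)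
    rw [← pow_two]
    exact this
  have hQcommD : ∀ s ∈ Q, ∀ t ∈ Q, ⁅s, t⁆ ∈ D := by
    intro s hs t ht
    rw [← hcen]
    refine ⟨⁅(⟨s, hs⟩ : Q), (⟨t, ht⟩ : Q)⁆, ?_, rfl⟩
    rw [← hsp.2.2, _root_.commutator_def]
    exact commutator_mem_commutator (mem_top _) (mem_top _)
  have hQsqD : ∀ t ∈ Q, t * t ∈ D := by
    intro t ht
    rw [← hcen]
    have := Extra.pow_mem_center_of_isSpecial hsp (⟨t, ht⟩ : Q)
    refine ⟨_, this, ?_⟩
    change t ^ 2 = t * t
    rw [pow_two]
  have hHD : H ≤ normalizer (D : Set X) := by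
    have h3 : H ≤ normalizer ((centralizer (A : Set X) : Subgroup X) : Set X) := by
      intro h hh
      apply mem_normalizer_of_conj
      intro d hd
      rw [mem_centralizer_iff] at hd ⊢
      intro b hb
      have h4 : h⁻¹ * b * h ∈ A := by
        have := (mem_normalizer_iff.1 (hHA (inv_mem hh)) b).1 hb
        rwa [inv_inv] at this
      have h5 := hd _ h4
      calc b * (h * d * h⁻¹) = h * ((h⁻¹ * b * h) * d) * h⁻¹ := by group
        _ = h * (d * (h⁻¹ * b * h)) * h⁻¹ := by rw [h5]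
        _ = h * d * h⁻¹ * b := by group
    exact (le_inf hHQ h3).trans Subgroup.inf_normalizer_le_normalizer_inf
  -- an element t
  have haH := hAH haA
  have hVnt : Nontrivial V := by
    by_contra hcon
    rw [not_nontrivial_iff_subsingleton] at hcon
    apply ha1
    apply hinj
    apply LinearMap.ext
    intro v
    exact Subsingleton.elim _ _
  haveI : CharP (Module.End (ZMod 3) V) 3 := charP_end_of
  have ha3 : a ^ 3 = 1 := by
    apply hinj
    rw [map_pow, map_one, ← sub_eq_zero]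
    have h10 : (ρ a - 1) ^ 3 = ρ a ^ 3 - 1 := by
      rw [sub_pow_char_of_commute 3 (Commute.one_right _), one_pow]
    rw [← h10, pow_succ, pow_two, h1 a haA a haA, zero_mul]
  have hcjQ : ∀ h ∈ H, ∀ x ∈ Q, h * x * h⁻¹ ∈ Q := fun h hh x hx => (mem_normalizer_iff.1 (hHQ hh) x).1 hx
  obtain ⟨t, ht, htne⟩ : ∃ t ∈ Q, ⁅t, a * t * a⁻¹⁆ ≠ 1 := by
    by_contra hcon
    push Not at hcon
    apply haQ
    rw [Subgroup.commutator_comm, commutator_eq_bot_iff_le_centralizer, zpowers_le, mem_centralizer_iff]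
    intro t ht
    by_contra hne
    set t1 := a * t * a⁻¹ with ht1
    set t2 := a * t1 * a⁻¹ with ht2
    have ht1Q := hcjQ a haH t ht
    have ht2Q := hcjQ a haH t1 ht1Q
    have ht3 : a * t2 * a⁻¹ = t := by
      have h4 : a * t2 * a⁻¹ = a ^ 3 * t * (a ^ 3)⁻¹ := by
        rw [ht2, ht1]
        simp only [pow_succ, pow_zero, one_mul, mul_inv_rev, mul_assoc]
      rw [h4, ha3]; group
    have c1 : t * t1 = t1 * t := commutatorElement_eq_one_iff_mul_comm.1 (hcon t ht)
    have c2 : t1 * t2 = t2 * t1 := commutatorElement_eq_one_iff_mul_comm.1 (hcon t1 ht1Q)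
    have c3 : t2 * t = t * t2 := by
      have := commutatorElement_eq_one_iff_mul_comm.1 (hcon t2 ht2Q)
      rwa [ht3] at this
    set E := closure ({t, t1, t2} : Set X) with hE
    have hEQ : E ≤ Q := by
      rw [hE, closure_le]
      rintro x (rfl | rfl | rfl)
      · exact ht
      · exact ht1Q
      · exact ht2Q
    have haE : a ∈ normalizer (E : Set X) := by
      apply mem_normalizer_of_conj
      intro d hd
      rw [hE] at hd
      induction hd using closure_induction with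
      | mem x hx =>
        rcases hx with rfl | rfl | rfl
        · exact subset_closure (by right; left; rfl)
        · exact subset_closure (by right; right; rfl)
        · rw [ht3]; exact subset_closure (by left; rfl)
      | one => simp
      | mul x y _ _ hx hy =>
        have : a * (x * y) * a⁻¹ = (a * x * a⁻¹) * (a * y * a⁻¹) := by group
        rw [this]; exact mul_mem hx hy
      | inv x _ hx =>
        have : a * x⁻¹ * a⁻¹ = (a * x * a⁻¹)⁻¹ := by group
        rw [this]; exact inv_mem hx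
    have hEc : ∀ x ∈ E, ∀ y ∈ E, x * y = y * x := by
      have h4 : E ≤ centralizer (E : Set X) := by
        rw [hE, closure_le, centralizer_closure]
        rintro x (rfl | rfl | rfl) <;> rw [SetLike.mem_coe, mem_centralizer_iff] <;>
          rintro y (rfl | rfl | rfl)
        · rfl
        · exact c1.symm
        · exact c3
        · exact c1
        · rfl
        · exact c2.symm
        · exact c3.symm
        · exact c2
        · rfl
      intro x hx y hy
      exact (mem_centralizer_iff.1 (h4 hx) y hy).symm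
    have hEnt : ⁅E, zpowers a⁆ ≠ ⊥ := by
      intro h4
      apply hne
      rw [commutator_eq_bot_iff_le_centralizer] at h4
      exact (mem_centralizer_iff.1 (h4 (subset_closure (by left; rfl))) a (mem_zpowers a)).symm
    obtain ⟨-, Q₃, hQ₃, -, -, -, ⟨g₁, hg₁, h₁, hh₁, hne₁⟩, -, -⟩ := quad_exc hp2 ρ hinj ha1 (h1 a haA a haA)
      (Nat.Coprime.coprime_dvd_left (Subgroup.card_dvd_of_le hEQ) hQcop) haE hEnt
    exact hne₁ (hEc _ (hQ₃ hg₁) _ (hQ₃ hh₁))
  set t1 := a * t * a⁻¹ with ht1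
  have ht1Q := hcjQ a haH t ht
  set z := ⁅t, t1⁆ with hz
  have hzD : z ∈ D := hQcommD t ht t1 ht1Q
  have h20 : (2 : ZMod 3) ≠ 0 := two_ne_zmod3
  -- the space S
  let S : Submodule (ZMod 3) V := LinearMap.ker (ρ z + 1)
  have hS : ∀ v, v ∈ S ↔ ρ z v = -v := by
    intro v
    change ρ z v + v = 0 ↔ _
    exact eq_neg_iff_add_eq_zero.symm
  have hself : ∀ v : V, v = -v → v = 0 := by
    intro v hv
    have h4 : (2 : ZMod 3) • v = 0 := by
      rw [two_smul]
      nth_rewrite 1 [hv]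
      exact neg_add_cancel v
    exact (smul_eq_zero.1 h4).resolve_left h20
  have hSQ : ∀ g ∈ Q, ∀ v ∈ S, ρ g v ∈ S := by
    intro g hg v hv
    rw [hS] at hv ⊢
    rw [← rho_mul, hDcomm z hzD g hg, rho_mul, hv, map_neg]
  have hSex : ∃ v ∈ S, (ρ a - 1) v ≠ 0 := by
    by_contra hcon
    push Not at hcon
    have hfix : ∀ v ∈ S, ρ a v = v := by
      intro v hv
      have := hcon v hv
      rw [LinearMap.sub_apply, Module.End.one_apply, sub_eq_zero] at this
      exact this
    have hfix' : ∀ v ∈ S, ρ a⁻¹ v = v := by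
      intro v hv
      conv_lhs => rw [← hfix v hv]
      exact rho_inv_apply ρ a v
    have hS0 : ∀ v ∈ S, v = 0 := by
      intro v hv
      apply hself
      rw [← (hS v).1 hv]
      have h4 : z = t * a * t * a⁻¹ * t⁻¹ * a * t⁻¹ * a⁻¹ := by
        rw [hz, ht1, commutatorElement_def]; group
      have hti := inv_mem ht
      rw [h4]
      simp only [rho_mul]
      rw [hfix' v hv, hfix _ (hSQ _ hti v hv), hfix' _ (hSQ _ hti _ (hSQ _ hti v hv)),
        hfix _ (hSQ _ ht _ (hSQ _ hti _ (hSQ _ hti v hv))), rho_apply_inv, rho_apply_inv]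
    apply htne
    apply hinj
    rw [map_one]
    apply LinearMap.ext
    intro v
    rw [Module.End.one_apply, ← sub_eq_zero]
    apply hS0
    rw [hS, map_sub, ← rho_mul, hDsq z hzD, map_one, Module.End.one_apply]
    abel
  have hDfin : (Set.image ρ (D : Set X)).Finite := Set.toFinite _
  obtain ⟨v, hvS, hfv, hsv⟩ := exists_sign_vector h20 (ρ a - 1) hDfin.toFinset S (by
      intro d hd
      rw [Set.Finite.mem_toFinset] at hd
      obtain ⟨d', hd', rfl⟩ := hd
      exact hSQ d' (hDQ hd')) (by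
      intro d hd
      rw [Set.Finite.mem_toFinset] at hd
      obtain ⟨d', hd', rfl⟩ := hd
      rw [← map_mul, hDsq d' hd', map_one]) (by
      intro d hd e he
      rw [Set.Finite.mem_toFinset] at hd he
      obtain ⟨d', hd', rfl⟩ := hd
      obtain ⟨e', he', rfl⟩ := he
      rw [← map_mul, ← map_mul, hDcomm d' hd' e' (hDQ he')]) hSex
  have hv0 : v ≠ 0 := by
    rintro rfl
    exact hfv (map_zero _)
  let ε : X → ZMod 3 := fun d => if ρ d v = v then 1 else -1
  have hε : ∀ d ∈ D, ρ d v = ε d • v := by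
    intro d hd
    by_cases h4 : ρ d v = v
    · simp only [ε, if_pos h4, one_smul]; exact h4
    · have h5 := (hsv (ρ d) (by rw [Set.Finite.mem_toFinset]; exact ⟨d, hd, rfl⟩)).resolve_left h4
      simp only [ε, if_neg h4, neg_smul, one_smul]; exact h5
  have hε1 : ∀ d, ε d = 1 ∨ ε d = -1 := by
    intro d
    by_cases h4 : ρ d v = v
    · left; simp only [ε, if_pos h4]
    · right; simp only [ε, if_neg h4]
  have hodd : ∀ h ∈ H, Odd (orderOf h) := by
    intro h hh
    obtain ⟨k, hk⟩ := hH ⟨h, hh⟩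
    have hk' : h ^ 3 ^ k = 1 := congrArg Subtype.val hk
    have h4 := orderOf_dvd_of_pow_eq_one hk'
    exact Odd.of_dvd_nat (Odd.pow (by decide)) h4
  have hεH : ∀ h ∈ H, ∀ d ∈ D, ε (h⁻¹ * d * h) = ε d := by
    intro h hh
    refine weight_stable ρ (a := a) (h := h) (D := D) (v := v) (ε := ε) ?_ ?_ ?_ ?_ ?_ ?_ ?_
    · exact fun d hd => (mem_normalizer_iff.1 (hHD hh) d).1 hd
    · intro d hd
      have := (mem_normalizer_iff.1 (hHD (inv_mem hh)) d).1 hd
      rwa [inv_inv] at this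
    · exact fun d hd => hDA d hd a haA
    · exact hodd h hh
    · exact hε
    · exact hfv
    · have := congrArg (fun T : Module.End (ZMod 3) V => T v) (h2 a haA h hh)
      exact this
  let W : Submodule (ZMod 3) V :=
    { carrier := {w | ∀ d ∈ D, ρ d w = ε d • w}
      zero_mem' := by intro d _; rw [map_zero, smul_zero]
      add_mem' := by intro x y hx hy d hd; rw [map_add, hx d hd, hy d hd, smul_add]
      smul_mem' := by intro c x hx d hd; rw [map_smul, hx d hd, smul_comm] }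
  have hW : ∀ w, w ∈ W ↔ ∀ d ∈ D, ρ d w = ε d • w := fun _ => Iff.rfl
  have hvW : v ∈ W := hε
  let Y : Subgroup X :=
    { carrier := {g | (∀ w ∈ W, ρ g w ∈ W) ∧ (∀ w ∈ W, ρ g⁻¹ w ∈ W)}
      one_mem' := ⟨fun w hw => by rw [map_one]; exact hw, fun w hw => by rw [inv_one, map_one]; exact hw⟩
      mul_mem' := by
        rintro x y ⟨hx1, hx2⟩ ⟨hy1, hy2⟩
        refine ⟨fun w hw => ?_, fun w hw => ?_⟩
        · rw [rho_mul]; exact hx1 _ (hy1 _ hw)
        · rw [mul_inv_rev, rho_mul]; exact hy2 _ (hx2 _ hw)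
      inv_mem' := by
        rintro x ⟨hx1, hx2⟩
        refine ⟨hx2, fun w hw => ?_⟩
        rw [inv_inv]; exact hx1 w hw }
  have hY : ∀ g, g ∈ Y ↔ (∀ w ∈ W, ρ g w ∈ W) ∧ (∀ w ∈ W, ρ g⁻¹ w ∈ W) := fun _ => Iff.rfl
  have hQY : Q ≤ Y := by
    have h4 : ∀ g ∈ Q, ∀ w ∈ W, ρ g w ∈ W := by
      intro g hg w hw
      rw [hW] at hw ⊢
      intro d hd
      rw [← rho_mul, hDcomm d hd g hg, rho_mul, hw d hd, map_smul]
    intro g hg
    exact ⟨h4 g hg, h4 _ (inv_mem hg)⟩
  have hHY : H ≤ Y := by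
    have h4 : ∀ g ∈ H, ∀ w ∈ W, ρ g w ∈ W := by
      intro g hg w hw
      rw [hW] at hw ⊢
      intro d hd
      have h5 : g⁻¹ * d * g ∈ D := by
        have := (mem_normalizer_iff.1 (hHD (inv_mem hg)) d).1 hd
        rwa [inv_inv] at this
      have h6 : ρ d (ρ g w) = ρ g (ρ (g⁻¹ * d * g) w) := by
        rw [← rho_mul, ← rho_mul]; congr 2; group
      rw [h6, hw _ h5, map_smul, hεH g hg d hd]
    intro g hg
    exact ⟨h4 g hg, h4 _ (inv_mem hg)⟩
  let σ : X → Module.End (ZMod 3) W := fun g => if h : g ∈ Y then (ρ g).restrict ((hY g).1 h).1 else 0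
  have hσ : ∀ g ∈ Y, ∀ w : W, ((σ g w : W) : V) = ρ g w := by
    intro g hg w
    simp only [σ, dif_pos hg]
    rfl
  have hPH : PHom Y σ := by
    constructor
    · apply LinearMap.ext
      intro w
      apply Subtype.ext
      rw [hσ 1 (one_mem Y), map_one]; rfl
    · intro g hg h hh
      apply LinearMap.ext
      intro w
      apply Subtype.ext
      rw [hσ _ (mul_mem hg hh), Module.End.mul_apply, hσ _ hg, hσ _ hh, rho_mul]
  have hσD : ∀ d ∈ D, σ d = ε d • 1 := by
    intro d hd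
    apply LinearMap.ext
    intro w
    apply Subtype.ext
    rw [hσ d (hQY (hDQ hd)), (hW w).1 w.2 d hd]
    rfl
  have hσD1 : ∀ d ∈ D, σ d = 1 ∨ σ d = -1 := by
    intro d hd
    rw [hσD d hd]
    rcases hε1 d with h4 | h4
    · left; rw [h4, one_smul]
    · right; rw [h4, neg_smul, one_smul]
  have hWnt : Nontrivial W := ⟨⟨⟨v, hvW⟩, 0, fun h => hv0 (congrArg Subtype.val h)⟩⟩
  have hAY : A ≤ Y := hAH.trans hHY
  refine core3 (R := Module.End (ZMod 3) W) ?_ hPH hQY hHY hH hHQ (fun s hs t ht => hσD1 _ (hQcommD s hs t ht))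
    (fun t ht => hσD1 _ (hQsqD t ht)) ?_ haA ht ?_
  · apply LinearMap.ext
    intro w
    have h4 : ((3 : Module.End (ZMod 3) W)) = ((3 : ZMod 3)) • 1 := by
      rw [Algebra.smul_def, mul_one, map_ofNat]
    rw [h4, show (3 : ZMod 3) = 0 from three_eq_zmod3, zero_smul]
  · intro b hb c hc
    apply LinearMap.ext
    intro w
    apply Subtype.ext
    have h4 := congrArg (fun T : Module.End (ZMod 3) V => T w) (h1 b hb c hc)
    have h5 : ∀ (g : X) (_ : g ∈ Y) (u : W), (((σ g - 1) u : W) : V) = (ρ g - 1) (u : V) := by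
      intro g hg u
      rw [LinearMap.sub_apply, LinearMap.sub_apply, Submodule.coe_sub, hσ g hg]
      rfl
    rw [Module.End.mul_apply, h5 b (hAY hb), h5 c (hAY hc)]
    exact h4
  · change σ z = -1
    rw [hσD z hzD]
    have h4 : ε z = -1 := by
      have h5 : ρ z v ≠ v := by
        intro h6
        rw [(hS v).1 hvS] at h6
        exact hv0 (hself v h6.symm)
      simp only [ε, if_neg h5]
    rw [h4, neg_smul, one_smul]

end Cfsg.Agent.HH
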