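import Mathlib
import Cfsg.Agent.HH.PLenExp

set_option autoImplicit false

/-!
Wreath products involved in `p`-solvable groups of `p`-length greater than one.
-/

namespace Cfsg.Agent.HH

open Subgroup Module

universe u

variable {G : Type u} [Group G] {p : ℕ} [hp : Fact p.Prime]

/-- the intrinsic description of `C_p ≀ C_p` -/
def WreathLike (p : ℕ) (W : Type*) [Group W] : Prop :=
  ∃ (B : Subgroup W) (t : W), B.Normal ∧ IsMulCommutative B ∧ (∀ b ∈ B, b ^ p = 1) ∧
    Nat.card B = p ^ p ∧ orderOf t = p ∧ t ∉ B ∧ Nat.card W = p ^ (p + 1) ∧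
    Nat.card ↥(B ⊓ Subgroup.centralizer ({t} : Set W)) = p

theorem WreathLike.of_equiv {W W' : Type*} [Group W] [Group W'] (e : W ≃* W') (h : WreathLike p W) :
    WreathLike p W' := by
  obtain ⟨B, t, h1, h2, h3, h4, h5, h6, h7, h8⟩ := h
  have hcard : ∀ H : Subgroup W, Nat.card (H.map e.toMonoidHom) = Nat.card H := fun H =>
    (Nat.card_congr (H.equivMapOfInjective e.toMonoidHom e.injective).toEquiv).symm
  refine ⟨B.map e.toMonoidHom, e t, h1.map _ e.surjective, ?_, ?_, ?_, ?_, ?_, ?_, ?_⟩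
  · constructor
    constructor
    rintro ⟨_, a, ha, rfl⟩ ⟨_, b, hb, rfl⟩
    apply Subtype.ext
    change e a * e b = e b * e a
    rw [← map_mul, ← map_mul]
    exact congrArg e (congrArg Subtype.val (h2.is_comm.comm ⟨a, ha⟩ ⟨b, hb⟩))
  · rintro _ ⟨b, hb, rfl⟩
    change e b ^ p = 1
    rw [← map_pow, h3 b hb, map_one]
  · rw [hcard, h4]
  · rw [← h5]; exact MulEquiv.orderOf_eq e t
  · rintro ⟨b, hb, hbt⟩
    exact h6 (e.injective hbt ▸ hb)
  · rw [← h7]; exact (Nat.card_congr e.toEquiv).symm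
  · rw [← h8, ← hcard]
    congr 1
    have : B.map e.toMonoidHom ⊓ centralizer ({e t} : Set W') =
        (B ⊓ centralizer ({t} : Set W)).map e.toMonoidHom := by
      ext y
      constructor
      · rintro ⟨⟨b, hb, rfl⟩, hy⟩
        refine ⟨b, ⟨hb, mem_centralizer_singleton_iff.2 ?_⟩, rfl⟩
        replace hy := mem_centralizer_singleton_iff.1 hy
        apply e.injective
        rw [map_mul, map_mul]
        exact hy
      · rintro ⟨b, ⟨hb, hbt⟩, rfl⟩
        refine ⟨⟨b, hb, rfl⟩, mem_centralizer_singleton_iff.2 ?_⟩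
        replace hbt := mem_centralizer_singleton_iff.1 hbt
        change e b * e t = e t * e b
        rw [← map_mul, ← map_mul, hbt]
    rw [this]

theorem FMod.exists_wreath [Finite G] {V : Type*} [AddCommGroup V] [Module (ZMod p) V] [Finite V]
    (F : FMod p G V) {x : G} (hxp : x ^ p ∈ pCore p G) (hx : x ∉ pCore p G)
    (h : (F.ρ x - 1) ^ (p - 1) ≠ 0) :
    ∃ (W : Type u) (_ : Group W) (_ : Finite W) (f : ↥(pCore p G ⊔ zpowers x) →* W),
      Function.Surjective f ∧ WreathLike p W := by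
  classical
  have hpp : p.Prime := hp.out
  haveI hPn : (pCore p G).Normal := Solv.pCore_normal p
  have : FiniteDimensional (ZMod p) V := Module.Finite.of_finite
  set P₀ := pCore p G with hP₀
  set T : Module.End (ZMod p) V := F.ρ x - 1 with hT
  have hVnt : Nontrivial V := by
    by_contra hcon
    rw [not_nontrivial_iff_subsingleton] at hcon
    apply h
    apply LinearMap.ext
    intro v
    exact Subsingleton.elim _ _
  haveI : CharP (Module.End (ZMod p) V) p :=
    charP_of_injective_algebraMap (FaithfulSMul.algebraMap_injective (ZMod p) (Module.End (ZMod p) V)) p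
  have hTp : T ^ p = 0 := by
    have h1 : T ^ p ^ 1 = 0 := by
      rw [hT, sub_pow_char_pow_of_commute _ _ (Commute.one_right _), one_pow, ← map_pow, pow_one,
        (F.faithful _).2 hxp, sub_self]
    rwa [pow_one] at h1
  have hTge : ∀ i, p ≤ i → T ^ i = 0 := fun i hi => by
    rw [← Nat.add_sub_of_le hi, pow_add, hTp, zero_mul]
  obtain ⟨v, hv⟩ : ∃ v, (T ^ (p - 1)) v ≠ 0 := by
    by_contra hcon
    push Not at hcon
    exact h (LinearMap.ext hcon)
  obtain ⟨φ, hφ⟩ : ∃ φ : V →ₗ[ZMod p] ZMod p, φ ((T ^ (p - 1)) v) ≠ 0 := by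
    by_contra hcon
    push Not at hcon
    exact hv ((Module.forall_dual_apply_eq_zero_iff (ZMod p) _).1 hcon)
  -- the coordinates
  let Ψ₀ : V →ₗ[ZMod p] (Fin p → ZMod p) := LinearMap.pi (fun i => φ ∘ₗ (T ^ (i : ℕ)))
  have hΨ₀ : ∀ w i, Ψ₀ w i = φ ((T ^ (i : ℕ)) w) := fun _ _ => rfl
  have hΨ₀s : Function.Surjective Ψ₀ := by
    let M : (Fin p → ZMod p) →ₗ[ZMod p] (Fin p → ZMod p) :=
      Ψ₀ ∘ₗ (∑ j : Fin p, (LinearMap.proj (R := ZMod p) (φ := fun _ : Fin p => ZMod p) j).smulRight ((T ^ (j : ℕ)) v))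
    have hM : ∀ a, M a = Ψ₀ (∑ j : Fin p, a j • (T ^ (j : ℕ)) v) := by
      intro a
      simp only [M, LinearMap.comp_apply, LinearMap.sum_apply, LinearMap.smulRight_apply, LinearMap.proj_apply]
    have hMi : Function.Injective M := by
      rw [injective_iff_map_eq_zero]
      intro a ha
      by_contra hne
      have hex : ∃ j : ℕ, ∃ hj : j < p, a ⟨j, hj⟩ ≠ 0 := by
        by_contra hcon
        push Not at hcon
        apply hne
        funext j
        exact hcon j j.2
      obtain ⟨hj₀, haj₀⟩ := Nat.find_spec hex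
      set j₀ := Nat.find hex with hj₀def
      have hmin : ∀ j < j₀, ∀ hj : j < p, a ⟨j, hj⟩ = 0 := by
        intro j hj hjp
        by_contra hcon
        exact Nat.find_min hex hj ⟨hjp, hcon⟩
      have h1 : Ψ₀ (∑ j : Fin p, a j • (T ^ (j : ℕ)) v) ⟨p - 1 - j₀, by omega⟩ = 0 := by
        rw [← hM, ha]; rfl
      rw [hΨ₀, map_sum, map_sum, Finset.sum_eq_single (⟨j₀, hj₀⟩ : Fin p)] at h1
      · simp only at h1
        rw [map_smul, map_smul, ← Module.End.mul_apply, ← pow_add, Nat.sub_add_cancel (by omega),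
          smul_eq_mul] at h1
        rcases mul_eq_zero.1 h1 with h2 | h2
        · exact haj₀ h2
        · exact hφ h2
      · intro j _ hj
        simp only
        rcases lt_trichotomy (j : ℕ) j₀ with h2 | h2 | h2
        · rw [hmin j h2 j.2, zero_smul, map_zero, map_zero]
        · exact absurd (Fin.ext h2) hj
        · rw [map_smul, ← Module.End.mul_apply, ← pow_add, hTge _ (by omega)]
          simp
      · intro h2; exact absurd (Finset.mem_univ _) h2
    have hMs := LinearMap.injective_iff_surjective.1 hMi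
    intro f
    obtain ⟨a, ha⟩ := hMs f
    exact ⟨_, by rw [← hM, ha]⟩
  let Ψ : P₀ →* Multiplicative (Fin p → ZMod p) := Ψ₀.toAddMonoidHom.toMultiplicative.comp F.π
  have hΨ : ∀ u, Ψ u = Multiplicative.ofAdd (Ψ₀ (F.π u).toAdd) := fun _ => rfl
  have hΨs : Function.Surjective Ψ := by
    intro f
    obtain ⟨w, hw⟩ := hΨ₀s f.toAdd
    obtain ⟨u, hu⟩ := F.surj (Multiplicative.ofAdd w)
    refine ⟨u, ?_⟩
    rw [hΨ, hu, toAdd_ofAdd, hw]; rfl
  have hΨ1 : ∀ u, Ψ u = 1 ↔ ∀ i : ℕ, φ ((T ^ i) (F.π u).toAdd) = 0 := by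
    intro u
    constructor
    · intro h1 i
      by_cases hi : i < p
      · have h2 := congrArg (fun f => (Multiplicative.toAdd f) ⟨i, hi⟩) h1
        exact h2
      · rw [hTge i (by omega)]; simp
    · intro h1
      rw [hΨ]
      have : Ψ₀ (F.π u).toAdd = 0 := by
        funext i
        exact h1 i
      rw [this]; rfl
  -- the group K₁
  set K₁ := P₀ ⊔ zpowers x with hK₁
  have hPK : P₀ ≤ K₁ := le_sup_left
  have hxK : x ∈ K₁ := (le_sup_right : zpowers x ≤ K₁) (mem_zpowers x)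
  -- stabilizer
  let V' : Submodule (ZMod p) V :=
    { carrier := {w | ∀ i : ℕ, φ ((T ^ i) w) = 0}
      add_mem' := by
        intro a b ha hb i
        rw [map_add, map_add, ha i, hb i, add_zero]
      zero_mem' := fun i => by rw [map_zero, map_zero]
      smul_mem' := by
        intro c a ha i
        rw [map_smul, map_smul, ha i, smul_zero] }
  have hV'mem : ∀ w, w ∈ V' ↔ ∀ i : ℕ, φ ((T ^ i) w) = 0 := fun _ => Iff.rfl
  let S : Subgroup G :=
    { carrier := {g | ∀ w ∈ V', F.ρ g w ∈ V'}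
      one_mem' := fun w hw => by rw [map_one]; exact hw
      mul_mem' := by
        intro a b ha hb w hw
        rw [map_mul]; exact ha _ (hb w hw)
      inv_mem' := by
        intro a ha
        exact stable_zpowers (ρ := F.ρ) (isOfFinOrder_of_finite a) ha a⁻¹ (inv_mem (mem_zpowers a)) }
  have hKS : K₁ ≤ S := by
    apply sup_le
    · intro g hg w hw
      rw [(F.faithful g).2 hg]; exact hw
    · rw [zpowers_le]
      intro w hw i
      have h1 : F.ρ x w = T w + w := by rw [hT, LinearMap.sub_apply, Module.End.one_apply, sub_add_cancel]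
      rw [h1, map_add, map_add, ← Module.End.mul_apply, ← pow_succ, hw i, hw (i + 1), add_zero]
  let N : Subgroup K₁ :=
    { carrier := {k | ∃ hk : (k : G) ∈ P₀, Ψ ⟨k, hk⟩ = 1}
      one_mem' := ⟨one_mem _, map_one Ψ⟩
      mul_mem' := by
        rintro a b ⟨ha, ha'⟩ ⟨hb, hb'⟩
        refine ⟨mul_mem ha hb, ?_⟩
        have : (⟨((a * b : K₁) : G), mul_mem ha hb⟩ : P₀) = ⟨a, ha⟩ * ⟨b, hb⟩ := rfl
        rw [this, map_mul, ha', hb', one_mul]
      inv_mem' := by
        rintro a ⟨ha, ha'⟩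
        refine ⟨inv_mem ha, ?_⟩
        have : (⟨((a⁻¹ : K₁) : G), inv_mem ha⟩ : P₀) = (⟨a, ha⟩ : P₀)⁻¹ := rfl
        rw [this, map_inv, ha', inv_one] }
  have hNmem : ∀ k : K₁, k ∈ N ↔ ∃ hk : (k : G) ∈ P₀, Ψ ⟨k, hk⟩ = 1 := fun _ => Iff.rfl
  haveI hNn : N.Normal := by
    constructor
    rintro k ⟨hk, hk'⟩ g
    have h1 : (g : G) * k * (g : G)⁻¹ ∈ P₀ := hPn.conj_mem _ hk g
    refine ⟨h1, ?_⟩
    rw [hΨ1] at hk' ⊢
    have h2 := F.equiv g ⟨k, hk⟩ ⟨_, h1⟩ rfl
    change (F.π ⟨(g : G) * k * (g : G)⁻¹, h1⟩).toAdd = _ at h2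
    change ∀ i : ℕ, φ ((T ^ i) (F.π ⟨(g : G) * k * (g : G)⁻¹, h1⟩).toAdd) = 0
    rw [h2]
    exact hKS g.2 _ hk'
  set W := K₁ ⧸ N with hW
  set A : Subgroup K₁ := P₀.subgroupOf K₁ with hA
  -- β
  let β : P₀ →* W := (QuotientGroup.mk' N).comp (Subgroup.inclusion hPK)
  have hβ : ∀ u : P₀, β u = QuotientGroup.mk' N ⟨u, hPK u.2⟩ := fun _ => rfl
  have hβker : ∀ u : P₀, β u = 1 ↔ Ψ u = 1 := by
    intro u
    rw [hβ, QuotientGroup.mk'_apply, QuotientGroup.eq_one_iff, hNmem]
    exact ⟨fun ⟨_, h1⟩ => h1, fun h1 => ⟨u.2, h1⟩⟩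
  set B : Subgroup W := β.range with hB
  have hBmap : B = A.map (QuotientGroup.mk' N) := by
    ext w
    constructor
    · rintro ⟨u, rfl⟩
      exact ⟨⟨u, hPK u.2⟩, u.2, rfl⟩
    · rintro ⟨k, hk, rfl⟩
      exact ⟨⟨k, hk⟩, rfl⟩
  have hNA : N ≤ A := fun k hk => hk.1
  have hBcard : Nat.card B = p ^ p := by
    rw [hB, ← Subgroup.index_ker]
    have h1 : β.ker = Ψ.ker := by
      ext u
      rw [MonoidHom.mem_ker, MonoidHom.mem_ker, hβker]
    rw [h1, Subgroup.index_ker, MonoidHom.range_eq_top.2 hΨs, Subgroup.card_top]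
    change Nat.card (Fin p → ZMod p) = p ^ p
    rw [Nat.card_pi]
    simp
  have hmkx : orderOf (QuotientGroup.mk' P₀ x) = p := by
    apply orderOf_eq_prime
    · rw [← map_pow]; exact (QuotientGroup.eq_one_iff _).2 hxp
    · intro h1; exact hx ((QuotientGroup.eq_one_iff _).1 h1)
  have hAindex : A.index = p := by
    change P₀.relIndex K₁ = p
    rw [hK₁, sup_comm, Subgroup.relIndex_sup_right, H63.relIndex_eq_card_map, MonoidHom.map_zpowers,
      Nat.card_zpowers, hmkx]
  have hBindex : B.index = p := by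
    rw [hBmap, Subgroup.index_map_eq A (QuotientGroup.mk'_surjective N) (by rw [QuotientGroup.ker_mk']; exact hNA), hAindex]
  have hWcard : Nat.card W = p ^ (p + 1) := by
    rw [← Subgroup.card_mul_index B, hBcard, hBindex, pow_succ]
  -- the element t
  obtain ⟨u₀, hu₀⟩ := F.surj (Multiplicative.ofAdd (-(φ (F.π ⟨x ^ p, hxp⟩).toAdd / φ ((T ^ (p - 1)) v)) • v))
  have hxu : (u₀ : G) * x ∈ K₁ := mul_mem (hPK u₀.2) hxK
  set t : W := QuotientGroup.mk' N ⟨(u₀ : G) * x, hxu⟩ with ht
  have htp : t ^ p = 1 := by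
    rw [ht, ← map_pow]
    apply (QuotientGroup.eq_one_iff _).2
    rw [hNmem]
    obtain ⟨w, hw, hπ⟩ := F.pi_mul_pow u₀ x p
    have h1 : ((⟨(u₀ : G) * x, hxu⟩ : K₁) ^ p : K₁) = (⟨(w * ⟨x ^ p, hxp⟩ : P₀), hPK (w * ⟨x ^ p, hxp⟩ : P₀).2⟩ : K₁) := by
      apply Subtype.ext
      change ((u₀ : G) * x) ^ p = w * x ^ p
      rw [hw, inv_mul_cancel_right]
    rw [h1]
    refine ⟨(w * ⟨x ^ p, hxp⟩ : P₀).2, ?_⟩
    rw [hΨ1]
    intro i
    change φ ((T ^ i) (F.π (w * ⟨x ^ p, hxp⟩)).toAdd) = 0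
    have h2 : ∑ i ∈ Finset.range p, (F.ρ x ^ i) = T ^ (p - 1) := by
      have := geom_eq_pow (p := p) (F.ρ x) 1
      rwa [pow_one] at this
    rw [map_mul, toAdd_mul, hπ, ← LinearMap.sum_apply, h2, hu₀, toAdd_ofAdd]
    have h3 : F.ρ x (F.π ⟨x ^ p, hxp⟩).toAdd = (F.π ⟨x ^ p, hxp⟩).toAdd := by
      rw [← F.equiv x ⟨x ^ p, hxp⟩ ⟨x ^ p, hxp⟩]
      change x ^ p = x * x ^ p * x⁻¹
      rw [← pow_succ', pow_succ, mul_inv_cancel_right]
    rcases Nat.eq_zero_or_pos i with rfl | hi
    · rw [pow_zero, Module.End.one_apply, map_add, map_smul, map_smul, smul_eq_mul, neg_mul,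
        div_mul_cancel₀ _ hφ, neg_add_cancel]
    · obtain ⟨i', rfl⟩ : ∃ i', i = i' + 1 := ⟨i - 1, by omega⟩
      have h4 : T (F.π ⟨x ^ p, hxp⟩).toAdd = 0 := by
        rw [hT, LinearMap.sub_apply, h3, Module.End.one_apply, sub_self]
      rw [map_add, ← Module.End.mul_apply, ← pow_add, hTge _ (by omega), LinearMap.zero_apply, zero_add,
        pow_succ, Module.End.mul_apply, h4, map_zero, map_zero]
  have htB : t ∉ B := by
    rw [hBmap]
    rintro ⟨k, hk, hkt⟩
    have h1 : k⁻¹ * ⟨(u₀ : G) * x, hxu⟩ ∈ N := QuotientGroup.eq.1 hkt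
    obtain ⟨h2, -⟩ := h1
    have h3 : (k : G)⁻¹ * (u₀ * x) ∈ P₀ := h2
    have h4 : (u₀ : G) * x ∈ P₀ := by
      have := mul_mem (show (k : G) ∈ P₀ from hk) h3
      rwa [mul_inv_cancel_left] at this
    exact hx ((mul_mem_cancel_left u₀.2).1 h4)
  have hto : orderOf t = p := orderOf_eq_prime htp (by
    intro h1
    apply htB
    rw [h1]; exact one_mem _)
  haveI : Finite W := inferInstance
  refine ⟨W, inferInstance, inferInstance, QuotientGroup.mk' N, QuotientGroup.mk'_surjective N, B, t, ?_, ?_, ?_,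
    hBcard, hto, htB, hWcard, ?_⟩
  · rw [hBmap]
    haveI : A.Normal := inferInstance
    exact this.map _ (QuotientGroup.mk'_surjective N)
  · constructor
    constructor
    rintro ⟨_, a, rfl⟩ ⟨_, b, rfl⟩
    apply Subtype.ext
    change β a * β b = β b * β a
    have h1 : β (a * b * (b * a)⁻¹) = 1 := by
      rw [hβker, map_mul, map_inv, map_mul, map_mul, mul_comm (Ψ b), mul_inv_cancel]
    rw [map_mul, map_inv, mul_inv_eq_one, map_mul, map_mul] at h1
    exact h1
  · rintro _ ⟨a, rfl⟩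
    rw [← map_pow, hβker, map_pow]
    apply Multiplicative.toAdd.injective
    rw [toAdd_pow, toAdd_one]
    funext i
    simp
  · -- the centralizer of t in B
    let C' : Subgroup P₀ :=
      { carrier := {u | ∀ i : ℕ, φ ((T ^ (i + 1)) (F.π u).toAdd) = 0}
        one_mem' := fun i => by rw [map_one, toAdd_one, map_zero, map_zero]
        mul_mem' := by
          intro a b ha hb i
          rw [map_mul, toAdd_mul, map_add, map_add, ha i, hb i, add_zero]
        inv_mem' := by
          intro a ha i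
          rw [map_inv, toAdd_inv, map_neg, map_neg, ha i, neg_zero] }
    have hC' : ∀ u, u ∈ C' ↔ ∀ i : ℕ, φ ((T ^ (i + 1)) (F.π u).toAdd) = 0 := fun _ => Iff.rfl
    let θ : C' →* Multiplicative (ZMod p) := (φ.toAddMonoidHom.toMultiplicative.comp F.π).comp C'.subtype
    have hθ : ∀ u : C', θ u = Multiplicative.ofAdd (φ (F.π u).toAdd) := fun _ => rfl
    let γ : C' →* W := β.comp C'.subtype
    have hγθ : γ.ker = θ.ker := by
      ext u
      rw [MonoidHom.mem_ker, MonoidHom.mem_ker, hθ]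
      change β u = 1 ↔ _
      rw [hβker, hΨ1]
      constructor
      · intro h1
        have := h1 0
        rw [pow_zero, Module.End.one_apply] at this
        rw [this]; rfl
      · intro h1 i
        rcases Nat.eq_zero_or_pos i with rfl | hi
        · rw [pow_zero, Module.End.one_apply]; exact h1
        · obtain ⟨i', rfl⟩ : ∃ i', i = i' + 1 := ⟨i - 1, by omega⟩
          exact u.2 i'
    have hcent : B ⊓ centralizer ({t} : Set W) = γ.range := by
      have key : ∀ u : P₀, β u * t = t * β u ↔ u ∈ C' := by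
        intro u
        have h1 : (u₀ : G) * x * u * ((u₀ : G) * x)⁻¹ ∈ P₀ := hPn.conj_mem _ u.2 _
        have h2 : β (⟨_, h1⟩) = t * β u * t⁻¹ := rfl
        have h3 : β u * t = t * β u ↔ β (⟨_, h1⟩ * u⁻¹) = 1 := by
          rw [map_mul, map_inv, h2, mul_inv_eq_one, mul_inv_eq_iff_eq_mul]
          exact ⟨fun h => h.symm, fun h => h.symm⟩
        rw [h3, hβker, hΨ1, hC']
        have h4 : (F.π (⟨_, h1⟩ * u⁻¹)).toAdd = T (F.π u).toAdd := by
          rw [map_mul, map_inv, toAdd_mul, toAdd_inv, F.equiv ((u₀ : G) * x) u ⟨_, h1⟩ rfl, map_mul,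
            (F.faithful _).2 u₀.2, one_mul, hT, LinearMap.sub_apply, Module.End.one_apply, sub_eq_add_neg]
        rw [h4]
        constructor
        · intro h5 i
          rw [pow_succ, Module.End.mul_apply]; exact h5 i
        · intro h5 i
          have := h5 i
          rw [pow_succ, Module.End.mul_apply] at this
          exact this
      ext w
      constructor
      · rintro ⟨⟨u, rfl⟩, hw⟩
        replace hw := mem_centralizer_singleton_iff.1 hw
        exact ⟨⟨u, (key u).1 hw⟩, rfl⟩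
      · rintro ⟨u, rfl⟩
        refine ⟨⟨u, rfl⟩, mem_centralizer_singleton_iff.2 ?_⟩
        exact (key u).2 u.2
    rw [hcent, ← Subgroup.index_ker, hγθ, Subgroup.index_ker]
    have h1 : Nat.card θ.range ∣ p := by
      have := Subgroup.card_subgroup_dvd_card θ.range
      have h2 : Nat.card (Multiplicative (ZMod p)) = p := by
        change Nat.card (ZMod p) = p
        simp
      rwa [h2] at this
    rcases (Nat.dvd_prime hpp).1 h1 with h2 | h2
    · exfalso
      rw [Subgroup.card_eq_one] at h2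
      obtain ⟨u, hu⟩ := F.surj (Multiplicative.ofAdd ((T ^ (p - 1)) v))
      have hu' : u ∈ C' := by
        intro i
        rw [hu, toAdd_ofAdd, ← Module.End.mul_apply, ← pow_add, hTge _ (by
          have := hpp.pos; omega), LinearMap.zero_apply, map_zero]
      have h3 : θ ⟨u, hu'⟩ ∈ θ.range := ⟨_, rfl⟩
      rw [h2, mem_bot, hθ] at h3
      apply hφ
      have h4 := Multiplicative.ofAdd.injective h3
      rwa [hu, toAdd_ofAdd] at h4
    · exact h2

end Cfsg.Agent.HH
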